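import Mathlib
import Cfsg.Agent.Lib.Known3.Singer
import Cfsg.Agent.Lib.Classical.Basic

/-!
# Sylow subgroups of `GL_n(q)` and `SL_n(q)` for large primes.
-/

set_option autoImplicit false

open Matrix Polynomial

namespace Cfsg.Agent.Lib.KS2.AbSyl

section Num

variable {q r : ℕ} [hr : Fact r.Prime]

lemma dvd_pow_sub_one_iff (hq : 1 ≤ q) (j : ℕ) : r ∣ q ^ j - 1 ↔ orderOf (q : ZMod r) ∣ j := by
  rw [orderOf_dvd_iff_pow_eq_one, ← ZMod.natCast_eq_zero_iff, Nat.cast_sub (Nat.one_le_pow _ _ hq), sub_eq_zero]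
  simp

lemma order_pos (hrq : ¬ r ∣ q) : 0 < orderOf (q : ZMod r) := by
  rw [orderOf_pos_iff, isOfFinOrder_iff_pow_eq_one]
  refine ⟨r - 1, by have := hr.out.two_le; omega, ?_⟩
  apply ZMod.pow_card_sub_one_eq_one
  rwa [Ne, ZMod.natCast_eq_zero_iff]

lemma val_pow (hq : 2 ≤ q) (hrq : ¬ r ∣ q) {t : ℕ} (ht : 1 ≤ t) (htr : t < r) :
    padicValNat r ((q ^ orderOf (q : ZMod r)) ^ t - 1) = padicValNat r (q ^ orderOf (q : ZMod r) - 1) := by
  set d := orderOf (q : ZMod r) with hd
  have hd0 : 0 < d := order_pos hrq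
  rcases Nat.eq_or_lt_of_le ht with h | h
  · rw [← h, pow_one]
  have hodd : Odd r := hr.out.odd_of_ne_two (by omega)
  have h1 : 1 < q ^ d := Nat.one_lt_pow hd0.ne' (by omega)
  have h2 : r ∣ q ^ d - 1 := (dvd_pow_sub_one_iff (by omega) d).mpr dvd_rfl
  have h3 : ¬ r ∣ q ^ d := fun h => hrq (hr.out.dvd_of_dvd_pow h)
  have h4 := padicValNat.pow_sub_pow (p := r) hodd (y := 1) (x := q ^ d) h1 h2 h3 (n := t) (by omega)
  rw [one_pow] at h4
  have ht0 : padicValNat r t = 0 := padicValNat.eq_zero_of_not_dvd (fun hdvd => by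
    have := Nat.le_of_dvd (by omega) hdvd
    omega)
  rw [h4, ht0, add_zero]

lemma val_cyclotomic (hq : 2 ≤ q) (hrq : ¬ r ∣ q) :
    padicValNat r ((cyclotomic (orderOf (q : ZMod r)) ℤ).eval (q : ℤ)).natAbs =
      padicValNat r (q ^ orderOf (q : ZMod r) - 1) := by
  set d := orderOf (q : ZMod r) with hd
  have hd0 : 0 < d := order_pos hrq
  have h1 : (∏ e ∈ Nat.divisors d, (cyclotomic e ℤ).eval (q : ℤ)) = (q : ℤ) ^ d - 1 := by
    have := congrArg (Polynomial.eval (q : ℤ)) (prod_cyclotomic_eq_X_pow_sub_one hd0 ℤ)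
    simpa [Polynomial.eval_prod] using this
  have hdm : d ∈ Nat.divisors d := Nat.mem_divisors_self d hd0.ne'
  rw [← Finset.prod_erase_mul _ _ hdm] at h1
  set R := ∏ e ∈ (Nat.divisors d).erase d, (cyclotomic e ℤ).eval (q : ℤ) with hR
  set Φ := (cyclotomic d ℤ).eval (q : ℤ) with hΦ
  have hgt : 1 < q ^ d := Nat.one_lt_pow hd0.ne' (by omega)
  have h2 : (q ^ d - 1 : ℕ) = R.natAbs * Φ.natAbs := by
    rw [← Int.natAbs_mul, h1]
    have : ((q : ℤ) ^ d - 1) = ((q ^ d - 1 : ℕ) : ℤ) := by
      rw [Nat.cast_sub hgt.le]; simp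
    rw [this, Int.natAbs_natCast]
  have hne : q ^ d - 1 ≠ 0 := by omega
  have hR0 : R.natAbs ≠ 0 := by
    intro h; apply hne; rw [h2, h, zero_mul]
  have hΦ0 : Φ.natAbs ≠ 0 := by
    intro h; apply hne; rw [h2, h, mul_zero]
  have hrR : ¬ r ∣ R.natAbs := by
    intro hdvd
    have h3 : (r : ℤ) ∣ R := Int.natCast_dvd.mpr hdvd
    have hpr : Prime (r : ℤ) := Nat.prime_iff_prime_int.mp hr.out
    rw [hR, hpr.dvd_finsetProd_iff] at h3
    obtain ⟨e, he, hde⟩ := h3
    have he1 := Finset.mem_erase.mp he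
    have he2 := Nat.mem_divisors.mp he1.2
    have he3 : (cyclotomic e ℤ).eval (q : ℤ) ∣ (q : ℤ) ^ e - 1 := by
      have := Polynomial.eval_dvd (x := (q : ℤ)) (cyclotomic.dvd_X_pow_sub_one e ℤ)
      simpa using this
    have he4 : (r : ℤ) ∣ (q : ℤ) ^ e - 1 := hde.trans he3
    have he5 : r ∣ q ^ e - 1 := by
      have : ((q : ℤ) ^ e - 1) = ((q ^ e - 1 : ℕ) : ℤ) := by
        rw [Nat.cast_sub (Nat.one_le_pow _ _ (by omega))]; simp
      rw [this] at he4
      exact_mod_cast he4
    have he6 := (dvd_pow_sub_one_iff (by omega) e).mp he5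
    have he7 : e ≤ d := Nat.le_of_dvd hd0 he2.1
    have he8 : d ≤ e := Nat.le_of_dvd (Nat.pos_of_ne_zero (fun h => by
      rw [h] at he2; simp at he2)) he6
    exact he1.1 (le_antisymm he7 he8)
  haveI : NeZero R.natAbs := ⟨hR0⟩
  rw [h2, padicValNat.mul hR0 hΦ0, padicValNat.eq_zero_of_not_dvd hrR, zero_add]

/-- The `r`-part of the order of `GL_n`. -/
lemma val_GL (hq : 2 ≤ q) (hrq : ¬ r ∣ q) (n : ℕ) (hrn : n < r) :
    (∏ i : Fin n, (q ^ n - q ^ (i : ℕ))).factorization r =
      (n / orderOf (q : ZMod r)) * padicValNat r (q ^ orderOf (q : ZMod r) - 1) := by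
  set d := orderOf (q : ZMod r) with hd
  have hd0 : 0 < d := order_pos hrq
  have hpos : ∀ i ∈ Finset.range n, q ^ n - q ^ i ≠ 0 := by
    intro i hi
    have hi' := Finset.mem_range.mp hi
    have : q ^ i < q ^ n := Nat.pow_lt_pow_right (by omega) hi'
    omega
  rw [Fin.prod_univ_eq_prod_range (fun i => q ^ n - q ^ i) n, Nat.factorization_prod hpos, Finsupp.finsetSum_apply]
  have h1 : ∀ i ∈ Finset.range n, (q ^ n - q ^ i).factorization r = (q ^ (n - 1 - i + 1) - 1).factorization r := by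
    intro i hi
    have hi' := Finset.mem_range.mp hi
    have e1 : q ^ n - q ^ i = q ^ i * (q ^ (n - 1 - i + 1) - 1) := by
      rw [Nat.mul_sub, mul_one, ← pow_add]
      congr 2
      omega
    have h0 : q ^ (n - 1 - i + 1) - 1 ≠ 0 := by
      have : 1 < q ^ (n - 1 - i + 1) := Nat.one_lt_pow (by omega) (by omega)
      omega
    rw [e1, Nat.factorization_mul (by positivity) h0, Finsupp.add_apply, Nat.factorization_pow]
    have h2 : q.factorization r = 0 := Nat.factorization_eq_zero_of_not_dvd hrq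
    simp [h2]
  rw [Finset.sum_congr rfl h1]
  have h2 : (∑ i ∈ Finset.range n, (q ^ (n - 1 - i + 1) - 1).factorization r) =
      ∑ j ∈ Finset.range n, (q ^ (j + 1) - 1).factorization r :=
    Finset.sum_range_reflect (fun j => (q ^ (j + 1) - 1).factorization r) n
  rw [h2]
  have h3 : ∀ j ∈ Finset.range n, (q ^ (j + 1) - 1).factorization r =
      if d ∣ j + 1 then padicValNat r (q ^ d - 1) else 0 := by
    intro j hj
    have hj' := Finset.mem_range.mp hj
    split_ifs with hdj
    · obtain ⟨t, ht⟩ := hdj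
      have ht0 : 1 ≤ t := by
        by_contra h0
        have : t = 0 := by omega
        rw [this] at ht
        omega
      have htr : t < r := by
        have : t ≤ d * t := Nat.le_mul_of_pos_left t hd0
        omega
      rw [Nat.factorization_def _ hr.out, ht, pow_mul]
      exact val_pow hq hrq ht0 htr
    · apply Nat.factorization_eq_zero_of_not_dvd
      intro hdvd
      exact hdj ((dvd_pow_sub_one_iff (by omega) _).mp hdvd)
  rw [Finset.sum_congr rfl h3, Finset.sum_ite, Finset.sum_const_zero, add_zero, Finset.sum_const,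
    Nat.card_multiples, smul_eq_mul]

end Num

section Group

variable {F : Type*} [Field F] [Fintype F]

/-- Block diagonal matrices. -/
noncomputable def blockPi (ι o : Type*) [Fintype ι] [DecidableEq ι] [Fintype o] [DecidableEq o] :
    (o → GL ι F) →* GL (ι × o) F where
  toFun x :=
    { val := Matrix.blockDiagonal (fun j => (x j : Matrix ι ι F))
      inv := Matrix.blockDiagonal (fun j => ((x j)⁻¹ : GL ι F).val)
      val_inv := by
        rw [← Matrix.blockDiagonal_mul]
        simp only [Units.mul_inv]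
        exact Matrix.blockDiagonal_one
      inv_val := by
        rw [← Matrix.blockDiagonal_mul]
        simp only [Units.inv_mul]
        exact Matrix.blockDiagonal_one }
  map_one' := by
    apply Units.ext
    exact Matrix.blockDiagonal_one
  map_mul' x y := by
    apply Units.ext
    simp only [Units.val_mul, Pi.mul_apply]
    rw [← Matrix.blockDiagonal_mul]

lemma blockPi_injective (ι o : Type*) [Fintype ι] [DecidableEq ι] [Fintype o] [DecidableEq o] :
    Function.Injective (blockPi (F := F) ι o) := by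
  intro x y h
  have h1 := congrArg (fun u : GL (ι × o) F => (u : Matrix (ι × o) (ι × o) F)) h
  have h2 : (fun j => (x j : Matrix ι ι F)) = fun j => (y j : Matrix ι ι F) :=
    Matrix.blockDiagonal_injective h1
  funext j
  exact Units.ext (congrFun h2 j)

/-- Embedding `GL_d^a` into `GL_n`. -/
noncomputable def embed (d a n : ℕ) (h : d * a ≤ n) : (Fin a → GL (Fin d) F) →* GL (Fin n) F :=
  ((Cfsg.Agent.Lib.Known3.Singer.reindexGL (F := F) (Fintype.equivOfCardEq (by simp; omega) :
      (Fin d × Fin a) ⊕ Fin (n - d * a) ≃ Fin n)).toMonoidHom.comp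
    (Cfsg.Agent.Lib.Known3.Singer.blockHom (F := F) (Fin d × Fin a) (Fin (n - d * a)))).comp
    ((MonoidHom.inl _ _).comp (blockPi (Fin d) (Fin a)))

lemma embed_injective (d a n : ℕ) (h : d * a ≤ n) : Function.Injective (embed (F := F) d a n h) := by
  unfold embed
  simp only [MonoidHom.coe_comp, MulEquiv.coe_toMonoidHom]
  refine Function.Injective.comp (Function.Injective.comp (MulEquiv.injective _)
    (Cfsg.Agent.Lib.Known3.Singer.blockHom_injective _ _)) (Function.Injective.comp ?_ (blockPi_injective _ _))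
  intro x y hxy
  exact congrArg Prod.fst hxy

lemma exists_zmod_equiv {G : Type*} [Group G] [Finite G] (c : G) {M : ℕ} (hc : orderOf c = M) :
    Nonempty (Subgroup.zpowers c ≃* Multiplicative (ZMod M)) := by
  have h1 : Nat.card (Subgroup.zpowers c) = M := by rw [Nat.card_zpowers, hc]
  subst h1
  exact ⟨(zmodCyclicMulEquiv (inferInstance : IsCyclic (Subgroup.zpowers c))).symm⟩

/-- The abstract construction: an injective homomorphism of a product of cyclic groups whose image has
the order of a Sylow subgroup. -/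
lemma sylow_iso_of_hom {G C : Type*} [Group G] [Finite G] [Group C] [Finite C] {r a M : ℕ} [hr : Fact r.Prime]
    {T : Type*} [Group T] (e₀ : C ≃* T) (ψ : (Fin a → C) →* G) (hψ : Function.Injective ψ)
    (hC : Nat.card C = M) (hM : ∃ v, M = r ^ v ∧ (Nat.card G).factorization r = a * v) (P : Sylow r G) :
    Nonempty (P ≃* (Fin a → T)) := by
  obtain ⟨v, hv, hfac⟩ := hM
  have hcard : Nat.card ψ.range = r ^ (Nat.card G).factorization r := by
    rw [Nat.card_congr (MonoidHom.ofInjective hψ).toEquiv.symm, Nat.card_pi]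
    simp only [hC, Finset.prod_const, Finset.card_univ, Fintype.card_fin]
    rw [hv, hfac, ← pow_mul, mul_comm]
  let S : Sylow r G := Sylow.ofCard ψ.range hcard
  have hS : (S : Subgroup G) = ψ.range := Sylow.coe_ofCard _ _
  have e1 : P ≃* S := Sylow.equiv P S
  have e2 : S ≃* ψ.range := MulEquiv.subgroupCongr hS
  have e3 : (Fin a → C) ≃* ψ.range := MonoidHom.ofInjective hψ
  exact ⟨e1.trans (e2.trans (e3.symm.trans (MulEquiv.piCongrRight (fun _ => e₀))))⟩

variable {q : ℕ}

/-- The main theorem for `GL_n`. -/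
theorem gl_sylow (hq : Fintype.card F = q) (n r : ℕ) [hr : Fact r.Prime] (hrn : n < r) (hrq : ¬ r ∣ q)
    (P : Sylow r (GL (Fin n) F)) :
    Nonempty (↥(P : Subgroup (GL (Fin n) F)) ≃*
      (Fin (n / orderOf (q : ZMod r)) →
        Multiplicative (ZMod (r ^ padicValNat r ((Polynomial.cyclotomic (orderOf (q : ZMod r)) ℤ).eval (q : ℤ)).natAbs)))) := by
  have hq2 : 2 ≤ q := by rw [← hq]; exact Fintype.one_lt_card
  set d := orderOf (q : ZMod r) with hd
  have hd0 : 0 < d := order_pos hrq
  set v := padicValNat r ((Polynomial.cyclotomic d ℤ).eval (q : ℤ)).natAbs with hv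
  have hv2 : v = padicValNat r (q ^ d - 1) := val_cyclotomic hq2 hrq
  set M := r ^ v with hM
  have hMd : M ∣ Fintype.card F ^ Fintype.card (Fin d) - 1 := by
    rw [hq, Fintype.card_fin, hM, hv2]
    exact pow_padicValNat_dvd
  haveI : Nonempty (Fin d) := ⟨⟨0, hd0⟩⟩
  obtain ⟨c, hc⟩ := Cfsg.Agent.Lib.Known3.Singer.exists_orderOf_of_dvd (F := F) (Fin d) hMd
  obtain ⟨e₀⟩ := exists_zmod_equiv c hc
  set a := n / d with ha
  have hadn : d * a ≤ n := Nat.mul_div_le n d
  let ψ : (Fin a → Subgroup.zpowers c) →* GL (Fin n) F :=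
    (embed d a n hadn).comp (MonoidHom.compLeft (Subgroup.zpowers c).subtype (Fin a))
  have hψ : Function.Injective ψ := by
    apply Function.Injective.comp (embed_injective d a n hadn)
    intro x y hxy
    funext j
    exact Subtype.ext (congrFun hxy j)
  refine sylow_iso_of_hom e₀ ψ hψ (by rw [Nat.card_zpowers, hc]) ⟨v, rfl, ?_⟩ P
  rw [Matrix.card_GL_field, hq, val_GL hq2 hrq n hrn, ← hv2]

end Group

end Cfsg.Agent.Lib.KS2.AbSyl
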