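import Mathlib
import Cfsg.Agent.Lib.KS2.AbSyl

/-!
# Sylow subgroups of `SL_n(q)` for large primes.
-/

set_option autoImplicit false

open Matrix Polynomial

namespace Cfsg.Agent.Lib.KS2.AbSyl

variable {F : Type*} [Field F] [Fintype F]

/-- The diagonal embedding. -/
noncomputable def diagFun {k : ℕ} (t : Fin k → Fˣ) : Fin (k + 1) → F :=
  Fin.snoc (fun i => ((t i : Fˣ) : F)) (((∏ i, t i)⁻¹ : Fˣ) : F)

lemma diagFun_castSucc {k : ℕ} (t : Fin k → Fˣ) (i : Fin k) : diagFun t i.castSucc = t i := by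
  simp [diagFun]

lemma diagFun_last {k : ℕ} (t : Fin k → Fˣ) : diagFun t (Fin.last k) = (((∏ i, t i)⁻¹ : Fˣ) : F) := by
  simp [diagFun]

lemma diagFun_mul {k : ℕ} (t t' : Fin k → Fˣ) : diagFun (t * t') = diagFun t * diagFun t' := by
  funext i
  refine Fin.lastCases ?_ (fun i => ?_) i
  · rw [Pi.mul_apply, diagFun_last, diagFun_last, diagFun_last, ← Units.val_mul]
    congr 1
    simp only [Pi.mul_apply, Finset.prod_mul_distrib, mul_inv]
  · rw [Pi.mul_apply, diagFun_castSucc, diagFun_castSucc, diagFun_castSucc]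
    simp

lemma diagFun_det {k : ℕ} (t : Fin k → Fˣ) : ∏ i, diagFun t i = 1 := by
  rw [Fin.prod_univ_castSucc]
  simp only [diagFun_castSucc, diagFun_last]
  rw [← Units.coe_prod, ← Units.val_mul, mul_inv_cancel, Units.val_one]

/-- The diagonal homomorphism to `SL`. -/
noncomputable def diagHom (k : ℕ) : (Fin k → Fˣ) →* Matrix.SpecialLinearGroup (Fin (k + 1)) F where
  toFun t := ⟨Matrix.diagonal (diagFun t), by rw [Matrix.det_diagonal, diagFun_det]⟩
  map_one' := by
    apply Subtype.ext
    have : diagFun (1 : Fin k → Fˣ) = 1 := by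
      funext i
      refine Fin.lastCases ?_ (fun i => ?_) i
      · rw [diagFun_last]; simp
      · rw [diagFun_castSucc]; simp
    simp [this]
  map_mul' t t' := by
    apply Subtype.ext
    show Matrix.diagonal (diagFun (t * t')) = Matrix.diagonal (diagFun t) * Matrix.diagonal (diagFun t')
    rw [diagFun_mul, Matrix.diagonal_mul_diagonal]
    rfl

lemma diagHom_injective (k : ℕ) : Function.Injective (diagHom (F := F) k) := by
  intro t t' h
  have h1 : Matrix.diagonal (diagFun t) = Matrix.diagonal (diagFun t') := congrArg Subtype.val h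
  have h2 := Matrix.diagonal_injective h1
  funext i
  apply Units.ext
  have := congrFun h2 i.castSucc
  rwa [diagFun_castSucc, diagFun_castSucc] at this

variable {q : ℕ}

lemma card_filter_of_two_le {d n : ℕ} (hd : 2 ≤ d) :
    ((Finset.Icc 2 n).filter (fun i => d ∣ i)).card = n / d := by
  rw [← Nat.Ioc_filter_dvd_card_eq_div n d]
  congr 1
  ext i
  simp only [Finset.mem_filter, Finset.mem_Icc, Finset.mem_Ioc]
  constructor
  · rintro ⟨⟨h1, h2⟩, h3⟩
    exact ⟨⟨by omega, h2⟩, h3⟩
  · rintro ⟨⟨h1, h2⟩, h3⟩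
    have : d ≤ i := Nat.le_of_dvd h1 h3
    exact ⟨⟨by omega, h2⟩, h3⟩

/-- The main theorem for `SL_n`. -/
theorem sl_sylow (hq : Fintype.card F = q) (n r : ℕ) [hr : Fact r.Prime] (hrn : n < r) (hrq : ¬ r ∣ q)
    (P : Sylow r (Matrix.SpecialLinearGroup (Fin n) F)) :
    Nonempty (↥(P : Subgroup (Matrix.SpecialLinearGroup (Fin n) F)) ≃*
      (Fin ((Finset.Icc 2 n).filter (fun i => orderOf (q : ZMod r) ∣ i)).card →
        Multiplicative (ZMod (r ^ padicValNat r ((Polynomial.cyclotomic (orderOf (q : ZMod r)) ℤ).eval (q : ℤ)).natAbs)))) := by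
  classical
  have hq2 : 2 ≤ q := by rw [← hq]; exact Fintype.one_lt_card
  set d := orderOf (q : ZMod r) with hd
  have hd0 : 0 < d := order_pos hrq
  set v := padicValNat r ((Polynomial.cyclotomic d ℤ).eval (q : ℤ)).natAbs with hv
  have hv2 : v = padicValNat r (q ^ d - 1) := val_cyclotomic hq2 hrq
  set M := r ^ v with hM
  have hM0 : M ≠ 0 := pow_ne_zero _ hr.out.ne_zero
  haveI : NeZero M := ⟨hM0⟩
  rcases Nat.eq_zero_or_pos n with rfl | hn
  · -- the trivial case
    have h1 : ((Finset.Icc 2 0).filter (fun i => d ∣ i)).card = 0 := by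
      simp
    rw [h1]
    have hsub : Subsingleton (Matrix.SpecialLinearGroup (Fin 0) F) := by
      constructor
      intro a b
      apply Subtype.ext
      ext i
      exact i.elim0
    have hcard : Nat.card (Matrix.SpecialLinearGroup (Fin 0) F) = 1 := Nat.card_of_subsingleton 1
    refine sylow_iso_of_hom (C := Multiplicative (ZMod M)) (MulEquiv.refl _) 1 ?_ (M := M) (by simp) ⟨v, rfl, ?_⟩ P
    · intro x y _
      funext i
      exact i.elim0
    · rw [hcard]; simp
  have hSL := Cfsg.Agent.Lib.Classical.card_SL hq n hn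
  have hGL := val_GL (r := r) hq2 hrq n hrn
  rw [← hSL] at hGL
  have hSL0 : Nat.card (Matrix.SpecialLinearGroup (Fin n) F) ≠ 0 := Nat.card_pos.ne'
  have hq1 : q - 1 ≠ 0 := by omega
  rw [Nat.factorization_mul hq1 hSL0, Finsupp.add_apply] at hGL
  rcases Nat.lt_or_ge d 2 with hd1 | hd2
  · -- the case `d = 1`
    have hd1' : d = 1 := by omega
    obtain ⟨k, rfl⟩ : ∃ k, n = k + 1 := ⟨n - 1, by omega⟩
    have h1 : ((Finset.Icc 2 (k + 1)).filter (fun i => d ∣ i)).card = k := by
      rw [hd1']
      simp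
    rw [h1]
    have hvq : v = padicValNat r (q - 1) := by
      rw [hv2, hd1', pow_one]
    have hMq : M ∣ q - 1 := by
      rw [hM, hvq]; exact pow_padicValNat_dvd
    have hcardU : Nat.card Fˣ = q - 1 := by
      rw [Nat.card_eq_fintype_card, Fintype.card_units, hq]
    obtain ⟨g, hg⟩ := IsCyclic.exists_ofOrder_eq_natCard (α := Fˣ)
    have hg0 : orderOf g ≠ 0 := by rw [hg, hcardU]; exact hq1
    have hu : orderOf (g ^ (orderOf g / M)) = M :=
      orderOf_pow_orderOf_div hg0 (by rw [hg, hcardU]; exact hMq)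
    obtain ⟨e₀⟩ := exists_zmod_equiv _ hu
    let ψ : (Fin k → Subgroup.zpowers (g ^ (orderOf g / M))) →* Matrix.SpecialLinearGroup (Fin (k + 1)) F :=
      (diagHom k).comp (MonoidHom.compLeft (Subgroup.zpowers _).subtype (Fin k))
    have hψ : Function.Injective ψ := by
      apply Function.Injective.comp (diagHom_injective k)
      intro x y hxy
      funext j
      exact Subtype.ext (congrFun hxy j)
    refine sylow_iso_of_hom e₀ ψ hψ (by rw [Nat.card_zpowers, hu]) ⟨v, rfl, ?_⟩ P
    have e : orderOf (q : ZMod r) = 1 := hd1'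
    rw [e] at hGL
    simp only [Nat.div_one, pow_one] at hGL
    have h0 : (q - 1).factorization r = v := by rw [Nat.factorization_def _ hr.out, hvq]
    rw [← hvq, h0, add_mul, one_mul] at hGL
    omega
  · -- the case `d ≥ 2`
    rw [card_filter_of_two_le hd2]
    have hMd : M ∣ Fintype.card F ^ Fintype.card (Fin d) - 1 := by
      rw [hq, Fintype.card_fin, hM, hv2]
      exact pow_padicValNat_dvd
    haveI : Nonempty (Fin d) := ⟨⟨0, hd0⟩⟩
    obtain ⟨c, hc⟩ := Cfsg.Agent.Lib.Known3.Singer.exists_orderOf_of_dvd (F := F) (Fin d) hMd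
    obtain ⟨e₀⟩ := exists_zmod_equiv c hc
    set a := n / d with ha
    have hadn : d * a ≤ n := Nat.mul_div_le n d
    let ψ₀ : (Fin a → Subgroup.zpowers c) →* GL (Fin n) F :=
      (embed d a n hadn).comp (MonoidHom.compLeft (Subgroup.zpowers c).subtype (Fin a))
    have hψ₀ : Function.Injective ψ₀ := by
      apply Function.Injective.comp (embed_injective d a n hadn)
      intro x y hxy
      funext j
      exact Subtype.ext (congrFun hxy j)
    have hrq1 : ¬ r ∣ q - 1 := by
      intro h
      have h1 : r ∣ q ^ 1 - 1 := by rwa [pow_one]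
      have h2 := (dvd_pow_sub_one_iff (r := r) (by omega) 1).mp h1
      have h3 : d ≤ 1 := Nat.le_of_dvd one_pos h2
      omega
    have hdet : ∀ t, ((ψ₀ t : GL (Fin n) F) : Matrix (Fin n) (Fin n) F).det = 1 := by
      intro t
      have h1 : t ^ M = 1 := by
        funext j
        apply Subtype.ext
        have h2 : (t j) ^ Nat.card (Subgroup.zpowers c) = 1 := pow_card_eq_one'
        rw [Nat.card_zpowers, hc] at h2
        exact congrArg Subtype.val h2
      have h2 : (ψ₀ t) ^ M = 1 := by rw [← map_pow, h1, map_one]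
      have h3 : ((ψ₀ t : GL (Fin n) F) : Matrix (Fin n) (Fin n) F).det ^ M = 1 := by
        rw [← Matrix.det_pow]
        have := congrArg (fun u : GL (Fin n) F => (u : Matrix (Fin n) (Fin n) F).det) h2
        simpa using this
      have hne : ((ψ₀ t : GL (Fin n) F) : Matrix (Fin n) (Fin n) F).det ≠ 0 :=
        (Matrix.isUnits_det_units (ψ₀ t)).ne_zero
      have h4 : ((ψ₀ t : GL (Fin n) F) : Matrix (Fin n) (Fin n) F).det ^ (q - 1) = 1 := by
        rw [← hq]; exact FiniteField.pow_card_sub_one_eq_one _ hne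
      have h5 : Nat.Coprime M (q - 1) :=
        Nat.Coprime.pow_left v ((Nat.Prime.coprime_iff_not_dvd hr.out).mpr hrq1)
      have h6 := pow_gcd_eq_one.mpr ⟨h3, h4⟩
      rw [h5.gcd_eq_one, pow_one] at h6
      exact h6
    let ψ : (Fin a → Subgroup.zpowers c) →* Matrix.SpecialLinearGroup (Fin n) F :=
      { toFun := fun t => ⟨(ψ₀ t : GL (Fin n) F), hdet t⟩
        map_one' := by
          apply Subtype.ext
          show ((ψ₀ 1 : GL (Fin n) F) : Matrix (Fin n) (Fin n) F) = 1
          rw [map_one]; rfl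
        map_mul' := fun s t => by
          apply Subtype.ext
          show ((ψ₀ (s * t) : GL (Fin n) F) : Matrix (Fin n) (Fin n) F) = (ψ₀ s : GL (Fin n) F).val * (ψ₀ t : GL (Fin n) F).val
          rw [map_mul]; rfl }
    have hψ : Function.Injective ψ := by
      intro s t hst
      apply hψ₀
      apply Units.ext
      exact congrArg Subtype.val hst
    refine sylow_iso_of_hom e₀ ψ hψ (by rw [Nat.card_zpowers, hc]) ⟨v, rfl, ?_⟩ P
    have h0 : (q - 1).factorization r = 0 := Nat.factorization_eq_zero_of_not_dvd hrq1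
    rw [h0, zero_add, ← hv2] at hGL
    exact hGL

end Cfsg.Agent.Lib.KS2.AbSyl
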