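import Mathlib

/-!
# Faithfulness of the (crystallographic) reflection representation of a Coxeter group
-/

set_option autoImplicit false
set_option linter.unusedSimpArgs false
set_option linter.unusedVariables false
set_option linter.deprecated false

namespace Cfsg.Agent.Lib.KS2.Cox

open Matrix CoxeterSystem

variable {B : Type*} [Fintype B] [DecidableEq B]

/-- simple root. -/
def al (i : B) : B → ℤ := Pi.single i 1

/-- The reflection. -/
def S (A : B → B → ℤ) (i : B) : Matrix B B ℤ :=
  fun k j => (if k = j then 1 else 0) - (if k = i then A i j else 0)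

/-- the functional. -/
def ph (A : B → B → ℤ) (i : B) (v : B → ℤ) : ℤ := ∑ j, A i j * v j

lemma S_mulVec (A : B → B → ℤ) (i : B) (v : B → ℤ) : S A i *ᵥ v = v - ph A i v • al i := by
  funext k
  simp only [Matrix.mulVec, dotProduct, S, Pi.sub_apply, Pi.smul_apply, al, ph, smul_eq_mul]
  by_cases hk : k = i
  · subst hk
    simp [sub_mul, Finset.sum_sub_distrib, ite_mul]
  · simp [hk, Finset.sum_sub_distrib, ite_mul, Pi.single_apply]

lemma ph_add (A : B → B → ℤ) (i : B) (v w : B → ℤ) : ph A i (v + w) = ph A i v + ph A i w := by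
  simp [ph, mul_add, Finset.sum_add_distrib]

lemma ph_sub (A : B → B → ℤ) (i : B) (v w : B → ℤ) : ph A i (v - w) = ph A i v - ph A i w := by
  simp [ph, mul_sub, Finset.sum_sub_distrib]

lemma ph_smul (A : B → B → ℤ) (i : B) (c : ℤ) (v : B → ℤ) : ph A i (c • v) = c * ph A i v := by
  simp only [ph, Pi.smul_apply, smul_eq_mul, Finset.mul_sum]
  exact Finset.sum_congr rfl fun j _ => by ring

lemma ph_al (A : B → B → ℤ) (i j : B) : ph A i (al j) = A i j := by
  simp [ph, al, Pi.single_apply]

/-- Allowed triples. -/
def Allowed (m : ℕ) (a b : ℤ) : Prop :=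
  (m = 2 ∧ a = 0 ∧ b = 0) ∨ (m = 3 ∧ a = -1 ∧ b = -1) ∨ (m = 4 ∧ a = -1 ∧ b = -2) ∨ (m = 4 ∧ a = -2 ∧ b = -1) ∨
    (m = 6 ∧ a = -1 ∧ b = -3) ∨ (m = 6 ∧ a = -3 ∧ b = -1)

instance (m : ℕ) (a b : ℤ) : Decidable (Allowed m a b) := by unfold Allowed; infer_instance

/-- Data for a crystallographic Coxeter matrix. -/
structure Data (M : CoxeterMatrix B) (A : B → B → ℤ) : Prop where
  diag : ∀ i, A i i = 2
  pair : ∀ i j, i ≠ j → Allowed (M i j) (A i j) (A j i)

variable {M : CoxeterMatrix B} {A : B → B → ℤ}

lemma S_sq (hd : Data M A) (i : B) : S A i * S A i = 1 := by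
  apply Matrix.toLin'.injective
  refine LinearMap.ext fun v => ?_
  rw [Matrix.toLin'_mul, LinearMap.comp_apply, Matrix.toLin'_apply, Matrix.toLin'_apply, Matrix.toLin'_apply,
    S_mulVec, S_mulVec, one_mulVec]
  rw [sub_eq_add_neg v, ph_add, ← neg_smul, ph_smul, ph_al, hd.diag]
  funext k
  simp only [Pi.sub_apply, Pi.add_apply, Pi.smul_apply, Pi.neg_apply, smul_eq_mul]
  ring

/-- state update of `S_i S_j` -/
def stp (a b x y : ℤ) (z : ℤ × ℤ) : ℤ × ℤ :=
  let q' := -z.2 - b * z.1 - y
  (-z.1 - a * q' - x, q')

lemma stp_act (hne : True) (i j : B) (v : B → ℤ) (z : ℤ × ℤ) (hii : A i i = 2) (hjj : A j j = 2) :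
    (S A i * S A j) *ᵥ (v + z.1 • al i + z.2 • al j) =
      v + (stp (A i j) (A j i) (ph A i v) (ph A j v) z).1 • al i + (stp (A i j) (A j i) (ph A i v) (ph A j v) z).2 • al j := by
  rw [← Matrix.mulVec_mulVec, S_mulVec, S_mulVec]
  simp only [ph_add, ph_sub, ph_smul, ph_al, hii, hjj, stp]
  funext k
  simp only [Pi.sub_apply, Pi.add_apply, Pi.smul_apply, smul_eq_mul]
  ring

lemma stp_iter (i j : B) (v : B → ℤ) (k : ℕ) (hii : A i i = 2) (hjj : A j j = 2) :
    ((S A i * S A j) ^ k) *ᵥ v =
      v + ((stp (A i j) (A j i) (ph A i v) (ph A j v))^[k] (0, 0)).1 • al i + ((stp (A i j) (A j i) (ph A i v) (ph A j v))^[k] (0, 0)).2 • al j := by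
  induction k with
  | zero => simp
  | succ k ih =>
    rw [pow_succ', ← Matrix.mulVec_mulVec, ih, Function.iterate_succ_apply']
    exact stp_act trivial i j v _ hii hjj

lemma S_rel (hd : Data M A) (i j : B) : (S A i * S A j) ^ M i j = 1 := by
  by_cases hij : i = j
  · subst hij
    rw [M.diagonal, pow_one, S_sq hd]
  · apply Matrix.toLin'.injective
    refine LinearMap.ext fun v => ?_
    rw [Matrix.toLin'_apply, Matrix.toLin'_apply, one_mulVec, stp_iter i j v _ (hd.diag i) (hd.diag j)]
    have h0 : (stp (A i j) (A j i) (ph A i v) (ph A j v))^[M i j] (0, 0) = (0, 0) := by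
      generalize ph A i v = x
      generalize ph A j v = y
      rcases hd.pair i j hij with ⟨h1, h2, h3⟩ | ⟨h1, h2, h3⟩ | ⟨h1, h2, h3⟩ | ⟨h1, h2, h3⟩ | ⟨h1, h2, h3⟩ | ⟨h1, h2, h3⟩ <;>
      · rw [h1, h2, h3]
        simp only [Function.iterate_succ, Function.iterate_zero, Function.comp, id, stp]
        ext <;> simp <;> ring
    rw [h0]
    simp

/-- The representation. -/
noncomputable def rep (hd : Data M A) : M.Group →* Matrix B B ℤ :=
  M.toCoxeterSystem.lift ⟨S A, fun i j => S_rel hd i j⟩

@[simp] lemma rep_simple (hd : Data M A) (i : B) : rep hd (M.simple i) = S A i := by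
  unfold rep
  have := M.toCoxeterSystem.lift_apply_simple (f := S A) (fun i j => S_rel hd i j) i
  rw [CoxeterMatrix.toCoxeterSystem_simple] at this
  exact this

/-! ### Positivity -/

/-- abbreviation. -/
abbrev CS (M : CoxeterMatrix B) : CoxeterSystem M M.Group := M.toCoxeterSystem

/-- rank two sequence. -/
def rk2 (a b : ℤ) : ℕ → ℤ × ℤ
  | 0 => (1, 0)
  | k + 1 =>
    let z := rk2 a b k
    if Even k then (z.1, -z.2 - z.1 * b) else (-z.1 - z.2 * a, z.2)

lemma rk2_pos {m : ℕ} {a b : ℤ} (h : Allowed m a b) {k : ℕ} (hk : k < m) : 0 ≤ (rk2 a b k).1 ∧ 0 ≤ (rk2 a b k).2 := by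
  rcases h with ⟨rfl, rfl, rfl⟩ | ⟨rfl, rfl, rfl⟩ | ⟨rfl, rfl, rfl⟩ | ⟨rfl, rfl, rfl⟩ | ⟨rfl, rfl, rfl⟩ | ⟨rfl, rfl, rfl⟩ <;>
  · interval_cases k <;> decide

section Pos

variable (hd : Data M A)

local notation "cs" => CS M

lemma rep_wordProd (ω : List B) : rep hd ((CS M).wordProd ω) = (ω.map (S A)).prod := by
  induction ω with
  | nil => simp
  | cons a l ih =>
    rw [CoxeterSystem.wordProd_cons, map_mul, ih, List.map_cons, List.prod_cons, CoxeterMatrix.toCoxeterSystem_simple, rep_simple]

lemma rep_alt (i t : B) (hit : i ≠ t) (k : ℕ) :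
    rep hd ((CS M).wordProd (alternatingWord i t k)) *ᵥ al i = (rk2 (A i t) (A t i) k).1 • al i + (rk2 (A i t) (A t i) k).2 • al t := by
  induction k with
  | zero =>
    simp only [alternatingWord, CoxeterSystem.wordProd_nil, map_one, one_mulVec, rk2]
    simp
  | succ k ih =>
    rw [alternatingWord_succ', CoxeterSystem.wordProd_cons, map_mul, ← Matrix.mulVec_mulVec, ih, CoxeterMatrix.toCoxeterSystem_simple, rep_simple, S_mulVec]
    simp only [ph_add, ph_smul, ph_al, rk2]
    by_cases hk : Even k
    · simp only [if_pos hk, hd.diag]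
      funext j
      simp only [Pi.sub_apply, Pi.add_apply, Pi.smul_apply, smul_eq_mul]
      ring
    · simp only [if_neg hk, hd.diag]
      funext j
      simp only [Pi.sub_apply, Pi.add_apply, Pi.smul_apply, smul_eq_mul]
      ring

/-- Key positivity lemma. -/
theorem pos_root : ∀ (n : ℕ) (w : M.Group) (i : B), (CS M).length w = n → (CS M).length w < (CS M).length (w * (CS M).simple i) →
    ∀ k, 0 ≤ (rep hd w *ᵥ al i) k := by
  intro n
  induction n using Nat.strong_induction_on with
  | _ n ih =>
    intro w i hn hi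
    by_cases hw : w = 1
    · subst hw
      intro k
      rw [map_one, one_mulVec, al, Pi.single_apply]
      split_ifs <;> simp
    -- a descent
    obtain ⟨t, ht⟩ := (CS M).exists_rightDescent_of_ne_one hw
    have ht' : (CS M).length (w * (CS M).simple t) < (CS M).length w := ht
    have hit : i ≠ t := by
      rintro rfl
      omega
    classical
    -- alternating factorization
    let P : ℕ → Prop := fun k => ∃ v, w = v * (CS M).wordProd (alternatingWord i t k) ∧ (CS M).length w = (CS M).length v + k
    have hP1 : P 1 := by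
      refine ⟨w * (CS M).simple t, ?_, ?_⟩
      · simp [alternatingWord, mul_assoc]
        exact (CS M).simple_mul_simple_self t
      · rcases (CS M).length_mul_simple w t with h | h <;> omega
    have hPle : ∀ k, P k → k ≤ (CS M).length w := by
      rintro k ⟨v, -, h⟩
      omega
    let K := Nat.findGreatest P ((CS M).length w)
    have hK1 : 1 ≤ K := Nat.le_findGreatest (hPle 1 hP1) hP1
    have hPK : P K := Nat.findGreatest_spec (hPle 1 hP1) hP1
    have hKmax : ¬ P (K + 1) := by
      intro h
      have := Nat.le_findGreatest (hPle _ h) h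
      omega
    obtain ⟨v, hv, hlen⟩ := hPK
    obtain ⟨K', hK'⟩ : ∃ K', K = K' + 1 := ⟨K - 1, by omega⟩
    rw [hK'] at hv hlen
    -- letters
    let a : B := if Even K' then t else i
    let b : B := if Even (K' + 1) then t else i
    have hab : (a = i ∧ b = t) ∨ (a = t ∧ b = i) := by
      by_cases h : Even K'
      · right
        have h2 : ¬ Even (K' + 1) := by simp [h, parity_simps]
        simp [a, b, h, h2]
      · left
        have h2 : Even (K' + 1) := by simp [h, parity_simps]
        simp [a, b, h, h2]
    have halt : ∀ K', alternatingWord i t (K' + 1) = (if Even K' then t else i) :: alternatingWord i t K' := fun K' => alternatingWord_succ' i t K'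
    -- `v` has no descent at `b`
    have hb : (CS M).length v < (CS M).length (v * (CS M).simple b) := by
      by_contra hcon
      apply hKmax
      rw [hK']
      refine ⟨v * (CS M).simple b, ?_, ?_⟩
      · rw [halt (K' + 1), CoxeterSystem.wordProd_cons, mul_assoc, ← mul_assoc ((CS M).simple _), CoxeterSystem.simple_mul_simple_self, one_mul]
        exact hv
      · rcases (CS M).length_mul_simple v b with h | h <;> omega
    have ha : (CS M).length v < (CS M).length (v * (CS M).simple a) := by
      by_contra hcon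
      have h1 : (CS M).length (v * (CS M).simple a) + 1 = (CS M).length v := by
        rcases (CS M).length_mul_simple v a with h | h <;> omega
      have h2 : w = (v * (CS M).simple a) * (CS M).wordProd (alternatingWord i t K') := by
        rw [hv, halt K', CoxeterSystem.wordProd_cons, mul_assoc]
      have h3 := (CS M).length_mul_le (v * (CS M).simple a) ((CS M).wordProd (alternatingWord i t K'))
      rw [← h2] at h3
      have h4 := (CS M).length_wordProd_le (alternatingWord i t K')
      rw [length_alternatingWord] at h4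
      omega
    have hvi : (CS M).length v < (CS M).length (v * (CS M).simple i) := by
      rcases hab with ⟨h, -⟩ | ⟨-, h⟩
      · rw [← h]; exact ha
      · rw [← h]; exact hb
    have hvt : (CS M).length v < (CS M).length (v * (CS M).simple t) := by
      rcases hab with ⟨-, h⟩ | ⟨h, -⟩
      · rw [← h]; exact hb
      · rw [← h]; exact ha
    have hlt : (CS M).length v < n := by omega
    have hposi := ih _ hlt v i rfl hvi
    have hpost := ih _ hlt v t rfl hvt
    -- bound on K
    have hall := hd.pair i t hit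
    have hM0 : M i t ≠ 0 := by
      rcases hall with ⟨h1, -⟩ | ⟨h1, -⟩ | ⟨h1, -⟩ | ⟨h1, -⟩ | ⟨h1, -⟩ | ⟨h1, -⟩ <;> rw [h1] <;> norm_num
    have hred : (CS M).IsReduced (alternatingWord i t (K' + 1)) := by
      unfold CoxeterSystem.IsReduced
      rw [length_alternatingWord]
      have h3 := (CS M).length_mul_le v ((CS M).wordProd (alternatingWord i t (K' + 1)))
      rw [← hv] at h3
      have h4 := (CS M).length_wordProd_le (alternatingWord i t (K' + 1))
      rw [length_alternatingWord] at h4
      omega
    have hle : K' + 1 ≤ M i t := by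
      by_contra hcon
      exact (CS M).not_isReduced_alternatingWord i t hM0 (by omega) hred
    have hltM : K' + 1 < M i t := by
      refine lt_of_le_of_ne hle ?_
      intro heq
      have h1 : (CS M).wordProd (alternatingWord i t (K' + 1)) = (CS M).wordProd (alternatingWord t i (K' + 1)) := by
        have := (CS M).wordProd_braidWord_eq i t
        rw [CoxeterSystem.braidWord, CoxeterSystem.braidWord, M.symmetric t i, ← heq] at this
        exact this
      have h2 : w * (CS M).simple i = v * (CS M).wordProd (alternatingWord i t K') := by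
        rw [hv, h1, alternatingWord_succ, CoxeterSystem.wordProd_concat, mul_assoc, mul_assoc, CoxeterSystem.simple_mul_simple_self, mul_one]
      have h3 := (CS M).length_mul_le v ((CS M).wordProd (alternatingWord i t K'))
      rw [← h2] at h3
      have h4 := (CS M).length_wordProd_le (alternatingWord i t K')
      rw [length_alternatingWord] at h4
      omega
    obtain ⟨hp, hq⟩ := rk2_pos hall hltM
    intro k
    have h5 : rep hd w *ᵥ al i = (rk2 (A i t) (A t i) (K' + 1)).1 • (rep hd v *ᵥ al i) + (rk2 (A i t) (A t i) (K' + 1)).2 • (rep hd v *ᵥ al t) := by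
      rw [hv, map_mul, ← Matrix.mulVec_mulVec, rep_alt hd i t hit, Matrix.mulVec_add, Matrix.mulVec_smul, Matrix.mulVec_smul]
    rw [h5]
    simp only [Pi.add_apply, Pi.smul_apply, smul_eq_mul]
    exact add_nonneg (mul_nonneg hp (hposi k)) (mul_nonneg hq (hpost k))

/-- Faithfulness. -/
theorem rep_injective : Function.Injective (rep hd) := by
  rw [injective_iff_map_eq_one]
  intro w hw
  by_contra hne
  obtain ⟨i, hi⟩ := (CS M).exists_rightDescent_of_ne_one hne
  have hi' : (CS M).length (w * (CS M).simple i) < (CS M).length w := hi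
  have h1 : (CS M).length (w * (CS M).simple i) < (CS M).length ((w * (CS M).simple i) * (CS M).simple i) := by
    rw [CoxeterSystem.simple_mul_simple_cancel_right]
    exact hi'
  have h2 := pos_root hd _ (w * (CS M).simple i) i rfl h1 i
  have h3 : rep hd (w * (CS M).simple i) *ᵥ al i = - al i := by
    rw [map_mul, hw, one_mul, CoxeterMatrix.toCoxeterSystem_simple, rep_simple, S_mulVec, ph_al, hd.diag]
    funext k
    simp only [Pi.sub_apply, Pi.smul_apply, Pi.neg_apply, smul_eq_mul]
    ring
  rw [h3] at h2
  simp [al] at h2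

/-! ### Central elements -/

/-- A central element acts by a scalar on each simple root, and connected scalars agree. -/
theorem central_scalar (hconn : ∀ c : B → ℤ, (∀ i j, A i j ≠ 0 → c i = c j) → ∀ i j, c i = c j) (i₀ : B)
    {z : M.Group} (hz : z ∈ Subgroup.center M.Group) :
    rep hd z = 1 ∨ rep hd z = -1 := by
  have hcomm : ∀ i, rep hd z * S A i = S A i * rep hd z := by
    intro i
    have h1 : z * M.simple i = M.simple i * z := (Subgroup.mem_center_iff.mp hz (M.simple i)).symm
    have h2 := congrArg (rep hd) h1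
    rwa [map_mul, map_mul, rep_simple] at h2
  -- eigen-relation
  have h1 : ∀ i, ∃ c : ℤ, rep hd z *ᵥ al i = c • al i := by
    intro i
    set y := rep hd z *ᵥ al i with hy
    have h2 : S A i *ᵥ y = - y := by
      have h3 : (rep hd z * S A i) *ᵥ al i = (S A i * rep hd z) *ᵥ al i := by rw [hcomm i]
      rw [← Matrix.mulVec_mulVec, ← Matrix.mulVec_mulVec, S_mulVec, ph_al, hd.diag] at h3
      rw [← hy] at h3
      rw [← h3]
      have h4 : al i - (2 : ℤ) • al i = - al i := by
        funext k
        simp only [Pi.sub_apply, Pi.smul_apply, Pi.neg_apply, smul_eq_mul]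
        ring
      rw [h4, Matrix.mulVec_neg]
    rw [S_mulVec] at h2
    refine ⟨y i, ?_⟩
    funext k
    have h5 := congrFun h2 k
    simp only [Pi.sub_apply, Pi.smul_apply, Pi.neg_apply, smul_eq_mul, al, Pi.single_apply] at h5 ⊢
    by_cases hk : k = i
    · subst hk
      simp
    · simp only [hk, if_false, mul_zero, sub_zero] at h5 ⊢
      omega
  choose c hc using h1
  have hc2 : ∀ i j, A i j ≠ 0 → c i = c j := by
    intro i j hA
    by_cases hij : i = j
    · rw [hij]
    have h3 : (rep hd z * S A i) *ᵥ al j = (S A i * rep hd z) *ᵥ al j := by rw [hcomm i]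
    rw [← Matrix.mulVec_mulVec, ← Matrix.mulVec_mulVec, S_mulVec, ph_al, hc j, Matrix.mulVec_sub, Matrix.mulVec_smul, hc i, hc j, S_mulVec, ph_smul, ph_al] at h3
    have h4 := congrFun h3 i
    simp only [Pi.sub_apply, Pi.smul_apply, smul_eq_mul, al, Pi.single_apply, if_true] at h4
    simp only [if_neg (Ne.symm hij), if_neg hij, mul_zero, sub_zero, zero_sub, mul_one] at h4
    have h5 : A i j * (c i - c j) = 0 := by linarith
    rcases mul_eq_zero.mp h5 with h6 | h6
    · exact absurd h6 hA
    · linarith
  have hc3 := hconn c hc2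
  -- invertibility
  have hinv : rep hd z⁻¹ * rep hd z = 1 := by
    rw [← map_mul, inv_mul_cancel, map_one]
  have hcc : rep hd z = c i₀ • (1 : Matrix B B ℤ) := by
    apply Matrix.toLin'.injective
    refine LinearMap.pi_ext' fun j => ?_
    ext
    have h6 := hc j
    rw [hc3 j i₀] at h6
    simp only [LinearMap.comp_apply, LinearMap.single_apply, Matrix.toLin'_apply]
    have h7 : (Pi.single j 1 : B → ℤ) = al j := rfl
    simp only [h7, h6]
    rw [Matrix.smul_mulVec, one_mulVec]
  have h8 : ∃ d : ℤ, c i₀ * d = 1 := by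
    have h9 := congrArg (fun X => (X * rep hd z⁻¹) i₀ i₀) (show rep hd z = rep hd z from rfl)
    have h10 : rep hd z * rep hd z⁻¹ = 1 := by
      rw [← map_mul, mul_inv_cancel, map_one]
    rw [hcc] at h10
    have h11 := congrFun (congrFun h10 i₀) i₀
    simp only [Matrix.smul_mul, one_mul, Matrix.smul_apply, smul_eq_mul, Matrix.one_apply_eq] at h11
    exact ⟨_, h11⟩
  obtain ⟨d, hd'⟩ := h8
  rcases Int.eq_one_or_neg_one_of_mul_eq_one hd' with h | h
  · left
    rw [hcc, h, one_smul]
  · right
    rw [hcc, h, neg_smul, one_smul]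

end Pos

end Cfsg.Agent.Lib.KS2.Cox
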