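import Mathlib
import Cfsg.Agent.Lib.KS2.Cox
import Cfsg.Prelude.Def_ChevStructure

/-!
# Centres of the finite crystallographic Coxeter groups
-/

set_option autoImplicit false
set_option linter.unusedSimpArgs false
set_option linter.unusedVariables false
set_option linter.deprecated false

namespace Cfsg.Agent.Lib.KS2.Cox

open Matrix CoxeterSystem

/-- The Cartan matrix attached to a crystallographic Coxeter matrix. -/
def ctA {n : ℕ} (M : CoxeterMatrix (Fin n)) (i j : Fin n) : ℤ :=
  if i = j then 2 else if M i j = 2 then 0 else if M i j = 3 then -1 else if M i j = 4 then (if i < j then -1 else -2)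
    else if i < j then -1 else -3

/-- Pairs are allowed. -/
def PairOK {n : ℕ} (M : CoxeterMatrix (Fin n)) (A : Fin n → Fin n → ℤ) (i : Fin n) : Prop :=
  ∀ j : Fin n, i ≠ j → Allowed (M i j) (A i j) (A j i)

instance {n : ℕ} (M : CoxeterMatrix (Fin n)) (A : Fin n → Fin n → ℤ) (i : Fin n) : Decidable (PairOK M A i) := by
  unfold PairOK; infer_instance

lemma data_of {n : ℕ} {M : CoxeterMatrix (Fin n)} (h : ∀ i, PairOK M (ctA M) i) : Data M (ctA M) :=
  ⟨fun i => by simp [ctA], fun i j hij => h i j hij⟩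

/-- Connectivity by distance function. -/
lemma conn_of_dist {n : ℕ} (A : Fin n → Fin n → ℤ) (i₀ : Fin n) (d : Fin n → ℕ)
    (h : ∀ i, i = i₀ ∨ ∃ j, A i j ≠ 0 ∧ d j < d i) :
    ∀ c : Fin n → ℤ, (∀ i j, A i j ≠ 0 → c i = c j) → ∀ i j, c i = c j := by
  intro c hc
  have h1 : ∀ (m : ℕ) (i : Fin n), d i = m → c i = c i₀ := by
    intro m
    induction m using Nat.strong_induction_on with
    | _ m ih =>
      intro i hi
      rcases h i with rfl | ⟨j, hj, hd⟩
      · rfl
      · rw [hc i j hj]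
        exact ih _ (by omega) j rfl
  intro i j
  rw [h1 _ i rfl, h1 _ j rfl]

variable {n : ℕ} {M : CoxeterMatrix (Fin n)} {A : Fin n → Fin n → ℤ}

/-- Coxeter element. -/
noncomputable def coxEl (M : CoxeterMatrix (Fin n)) : M.Group := ((List.finRange n).map M.simple).prod

lemma coxEl_eq (M : CoxeterMatrix (Fin n)) : coxEl M = (CS M).wordProd (List.finRange n) := rfl

lemma rep_coxEl (hd : Data M A) : rep hd (coxEl M) = ((List.finRange n).map (S A)).prod := by
  rw [coxEl_eq, rep_wordProd]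

lemma rep_coxEl_inv (hd : Data M A) : rep hd (coxEl M)⁻¹ = ((List.finRange n).reverse.map (S A)).prod := by
  rw [coxEl_eq, ← CoxeterSystem.wordProd_reverse, rep_wordProd]

/-- Even case: `-1` is a power of the Coxeter element. -/
theorem center_of_neg_one (hd : Data M A) (i₀ : Fin n)
    (hconn : ∀ c : Fin n → ℤ, (∀ i j, A i j ≠ 0 → c i = c j) → ∀ i j, c i = c j) (k : ℕ)
    (hk : ((List.finRange n).map (S A)).prod ^ k = -1) :
    Nat.card (Subgroup.center M.Group) = 2 ∧ Subgroup.center M.Group ≤ Subgroup.zpowers (coxEl M) := by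
  have hinj := rep_injective hd
  set z0 := coxEl M ^ k with hz0
  have hz0r : rep hd z0 = -1 := by
    rw [hz0, map_pow, rep_coxEl, hk]
  have hne : z0 ≠ 1 := by
    intro h
    rw [h, map_one] at hz0r
    have h1 := congrFun (congrFun hz0r i₀) i₀
    simp at h1
  have hcen : z0 ∈ Subgroup.center M.Group := by
    rw [Subgroup.mem_center_iff]
    intro g
    apply hinj
    rw [map_mul, map_mul, hz0r]
    simp
  have hall : ∀ z ∈ Subgroup.center M.Group, z = 1 ∨ z = z0 := by
    intro z hz
    rcases central_scalar hd hconn i₀ hz with h | h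
    · left
      apply hinj
      rw [h, map_one]
    · right
      apply hinj
      rw [h, hz0r]
  constructor
  · rw [Nat.card_eq_two_iff]
    refine ⟨⟨1, Subgroup.one_mem _⟩, ⟨z0, hcen⟩, ?_, ?_⟩
    · intro h
      exact hne (congrArg Subtype.val h).symm
    · ext ⟨z, hz⟩
      simp only [Set.mem_insert_iff, Set.mem_singleton_iff, Set.mem_univ, iff_true, Subtype.mk.injEq]
      exact hall z hz
  · intro z hz
    rcases hall z hz with rfl | rfl
    · exact Subgroup.one_mem _
    · exact Subgroup.npow_mem_zpowers _ _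

/-- Trivial-centre case, by an orbit. -/
theorem center_of_orbit (hd : Data M A) (i₀ : Fin n)
    (hconn : ∀ c : Fin n → ℤ, (∀ i j, A i j ≠ 0 → c i = c j) → ∀ i j, c i = c j)
    (O : List (Fin n → ℤ)) (v : Fin n → ℤ) (hv : v ∈ O) (hv' : -v ∉ O) (hO : ∀ x ∈ O, ∀ i, S A i *ᵥ x ∈ O) :
    Nat.card (Subgroup.center M.Group) = 1 ∧ Subgroup.center M.Group ≤ Subgroup.zpowers (coxEl M) := by
  have hinj := rep_injective hd
  have horb : ∀ w : M.Group, rep hd w *ᵥ v ∈ O := by
    intro w
    refine (CS M).simple_induction_left (p := fun w => rep hd w *ᵥ v ∈ O) w ?_ ?_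
    · rw [map_one, one_mulVec]
      exact hv
    · intro w i hw
      rw [map_mul, CoxeterMatrix.toCoxeterSystem_simple, rep_simple, ← Matrix.mulVec_mulVec]
      exact hO _ hw i
  have hbot : Subgroup.center M.Group = ⊥ := by
    rw [eq_bot_iff]
    intro z hz
    rcases central_scalar hd hconn i₀ hz with h | h
    · rw [Subgroup.mem_bot]
      apply hinj
      rw [h, map_one]
    · exfalso
      have := horb z
      rw [h, Matrix.neg_mulVec, one_mulVec] at this
      exact hv' this
  rw [hbot]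
  constructor
  · simp
  · exact bot_le

/-! ### Generation -/

/-- Expressions. -/
inductive CE (k : ℕ) : Type
  | cc : CE k
  | cj (a : ℕ) (j : Fin k) : CE k
  | rr (e₁ e₂ : CE k) : CE k
  | mm (e₁ e₂ : CE k) : CE k

/-- Group value. -/
noncomputable def evG {k : ℕ} (M : CoxeterMatrix (Fin n)) (t : Fin k → Fin n) : CE k → M.Group
  | .cc => coxEl M
  | .cj a j => coxEl M ^ a * M.simple (t j) * (coxEl M)⁻¹ ^ a
  | .rr e₁ e₂ => evG M t e₁ * evG M t e₂ * evG M t e₁
  | .mm e₁ e₂ => evG M t e₁ * evG M t e₂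

/-- Matrix value. -/
def evM {k : ℕ} (A : Fin n → Fin n → ℤ) (t : Fin k → Fin n) : CE k → Matrix (Fin n) (Fin n) ℤ
  | .cc => ((List.finRange n).map (S A)).prod
  | .cj a j => ((List.finRange n).map (S A)).prod ^ a * S A (t j) * ((List.finRange n).reverse.map (S A)).prod ^ a
  | .rr e₁ e₂ => evM A t e₁ * evM A t e₂ * evM A t e₁
  | .mm e₁ e₂ => evM A t e₁ * evM A t e₂

lemma rep_evG (hd : Data M A) {k : ℕ} (t : Fin k → Fin n) (e : CE k) : rep hd (evG M t e) = evM A t e := by
  induction e with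
  | cc => exact rep_coxEl hd
  | cj a j =>
    simp only [evG, evM, map_mul, map_pow, rep_coxEl, rep_coxEl_inv, rep_simple]
  | rr e₁ e₂ h₁ h₂ =>
    simp only [evG, evM, map_mul, h₁, h₂]
  | mm e₁ e₂ h₁ h₂ =>
    simp only [evG, evM, map_mul, h₁, h₂]

lemma evG_mem {k : ℕ} (t : Fin k → Fin n) (H : Subgroup M.Group) (hc : coxEl M ∈ H) (ht : ∀ j, M.simple (t j) ∈ H) (e : CE k) :
    evG M t e ∈ H := by
  induction e with
  | cc => exact hc
  | cj a j =>
    exact H.mul_mem (H.mul_mem (H.pow_mem hc a) (ht j)) (H.pow_mem (H.inv_mem hc) a)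
  | rr e₁ e₂ h₁ h₂ => exact H.mul_mem (H.mul_mem h₁ h₂) h₁
  | mm e₁ e₂ h₁ h₂ => exact H.mul_mem h₁ h₂

/-- The generation theorem. -/
theorem closure_top (hd : Data M A) {k : ℕ} (t : Fin k → Fin n) (ex : Fin n → CE k)
    (hex : ∀ i, evM A t (ex i) = S A i) (H : Subgroup M.Group) (hc : coxEl M ∈ H) (ht : ∀ j, M.simple (t j) ∈ H) :
    H = ⊤ := by
  rw [eq_top_iff, ← (CS M).subgroup_closure_range_simple, Subgroup.closure_le]
  rintro _ ⟨i, rfl⟩
  have h1 : evG M t (ex i) = M.simple i := by
    apply rep_injective hd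
    rw [rep_evG, hex, rep_simple]
  rw [CoxeterMatrix.toCoxeterSystem_simple, ← h1]
  exact evG_mem t H hc ht _

end Cfsg.Agent.Lib.KS2.Cox
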