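import Mathlib
import Cfsg.Agent.Lib.KS2.Cox2
import Cfsg.Prelude.Def_ChevStructure

/-!
# Type-by-type data: Coxeter groups of types B₂, G₂, D₄, F₄, E₆, E₇, E₈
-/

set_option autoImplicit false
set_option linter.unusedSimpArgs false
set_option linter.unusedVariables false
set_option linter.deprecated false
set_option maxRecDepth 1000000

namespace Cfsg.Agent.Lib.KS2.Cox

open Matrix CoxeterSystem

theorem data_B2 : Data (CoxeterMatrix.B 2) (ctA (CoxeterMatrix.B 2)) := data_of (by decide +kernel)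
theorem data_G2 : Data CoxeterMatrix.G₂ (ctA CoxeterMatrix.G₂) := data_of (by decide +kernel)
theorem data_D4 : Data Cfsg.Lie.coxeterD4 (ctA Cfsg.Lie.coxeterD4) := data_of (by decide +kernel)
theorem data_F4 : Data CoxeterMatrix.F₄ (ctA CoxeterMatrix.F₄) := data_of (by decide +kernel)
theorem data_E6 : Data CoxeterMatrix.E₆ (ctA CoxeterMatrix.E₆) := data_of (by decide +kernel)
theorem data_E7 : Data CoxeterMatrix.E₇ (ctA CoxeterMatrix.E₇) := data_of (by decide +kernel)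
theorem data_E8 : Data CoxeterMatrix.E₈ (ctA CoxeterMatrix.E₈) := data_of (by decide +kernel)

theorem center_B2 : Nat.card (Subgroup.center (CoxeterMatrix.B 2).Group) = 2 ∧ Subgroup.center (CoxeterMatrix.B 2).Group ≤ Subgroup.zpowers (coxEl (CoxeterMatrix.B 2)) :=
  center_of_neg_one data_B2 0 (conn_of_dist _ 0 ![0, 1] (by decide +kernel)) 2 (by decide +kernel)
theorem center_G2 : Nat.card (Subgroup.center (CoxeterMatrix.G₂).Group) = 2 ∧ Subgroup.center (CoxeterMatrix.G₂).Group ≤ Subgroup.zpowers (coxEl (CoxeterMatrix.G₂)) :=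
  center_of_neg_one data_G2 0 (conn_of_dist _ 0 ![0, 1] (by decide +kernel)) 3 (by decide +kernel)
theorem center_D4 : Nat.card (Subgroup.center (Cfsg.Lie.coxeterD4).Group) = 2 ∧ Subgroup.center (Cfsg.Lie.coxeterD4).Group ≤ Subgroup.zpowers (coxEl (Cfsg.Lie.coxeterD4)) :=
  center_of_neg_one data_D4 1 (conn_of_dist _ 1 ![1, 0, 1, 1] (by decide +kernel)) 3 (by decide +kernel)
theorem center_F4 : Nat.card (Subgroup.center (CoxeterMatrix.F₄).Group) = 2 ∧ Subgroup.center (CoxeterMatrix.F₄).Group ≤ Subgroup.zpowers (coxEl (CoxeterMatrix.F₄)) :=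
  center_of_neg_one data_F4 0 (conn_of_dist _ 0 ![0, 1, 2, 3] (by decide +kernel)) 6 (by decide +kernel)
theorem center_E7 : Nat.card (Subgroup.center (CoxeterMatrix.E₇).Group) = 2 ∧ Subgroup.center (CoxeterMatrix.E₇).Group ≤ Subgroup.zpowers (coxEl (CoxeterMatrix.E₇)) :=
  center_of_neg_one data_E7 3 (conn_of_dist _ 3 ![2, 1, 1, 0, 1, 2, 3] (by decide +kernel)) 9 (by decide +kernel)
theorem center_E8 : Nat.card (Subgroup.center (CoxeterMatrix.E₈).Group) = 2 ∧ Subgroup.center (CoxeterMatrix.E₈).Group ≤ Subgroup.zpowers (coxEl (CoxeterMatrix.E₈)) :=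
  center_of_neg_one data_E8 3 (conn_of_dist _ 3 ![2, 1, 1, 0, 1, 2, 3, 4] (by decide +kernel)) 15 (by decide +kernel)

/-- An orbit of type E₆. -/
def orbE6 : List (Fin 6 → ℤ) := [![4, 3, 5, 6, 4, 2], ![1, 3, 5, 6, 4, 2], ![1, 3, 2, 6, 4, 2], ![1, 3, 2, 3, 4, 2], ![1, 0, 2, 3, 4, 2], ![1, 3, 2, 3, 1, 2], ![1, 0, 2, 3, 1, 2], ![1, 3, 2, 3, 1, -1], ![1, 0, 2, 0, 1, 2], ![1, 0, 2, 3, 1, -1], ![1, 0, -1, 0, 1, 2], ![1, 0, 2, 0, 1, -1], ![-2, 0, -1, 0, 1, 2], ![1, 0, -1, 0, 1, -1], ![1, 0, 2, 0, -2, -1], ![-2, 0, -1, 0, 1, -1], ![1, 0, -1, 0, -2, -1], ![-2, 0, -1, 0, -2, -1], ![1, 0, -1, -3, -2, -1], ![-2, 0, -1, -3, -2, -1], ![1, -3, -1, -3, -2, -1], ![-2, -3, -1, -3, -2, -1], ![-2, 0, -4, -3, -2, -1], ![-2, -3, -4, -3, -2, -1], ![-2, -3, -4, -6, -2, -1], ![-2, -3, -4, -6, -5, -1], ![-2, -3, -4, -6, -5, -4]]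

theorem center_E6 : Nat.card (Subgroup.center (CoxeterMatrix.E₆).Group) = 1 ∧ Subgroup.center (CoxeterMatrix.E₆).Group ≤ Subgroup.zpowers (coxEl (CoxeterMatrix.E₆)) :=
  center_of_orbit data_E6 3 (conn_of_dist _ 3 ![2, 1, 1, 0, 1, 2] (by decide +kernel)) orbE6 ![4, 3, 5, 6, 4, 2]
  (by decide +kernel) (by decide +kernel) (by decide +kernel)

/-! generation -/

theorem gen_B2 (H : Subgroup (CoxeterMatrix.B 2).Group) (hc : coxEl (CoxeterMatrix.B 2) ∈ H) (ht : (CoxeterMatrix.B 2).simple 0 ∈ H) : H = ⊤ :=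
  closure_top data_B2 (k := 1) ![0] ![.cj 0 0, .mm (.cj 0 0) .cc] (by decide +kernel) H hc (by intro j; fin_cases j; exact ht)

theorem gen_G2 (H : Subgroup (CoxeterMatrix.G₂).Group) (hc : coxEl (CoxeterMatrix.G₂) ∈ H) (ht : (CoxeterMatrix.G₂).simple 0 ∈ H) : H = ⊤ :=
  closure_top data_G2 (k := 1) ![0] ![.cj 0 0, .mm (.cj 0 0) .cc] (by decide +kernel) H hc (by intro j; fin_cases j; exact ht)

theorem gen_D4 (H : Subgroup (Cfsg.Lie.coxeterD4).Group) (hc : coxEl (Cfsg.Lie.coxeterD4) ∈ H) (ht : (Cfsg.Lie.coxeterD4).simple 0 ∈ H) (ht2 : (Cfsg.Lie.coxeterD4).simple 2 ∈ H) : H = ⊤ :=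
  closure_top data_D4 (k := 2) ![0, 2] ![.cj 0 0, .cj 1 0, .cj 0 1, .rr (.cj 1 0) (.cj 2 1)] (by decide +kernel) H hc (by intro j; fin_cases j; exact ht; exact ht2)

theorem gen_F4 (H : Subgroup (CoxeterMatrix.F₄).Group) (hc : coxEl (CoxeterMatrix.F₄) ∈ H) (ht : (CoxeterMatrix.F₄).simple 0 ∈ H) (ht2 : (CoxeterMatrix.F₄).simple 2 ∈ H) : H = ⊤ :=
  closure_top data_F4 (k := 2) ![0, 2] ![.cj 0 0, .cj 1 0, .cj 0 1, .cj 1 1] (by decide +kernel) H hc (by intro j; fin_cases j; exact ht; exact ht2)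

theorem gen_E6 (H : Subgroup (CoxeterMatrix.E₆).Group) (hc : coxEl (CoxeterMatrix.E₆) ∈ H) (ht : (CoxeterMatrix.E₆).simple 0 ∈ H) : H = ⊤ :=
  closure_top data_E6 (k := 1) ![0] ![.cj 0 0, .rr (.cj 2 0) (.cj 5 0), .cj 1 0, .cj 5 0, .cj 6 0, .cj 7 0] (by decide +kernel) H hc (by intro j; fin_cases j; exact ht)

theorem gen_E7 (H : Subgroup (CoxeterMatrix.E₇).Group) (hc : coxEl (CoxeterMatrix.E₇) ∈ H) (ht : (CoxeterMatrix.E₇).simple 3 ∈ H) : H = ⊤ :=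
  closure_top data_E7 (k := 1) ![3] ![.rr (.cj 4 0) (.cj 8 0), .rr (.cj 0 0) (.rr (.cj 1 0) (.cj 6 0)), .rr (.cj 0 0) (.cj 5 0), .cj 0 0, .cj 1 0, .cj 2 0, .cj 3 0] (by decide +kernel) H hc (by intro j; fin_cases j; exact ht)

theorem gen_E8 (H : Subgroup (CoxeterMatrix.E₈).Group) (hc : coxEl (CoxeterMatrix.E₈) ∈ H) (ht : (CoxeterMatrix.E₈).simple 3 ∈ H) : H = ⊤ :=
  closure_top data_E8 (k := 1) ![3] ![.rr (.cj 5 0) (.cj 14 0), .rr (.cj 0 0) (.rr (.cj 1 0) (.cj 7 0)), .rr (.cj 0 0) (.cj 6 0), .cj 0 0, .cj 1 0, .cj 2 0, .cj 3 0, .cj 4 0] (by decide +kernel) H hc (by intro j; fin_cases j; exact ht)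

theorem ne_D4 : (Cfsg.Lie.coxeterD4).simple 0 ≠ (Cfsg.Lie.coxeterD4).simple 2 := by
  intro h
  have h2 := congrArg (rep data_D4) h
  rw [rep_simple, rep_simple] at h2
  revert h2
  decide +kernel

theorem ne_F4 : (CoxeterMatrix.F₄).simple 0 ≠ (CoxeterMatrix.F₄).simple 2 := by
  intro h
  have h2 := congrArg (rep data_F4) h
  rw [rep_simple, rep_simple] at h2
  revert h2
  decide +kernel

end Cfsg.Agent.Lib.KS2.Cox
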