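import Mathlib
import Cfsg.Agent.Lib.KS2.IsoPoly

/-!
Counting star-invariant polynomials, and classes by an invariant.
-/

set_option autoImplicit false
set_option linter.unusedSimpArgs false
set_option linter.unusedVariables false
set_option linter.deprecated false

universe u

namespace Cfsg.Agent.Lib.KS2.IsoCl

open Polynomial

variable {F : Type u} [Field F]

/-- Classes counted by a complete invariant. -/
lemma card_classes_eq {G : Type*} [Group G] {α : Type*} (P : G → Prop) (χ : G → α) (S : Set α)
    (h1 : ∀ g h, IsConj g h → χ g = χ h) (h2 : ∀ g h, P g → P h → χ g = χ h → IsConj g h)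
    (h3 : ∀ g, P g → χ g ∈ S) (h4 : ∀ a ∈ S, ∃ g, P g ∧ χ g = a) :
    Nat.card {c : ConjClasses G // ∃ g, ConjClasses.mk g = c ∧ P g} = Nat.card S := by
  classical
  apply Nat.card_congr
  let rep : {c : ConjClasses G // ∃ g, ConjClasses.mk g = c ∧ P g} → G := fun c => Classical.choose c.2
  have hrep : ∀ c, ConjClasses.mk (rep c) = c.1 ∧ P (rep c) := fun c => Classical.choose_spec c.2
  refine Equiv.ofBijective (fun c => ⟨χ (rep c), h3 _ (hrep c).2⟩) ⟨?_, ?_⟩
  · intro c c' h
    have h5 := congrArg Subtype.val h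
    have h6 := h2 _ _ (hrep c).2 (hrep c').2 h5
    apply Subtype.ext
    rw [← (hrep c).1, ← (hrep c').1]
    exact ConjClasses.mk_eq_mk_iff_isConj.mpr h6
  · rintro ⟨a, ha⟩
    obtain ⟨g, hg, hga⟩ := h4 a ha
    refine ⟨⟨ConjClasses.mk g, g, rfl, hg⟩, ?_⟩
    apply Subtype.ext
    have h7 : ConjClasses.mk (rep ⟨ConjClasses.mk g, g, rfl, hg⟩) = ConjClasses.mk g := (hrep ⟨ConjClasses.mk g, g, rfl, hg⟩).1
    have h8 := ConjClasses.mk_eq_mk_iff_isConj.mp h7
    show χ _ = a
    rw [h1 _ _ h8, hga]

/-- Polynomials from coefficient functions. -/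
noncomputable def polyOfFun (D : ℕ) (c : ℕ → F) : F[X] := ∑ k ∈ Finset.range (D + 1), C (c k) * X ^ k

lemma coeff_polyOfFun (D : ℕ) (c : ℕ → F) (k : ℕ) : (polyOfFun D c).coeff k = if k ≤ D then c k else 0 := by
  rw [polyOfFun, finset_sum_coeff]
  simp only [coeff_C_mul, coeff_X_pow, mul_ite, mul_one, mul_zero]
  rw [Finset.sum_ite_eq]
  simp [Nat.lt_succ_iff]

lemma polyOfFun_natDegree_le (D : ℕ) (c : ℕ → F) : (polyOfFun D c).natDegree ≤ D := by
  rw [natDegree_le_iff_coeff_eq_zero]
  intro k hk
  rw [coeff_polyOfFun, if_neg (by omega)]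

lemma polyOfFun_monic (D : ℕ) (c : ℕ → F) (h : c D = 1) : (polyOfFun D c).Monic := by
  apply monic_of_natDegree_le_of_coeff_eq_one D (polyOfFun_natDegree_le D c)
  rw [coeff_polyOfFun, if_pos le_rfl, h]

lemma polyOfFun_natDegree (D : ℕ) (c : ℕ → F) (h : c D = 1) : (polyOfFun D c).natDegree = D := by
  apply natDegree_eq_of_le_of_coeff_ne_zero (polyOfFun_natDegree_le D c)
  rw [coeff_polyOfFun, if_pos le_rfl, h]
  exact one_ne_zero

/-- Coefficients of the star. -/
lemma coeff_pstar (σ : F →+* F) {χ : F[X]} (k : ℕ) :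
    (pstar σ χ).coeff k = (σ (χ.coeff 0))⁻¹ * σ (χ.coeff (revAt χ.natDegree k)) := by
  rw [pstar, coeff_C_mul, coeff_reverse, natDegree_map', coeff_map]

lemma pstar_eq_iff (σ : F →+* F) {χ : F[X]} :
    pstar σ χ = χ ↔ ∀ k ≤ χ.natDegree, χ.coeff k = (σ (χ.coeff 0))⁻¹ * σ (χ.coeff (χ.natDegree - k)) := by
  constructor
  · intro h k hk
    conv_lhs => rw [← h]
    rw [coeff_pstar, revAt_le hk]
  · intro h
    ext k
    rw [coeff_pstar]
    by_cases hk : k ≤ χ.natDegree
    · rw [revAt_le hk, h k hk]
    · have h1 : χ.natDegree < k := by omega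
      rw [revAt_eq_self_of_lt h1, coeff_eq_zero_of_natDegree_lt h1]
      simp

section sp

variable [Fintype F]

/-- The coefficient function of a palindromic polynomial. -/
def spC {n : ℕ} (a : Fin n → F) (k : ℕ) : F :=
  if h0 : k = 0 ∨ k = 2 * n then 1 else
    if h : k ≤ n then a ⟨k - 1, by omega⟩ else
      if h2 : k < 2 * n then a ⟨2 * n - k - 1, by omega⟩ else 0

/-- The number of palindromic polynomials. -/
theorem card_sp_polys (n : ℕ) :
    Nat.card {χ : F[X] // χ.Monic ∧ χ.natDegree = 2 * n ∧ χ.coeff 0 = 1 ∧ pstar (RingHom.id F) χ = χ} = Fintype.card F ^ n := by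
  classical
  let E : {χ : F[X] // χ.Monic ∧ χ.natDegree = 2 * n ∧ χ.coeff 0 = 1 ∧ pstar (RingHom.id F) χ = χ} ≃ (Fin n → F) :=
    { toFun := fun χ i => χ.1.coeff (i + 1)
      invFun := fun a => ⟨polyOfFun (2 * n) (spC a), by
        have h1 : spC a (2 * n) = 1 := by simp [spC]
        have h2 : spC a 0 = 1 := by simp [spC]
        have hdeg := polyOfFun_natDegree (2 * n) (spC a) h1
        refine ⟨polyOfFun_monic _ _ h1, hdeg, ?_, ?_⟩
        · rw [coeff_polyOfFun, if_pos (by omega), h2]
        · rw [pstar_eq_iff, hdeg]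
          intro k hk
          have h3 : (polyOfFun (2 * n) (spC a)).coeff 0 = 1 := by
            rw [coeff_polyOfFun, if_pos (by omega), h2]
          rw [h3, coeff_polyOfFun, coeff_polyOfFun, if_pos hk, if_pos (by omega)]
          simp only [RingHom.id_apply, inv_one, one_mul]
          -- symmetry of the coefficient function
          unfold spC
          by_cases hk0 : k = 0
          · subst hk0
            simp
          by_cases hk1 : k = 2 * n
          · subst hk1
            simp
          have hk2 : ¬ (2 * n - k = 0 ∨ 2 * n - k = 2 * n) := by omega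
          rw [dif_neg (by omega), dif_neg hk2]
          by_cases hk3 : k ≤ n
          · by_cases hk4 : k = n
            · subst hk4
              have : 2 * k - k = k := by omega
              simp only [this]
            · have h5 : ¬ (2 * n - k ≤ n) := by omega
              have h6 : 2 * n - k < 2 * n := by omega
              rw [dif_pos hk3, dif_neg h5, dif_pos h6]
              congr 2
              omega
          · have h5 : 2 * n - k ≤ n := by omega
            have h6 : k < 2 * n := by omega
            rw [dif_neg hk3, dif_pos h6, dif_pos h5]⟩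
      left_inv := by
        rintro ⟨χ, h1, h2, h3, h4⟩
        apply Subtype.ext
        have h4' := (pstar_eq_iff _).mp h4
        rw [h2, h3] at h4'
        simp only [RingHom.id_apply, inv_one, one_mul] at h4'
        have hlead : χ.coeff (2 * n) = 1 := by
          rw [← h2]
          exact h1
        ext k
        show (polyOfFun (2 * n) (spC _)).coeff k = _
        rw [coeff_polyOfFun]
        by_cases hk : k ≤ 2 * n
        · rw [if_pos hk]
          unfold spC
          by_cases hk0 : k = 0
          · subst hk0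
            simp [h3]
          by_cases hk1 : k = 2 * n
          · subst hk1
            simp [hlead]
          rw [dif_neg (by omega)]
          by_cases hk3 : k ≤ n
          · rw [dif_pos hk3]
            show χ.coeff (k - 1 + 1) = _
            rw [Nat.sub_add_cancel (by omega)]
          · have h6 : k < 2 * n := by omega
            rw [dif_neg hk3, dif_pos h6]
            show χ.coeff (2 * n - k - 1 + 1) = _
            rw [Nat.sub_add_cancel (by omega), h4' k hk]
        · rw [if_neg hk, coeff_eq_zero_of_natDegree_lt (by rw [h2]; omega)]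
      right_inv := by
        intro a
        funext i
        show (polyOfFun (2 * n) (spC a)).coeff (i + 1) = a i
        have hi := i.2
        rw [coeff_polyOfFun, if_pos (by omega)]
        unfold spC
        rw [dif_neg (by omega), dif_pos (by omega)]
        rfl }
  rw [Nat.card_congr E, Nat.card_eq_fintype_card]
  simp

end sp

section semi

/-- A semilinear involution on a finite space: the fixed points form half of the space. -/
theorem card_fixed_sq {V : Type*} [AddCommGroup V] [Module F V] [Finite V] (σ : F →+* F) (δ : F) (hδ : σ δ ≠ δ)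
    (hσ : ∀ a, σ (σ a) = a) (ι : V → V)
    (hadd : ∀ x y, ι (x + y) = ι x + ι y) (hsmul : ∀ (a : F) x, ι (a • x) = σ a • ι x) (hinv : ∀ x, ι (ι x) = x) :
    Nat.card {v : V // ι v = v} ^ 2 = Nat.card V := by
  classical
  have hne : δ - σ δ ≠ 0 := sub_ne_zero.mpr (Ne.symm hδ)
  have hne' : σ δ - δ ≠ 0 := sub_ne_zero.mpr hδ
  have hsub : ∀ x y, ι (x - y) = ι x - ι y := by
    intro x y
    have h1 := hadd (x - y) y
    rw [sub_add_cancel] at h1
    rw [h1, add_sub_cancel_right]
  have hσinv : σ (δ - σ δ)⁻¹ = (σ δ - δ)⁻¹ := by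
    rw [map_inv₀, map_sub, hσ]
  have hflip : ∀ w : V, (σ δ - δ)⁻¹ • (ι w - w) = (δ - σ δ)⁻¹ • (w - ι w) := by
    intro w
    have h1 : σ δ - δ = -(δ - σ δ) := by ring
    rw [h1, inv_neg, neg_smul, ← smul_neg, neg_sub]
  let bb : V → V := fun v => (δ - σ δ)⁻¹ • (v - ι v)
  have hbb : ∀ v, ι (bb v) = bb v := by
    intro v
    show ι ((δ - σ δ)⁻¹ • (v - ι v)) = _
    rw [hsmul, hsub, hinv, hσinv, hflip]
  have haa : ∀ v, ι (v - δ • bb v) = v - δ • bb v := by
    intro v
    rw [hsub, hsmul, hbb]
    have h1 : (δ - σ δ) • bb v = v - ι v := by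
      show (δ - σ δ) • (δ - σ δ)⁻¹ • (v - ι v) = _
      rw [smul_smul, mul_inv_cancel₀ hne, one_smul]
    have h2 : δ • bb v - σ δ • bb v = v - ι v := by
      rw [← sub_smul]
      exact h1
    rw [← sub_eq_zero]
    have h3 : ι v - σ δ • bb v - (v - δ • bb v) = (δ • bb v - σ δ • bb v) - (v - ι v) := by abel
    rw [h3, h2, sub_self]
  let E : V ≃ ({v : V // ι v = v} × {v : V // ι v = v}) :=
    { toFun := fun v => (⟨v - δ • bb v, haa v⟩, ⟨bb v, hbb v⟩)
      invFun := fun x => x.1.1 + δ • x.2.1
      left_inv := fun v => by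
        simp
      right_inv := by
        rintro ⟨⟨a, ha⟩, ⟨b, hb⟩⟩
        have hb' : bb (a + δ • b) = b := by
          show (δ - σ δ)⁻¹ • ((a + δ • b) - ι (a + δ • b)) = b
          rw [hadd, hsmul, ha, hb]
          have : a + δ • b - (a + σ δ • b) = (δ - σ δ) • b := by
            rw [sub_smul]
            abel
          rw [this, smul_smul, inv_mul_cancel₀ hne, one_smul]
        apply Prod.ext
        · apply Subtype.ext
          show (a + δ • b) - δ • bb (a + δ • b) = a
          rw [hb']
          abel
        · apply Subtype.ext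
          exact hb' }
  rw [Nat.card_congr E, Nat.card_prod, sq]

/-- The coefficient function of a star-invariant polynomial. -/
def suC {k : ℕ} (κ : F) (c : Fin k → F) (j : ℕ) : F :=
  if h0 : j = 0 then κ else if h : j ≤ k then c ⟨j - 1, by omega⟩ else 1

/-- The number of star-invariant polynomials. -/
theorem card_su_polys_sq [Fintype F] (σ : F →+* F) (δ : F) (hδ : σ δ ≠ δ) (hσ : ∀ a, σ (σ a) = a) (κ : F) (hκ : κ * κ = 1)
    (hσκ : σ κ = κ) (k : ℕ) :
    Nat.card {χ : F[X] // χ.Monic ∧ χ.natDegree = k + 1 ∧ χ.coeff 0 = κ ∧ pstar σ χ = χ} ^ 2 = Fintype.card F ^ k := by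
  classical
  have hκinv : κ⁻¹ = κ := (eq_inv_of_mul_eq_one_left hκ).symm
  let ι : (Fin k → F) → (Fin k → F) := fun c i => κ * σ (c (Fin.rev i))
  have hι : ∀ c, ι (ι c) = c := by
    intro c
    funext i
    simp only [ι, map_mul, hσκ, hσ, Fin.rev_rev, ← mul_assoc, hκ, one_mul]
  have hcard := card_fixed_sq σ δ hδ hσ ι
    (fun x y => by
      funext i
      simp only [ι, Pi.add_apply, map_add, mul_add])
    (fun a x => by
      funext i
      simp only [ι, Pi.smul_apply, smul_eq_mul, map_mul, Pi.smul_apply]
      ring)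
    hι
  let E : {χ : F[X] // χ.Monic ∧ χ.natDegree = k + 1 ∧ χ.coeff 0 = κ ∧ pstar σ χ = χ} ≃ {c : Fin k → F // ι c = c} :=
    { toFun := fun χ => ⟨fun i => χ.1.coeff (i + 1), by
        obtain ⟨χ, h1, h2, h3, h4⟩ := χ
        funext i
        have h5 := (pstar_eq_iff σ).mp h4 (i + 1) (by rw [h2]; have := i.2; omega)
        rw [h3, h2, hσκ, hκinv] at h5
        show κ * σ (χ.coeff ((Fin.rev i : Fin k) + 1)) = χ.coeff (i + 1)
        rw [h5]
        have h6 : ((Fin.rev i : Fin k) : ℕ) + 1 = k + 1 - (i + 1) := by
          rw [Fin.val_rev]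
          have := i.2
          omega
        rw [h6]⟩
      invFun := fun c => ⟨polyOfFun (k + 1) (suC κ c.1), by
        have h1 : suC κ c.1 (k + 1) = 1 := by
          unfold suC
          rw [dif_neg (by omega), dif_neg (by omega)]
        have h2 : suC κ c.1 0 = κ := by
          unfold suC
          rw [dif_pos rfl]
        have hdeg := polyOfFun_natDegree (k + 1) (suC κ c.1) h1
        have h3 : (polyOfFun (k + 1) (suC κ c.1)).coeff 0 = κ := by
          rw [coeff_polyOfFun, if_pos (by omega), h2]
        refine ⟨polyOfFun_monic _ _ h1, hdeg, h3, ?_⟩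
        rw [pstar_eq_iff, hdeg, h3, hσκ, hκinv]
        intro j hj
        rw [coeff_polyOfFun, coeff_polyOfFun, if_pos hj, if_pos (by omega)]
        by_cases hj0 : j = 0
        · subst hj0
          rw [h2, Nat.sub_zero, h1, map_one, mul_one]
        by_cases hj1 : j = k + 1
        · subst hj1
          rw [h1, Nat.sub_self, h2, hσκ, hκ]
        have hc := congrFun c.2 ⟨j - 1, by omega⟩
        have hc' : κ * σ (c.1 (Fin.rev ⟨j - 1, by omega⟩)) = c.1 ⟨j - 1, by omega⟩ := hc
        unfold suC
        rw [dif_neg hj0, dif_pos (by omega), dif_neg (by omega), dif_pos (by omega), ← hc']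
        congr 2
        exact congrArg c.1 (Fin.ext (by simp only [Fin.val_rev]; omega))⟩
      left_inv := by
        rintro ⟨χ, h1, h2, h3, h4⟩
        apply Subtype.ext
        have hlead : χ.coeff (k + 1) = 1 := by
          rw [← h2]
          exact h1
        ext j
        show (polyOfFun (k + 1) (suC κ _)).coeff j = _
        rw [coeff_polyOfFun]
        by_cases hj : j ≤ k + 1
        · rw [if_pos hj]
          unfold suC
          by_cases hj0 : j = 0
          · subst hj0
            rw [dif_pos rfl, h3]
          rw [dif_neg hj0]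
          by_cases hj1 : j ≤ k
          · rw [dif_pos hj1]
            show χ.coeff (j - 1 + 1) = _
            rw [Nat.sub_add_cancel (by omega)]
          · have : j = k + 1 := by omega
            subst this
            rw [dif_neg hj1, hlead]
        · rw [if_neg hj, coeff_eq_zero_of_natDegree_lt (by rw [h2]; omega)]
      right_inv := by
        rintro ⟨c, hc⟩
        apply Subtype.ext
        funext i
        show (polyOfFun (k + 1) (suC κ c)).coeff (i + 1) = c i
        have hi := i.2
        rw [coeff_polyOfFun, if_pos (by omega)]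
        unfold suC
        rw [dif_neg (by omega), dif_pos (by omega)]
        rfl }
  rw [Nat.card_congr E, hcard, Nat.card_eq_fintype_card]
  simp

end semi

end Cfsg.Agent.Lib.KS2.IsoCl
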