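import Mathlib
import Cfsg.Agent.Lib.KS2.IsoCent
import Cfsg.Agent.Lib.KS2.SSConj2

/-!
Realization of star-invariant polynomials by semisimple isometries.
-/

set_option autoImplicit false
set_option linter.unusedSimpArgs false
set_option linter.unusedVariables false
set_option linter.deprecated false

universe u

namespace Cfsg.Agent.Lib.KS2.IsoCl

open Polynomial Matrix Cfsg.Agent.Lib.KS2.SSConj

variable {F : Type u} [Field F]

/-- Realizable polynomials. -/
def Rlz (σ : F →+* F) (ε : F) (χ : F[X]) : Prop :=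
  ∃ (V : Type u) (_ : AddCommGroup V) (_ : Module F V) (_ : FiniteDimensional F V) (B : V → V → F)
    (T : Module.End F V) (m : ℕ), (m : F) ≠ 0 ∧ IsForm σ ε B ∧ (∀ x y, B (T x) (T y) = B x y) ∧ T ^ m = 1 ∧ T.charpoly = χ

variable {σ : F →+* F} {ε : F}

lemma rlz_one : Rlz σ ε 1 := by
  refine ⟨PUnit.{u+1}, inferInstance, inferInstance, inferInstance, fun _ _ => 0, 1, 1, by simp, ?_, by simp, by simp, ?_⟩
  · exact ⟨by simp, by simp, by simp, fun x _ => Subsingleton.elim _ _, fun _ _ => rfl⟩
  · have h2 : (LinearMap.charpoly (1 : Module.End F PUnit.{u+1})).natDegree = 0 := by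
      rw [LinearMap.charpoly_natDegree]
      exact Module.finrank_zero_of_subsingleton
    exact (LinearMap.charpoly_monic _).natDegree_eq_zero.mp h2

lemma rlz_mul {a b : F[X]} (ha : Rlz σ ε a) (hb : Rlz σ ε b) : Rlz σ ε (a * b) := by
  obtain ⟨V, _, _, _, B, T, m, hm, hB, hT, hTm, hχ⟩ := ha
  obtain ⟨V', _, _, _, B', T', m', hm', hB', hT', hTm', hχ'⟩ := hb
  refine ⟨V × V', inferInstance, inferInstance, inferInstance, fun x y => B x.1 y.1 + B' x.2 y.2, T.prodMap T', m * m',
    ?_, ?_, ?_, ?_, ?_⟩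
  · rw [Nat.cast_mul]
    exact mul_ne_zero hm hm'
  · constructor
    · intro x y z
      simp only [Prod.fst_add, Prod.snd_add, hB.add_left, hB'.add_left]
      ring
    · intro a x y
      simp only [Prod.smul_fst, Prod.smul_snd, hB.smul_left, hB'.smul_left]
      ring
    · intro x y
      rw [map_add, mul_add, ← hB.symm, ← hB'.symm]
    · rintro ⟨x, y⟩ h
      have h1 : x = 0 := hB.nondeg x fun z => by
        have := h (z, 0)
        simpa [hB'.zero_right] using this
      have h2 : y = 0 := hB'.nondeg y fun z => by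
        have := h (0, z)
        simpa [hB.zero_right] using this
      rw [h1, h2]
      rfl
    · intro h x
      rw [hB.alt h, hB'.alt h, add_zero]
  · intro x y
    simp only [LinearMap.prodMap_apply, hT, hT']
  · have hpow : ∀ (k : ℕ) (a : V) (b : V'), ((T.prodMap T') ^ k) (a, b) = ((T ^ k) a, (T' ^ k) b) := by
      intro k a b
      induction k with
      | zero => simp
      | succ k ih =>
        rw [pow_succ', Module.End.mul_apply, ih]
        simp [pow_succ', Module.End.mul_apply]
    refine LinearMap.ext ?_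
    rintro ⟨a, b⟩
    rw [hpow, pow_mul, hTm, one_pow, mul_comm, pow_mul, hTm', one_pow]
    rfl
  · rw [LinearMap.charpoly_prodMap, hχ, hχ']

/-- The characteristic polynomial of the inverse. -/
lemma charpoly_inv' {ι : Type*} [Fintype ι] [DecidableEq ι] (A : Matrix ι ι F) (hA : A.det ≠ 0) :
    (A⁻¹).charpoly = C (A.charpoly.coeff 0)⁻¹ * A.charpoly.reverse := by
  have h1 : IsUnit A := (Matrix.isUnit_iff_isUnit_det A).mpr hA.isUnit
  rw [Matrix.charpoly_inv A h1, Matrix.reverse_charpoly, Ring.inverse_eq_inv']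
  congr 1
  have h2 := Matrix.det_eq_sign_charpoly_coeff A
  have h3 : ((-1 : F) ^ Fintype.card ι) * ((-1 : F) ^ Fintype.card ι) = 1 := by
    rw [← mul_pow]
    simp
  have h4 : A.charpoly.coeff 0 = (-1) ^ Fintype.card ι * A.det := by
    rw [h2, ← mul_assoc, h3, one_mul]
  rw [h4, mul_inv, map_mul]
  have h5 : ((-1 : F) ^ Fintype.card ι)⁻¹ = (-1 : F) ^ Fintype.card ι := (eq_inv_of_mul_eq_one_left h3).symm
  rw [h5]
  simp

section pairing

variable {n : ℕ}

/-- The standard pairing. -/
def stdP (σ : F →+* F) (n : ℕ) (x y : Fin n → F) : F := ∑ i, x i * σ (y i)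

/-- The `σ`-adjoint matrix. -/
def sAdj (σ : F →+* F) (A : Matrix (Fin n) (Fin n) F) : Matrix (Fin n) (Fin n) F := (σ.mapMatrix A)ᵀ

lemma stdP_adj (hσ : ∀ a, σ (σ a) = a) (A : Matrix (Fin n) (Fin n) F) (x y : Fin n → F) :
    stdP σ n (A *ᵥ x) y = stdP σ n x (sAdj σ A *ᵥ y) := by
  simp only [stdP, Matrix.mulVec, dotProduct, sAdj, Matrix.transpose_apply, RingHom.mapMatrix_apply, Matrix.map_apply]
  simp only [map_sum, map_mul, hσ, Finset.sum_mul, Finset.mul_sum]
  rw [Finset.sum_comm]
  refine Finset.sum_congr rfl fun i _ => Finset.sum_congr rfl fun j _ => ?_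
  ring

lemma stdP_symm (hσ : ∀ a, σ (σ a) = a) (x y : Fin n → F) : σ (stdP σ n x y) = stdP σ n y x := by
  simp only [stdP, map_sum, map_mul, hσ]
  exact Finset.sum_congr rfl fun i _ => mul_comm _ _

lemma stdP_add_left (x y z : Fin n → F) : stdP σ n (x + y) z = stdP σ n x z + stdP σ n y z := by
  simp only [stdP, Pi.add_apply, add_mul, Finset.sum_add_distrib]

lemma stdP_smul_left (a : F) (x z : Fin n → F) : stdP σ n (a • x) z = a * stdP σ n x z := by
  simp only [stdP, Pi.smul_apply, smul_eq_mul, Finset.mul_sum, mul_assoc]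

lemma stdP_zero_left (z : Fin n → F) : stdP σ n 0 z = 0 := by
  simp [stdP]

lemma stdP_zero_right (z : Fin n → F) : stdP σ n z 0 = 0 := by
  simp [stdP]

lemma stdP_nondeg (x : Fin n → F) (h : ∀ y, stdP σ n x y = 0) : x = 0 := by
  classical
  funext i
  have h1 := h (Pi.single i 1)
  simp only [stdP] at h1
  rw [Finset.sum_eq_single i] at h1
  · simpa using h1
  · intro j _ hj
    simp [Pi.single_eq_of_ne hj]
  · simp

lemma sAdj_sAdj (hσ : ∀ a, σ (σ a) = a) (A : Matrix (Fin n) (Fin n) F) : sAdj σ (sAdj σ A) = A := by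
  ext i j
  simp [sAdj, hσ]

lemma sAdj_mul (A A' : Matrix (Fin n) (Fin n) F) : sAdj σ (A * A') = sAdj σ A' * sAdj σ A := by
  rw [sAdj, sAdj, sAdj, map_mul, Matrix.transpose_mul]

lemma sAdj_one : sAdj σ (1 : Matrix (Fin n) (Fin n) F) = 1 := by
  rw [sAdj, map_one, Matrix.transpose_one]

lemma charpoly_sAdj (A : Matrix (Fin n) (Fin n) F) : (sAdj σ A).charpoly = A.charpoly.map σ := by
  rw [sAdj, Matrix.charpoly_transpose]
  exact Matrix.charpoly_map A σ

end pairing

/-- The hyperbolic block. -/
lemma rlz_hyp (hs : Sys σ ε) {n m : ℕ} (S : Matrix (Fin n) (Fin n) F) (hS : S.det ≠ 0) (hSm : S ^ m = 1) (hm : (m : F) ≠ 0)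
    (halt : (∀ a, σ a = a) → ε = -1) :
    Rlz σ ε (S.charpoly * pstar σ S.charpoly) := by
  have hu : IsUnit S.det := hS.isUnit
  set S' := sAdj σ S⁻¹ with hS'
  have h1 : sAdj σ S * S' = 1 := by
    rw [hS', ← sAdj_mul, Matrix.nonsing_inv_mul _ hu, sAdj_one]
  have h2 : sAdj σ S' = S⁻¹ := sAdj_sAdj hs.inv _
  have hS'm : S' ^ m = 1 := by
    have h3 : ∀ k : ℕ, S' ^ k = sAdj σ ((S⁻¹) ^ k) := by
      intro k
      induction k with
      | zero => simp [sAdj_one]
      | succ k ih => rw [pow_succ, ih, pow_succ', sAdj_mul]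
    rw [h3, inv_pow', hSm, inv_one, sAdj_one]
  have hε0 : ε ≠ 0 := by
    intro h
    have := hs.eps
    rw [h, zero_mul] at this
    exact zero_ne_one this
  refine ⟨(Fin n → F) × (Fin n → F), inferInstance, inferInstance, inferInstance,
    fun x y => stdP σ n x.1 y.2 + ε * stdP σ n x.2 y.1, (Matrix.toLin' S).prodMap (Matrix.toLin' S'), m, hm, ?_, ?_, ?_, ?_⟩
  · constructor
    · intro x y z
      simp only [Prod.fst_add, Prod.snd_add, stdP_add_left]
      ring
    · intro a x y
      simp only [Prod.smul_fst, Prod.smul_snd, stdP_smul_left]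
      ring
    · intro x y
      simp only [map_add, map_mul, stdP_symm hs.inv, hs.seps]
      linear_combination (-(stdP σ n y.1 x.2)) * hs.eps
    · rintro ⟨x, y⟩ h
      have h1 : x = 0 := stdP_nondeg x fun z => by
        have := h (0, z)
        simpa [stdP_zero_right] using this
      have h2 : y = 0 := stdP_nondeg y fun z => by
        have := h (z, 0)
        simpa [stdP_zero_right, hε0] using this
      rw [h1, h2]
      rfl
    · intro h x
      have e1 := halt h
      have e2 := stdP_symm (σ := σ) hs.inv x.1 x.2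
      rw [h] at e2
      rw [e1, ← e2]
      ring
  · rintro ⟨x, x'⟩ ⟨y, y'⟩
    have e1 : stdP σ n (S *ᵥ x) (S' *ᵥ y') = stdP σ n x y' := by
      rw [stdP_adj hs.inv, Matrix.mulVec_mulVec, h1, Matrix.one_mulVec]
    have e2 : stdP σ n (S' *ᵥ x') (S *ᵥ y) = stdP σ n x' y := by
      rw [stdP_adj hs.inv, Matrix.mulVec_mulVec, h2, Matrix.nonsing_inv_mul _ hu, Matrix.one_mulVec]
    show stdP σ n (S *ᵥ x) (S' *ᵥ y') + ε * stdP σ n (S' *ᵥ x') (S *ᵥ y) = _
    rw [e1, e2]
  · have hpow : ∀ (k : ℕ) (a b : Fin n → F), (((Matrix.toLin' S).prodMap (Matrix.toLin' S')) ^ k) (a, b) =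
        ((Matrix.toLin' (S ^ k)) a, (Matrix.toLin' (S' ^ k)) b) := by
      intro k a b
      induction k with
      | zero => simp
      | succ k ih =>
        rw [pow_succ', Module.End.mul_apply, ih, pow_succ', pow_succ', Matrix.toLin'_mul, Matrix.toLin'_mul]
        rfl
    refine LinearMap.ext ?_
    rintro ⟨a, b⟩
    rw [hpow, hSm, hS'm, Matrix.toLin'_one]
    rfl
  · rw [LinearMap.charpoly_prodMap, Matrix.charpoly_toLin', Matrix.charpoly_toLin', hS', charpoly_sAdj, charpoly_inv' S hS, pstar]
    rw [Polynomial.map_mul, Polynomial.map_C, map_inv₀, reverse_map']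

lemma coeff_zero_of_star {f : F[X]} (hf : f ≠ 0) (hstar : pstar σ f = f) : f.coeff 0 ≠ 0 := by
  intro h
  apply hf
  rw [← hstar, pstar, h, map_zero, _root_.inv_zero, C_0, zero_mul]

/-- The involution on the quotient field. -/
lemma exists_tau {m : ℕ} {f : F[X]} (hi : Irreducible f) (hff : f ∣ dag σ m f) :
    ∃ τ : AdjoinRoot f →+* AdjoinRoot f, ∀ p, τ (AdjoinRoot.mk f p) = AdjoinRoot.mk f (dag σ m p) := by
  have hvan : ∀ a ∈ Ideal.span {f}, ((AdjoinRoot.mk f).comp (dag σ m)) a = 0 := by
    intro a ha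
    obtain ⟨k, rfl⟩ := Ideal.mem_span_singleton'.mp ha
    simp only [RingHom.comp_apply, map_mul]
    rw [AdjoinRoot.mk_eq_zero.mpr hff, mul_zero]
  exact ⟨Ideal.Quotient.lift (Ideal.span {f}) ((AdjoinRoot.mk f).comp (dag σ m)) hvan, fun p => rfl⟩

/-- The elliptic block. -/
lemma rlz_ell [Finite F] (hs : Sys σ ε) (halt : (∀ a, σ a = a) → ε = -1) {f : F[X]} (hf : f.Monic) (hi : Irreducible f)
    (hstar : pstar σ f = f) (hτ : ¬ ((∀ a, σ a = a) ∧ f.natDegree = 1)) : Rlz σ ε f := by
  classical
  haveI : Fact (Irreducible f) := ⟨hi⟩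
  have hfin : FiniteDimensional F (AdjoinRoot f) := (AdjoinRoot.powerBasis hi.ne_zero).finite
  haveI : Finite (AdjoinRoot f) := Module.finite_of_finite F
  haveI : Fintype (AdjoinRoot f) := Fintype.ofFinite _
  have h00 := coeff_zero_of_star hi.ne_zero hstar
  set ρ : AdjoinRoot f := AdjoinRoot.root f with hρ
  have hρ0 : ρ ≠ 0 := by
    intro h
    rw [hρ, ← AdjoinRoot.mk_X, AdjoinRoot.mk_eq_zero] at h
    have h1 : Associated f X := hi.associated_of_dvd irreducible_X h
    exact h00 (Polynomial.X_dvd_iff.mp h1.symm.dvd)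
  set N := Fintype.card (AdjoinRoot f) with hN
  have hN1 : 1 ≤ N := Fintype.card_pos
  have hcast : ((N : ℕ) : F) = 0 := by
    have h1 : ((N : ℕ) : AdjoinRoot f) = 0 := by
      obtain ⟨q₀, hq₀⟩ := CharP.exists (AdjoinRoot f)
      exact Nat.cast_card_eq_zero (AdjoinRoot f)
    apply (algebraMap F (AdjoinRoot f)).injective
    rw [map_natCast, h1, map_zero]
  set m := N - 1 with hmdef
  have hm : (m : F) ≠ 0 := by
    rw [hmdef, Nat.cast_sub hN1, hcast]
    simp
  have hm0 : 0 < m := Nat.pos_of_ne_zero (fun h => hm (by simp [h]))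
  have hρm : ρ ^ m = 1 := FiniteField.pow_card_sub_one_eq_one ρ hρ0
  have hd : f ∣ X ^ m - 1 := by
    rw [← AdjoinRoot.mk_eq_zero, map_sub, map_pow, AdjoinRoot.mk_X, map_one, hρm, sub_self]
  have hff := dvd_dag_of_star (σ := σ) hm0 hi hd hstar
  obtain ⟨τ, hτmk⟩ := exists_tau (σ := σ) (m := m) hi hff
  have hτ2 : ∀ a, τ (τ a) = a := by
    intro a
    obtain ⟨p, rfl⟩ := AdjoinRoot.mk_surjective a
    rw [hτmk, hτmk, AdjoinRoot.mk_eq_mk]
    exact hd.trans (dag_dag hs.inv hm0 p)
  have hτρ : ρ * τ ρ = 1 := by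
    rw [hρ, ← AdjoinRoot.mk_X, hτmk, dag_X, ← map_mul, ← pow_succ', show m - 1 + 1 = m by omega, map_pow, AdjoinRoot.mk_X]
    exact hρm
  have hτC : ∀ a : F, τ (algebraMap F _ a) = algebraMap F _ (σ a) := by
    intro a
    have e : ∀ b : F, algebraMap F (AdjoinRoot f) b = AdjoinRoot.mk f (C b) := fun b => rfl
    rw [e, e, hτmk, dag_C]
  have hτsmul : ∀ (a : F) (z : AdjoinRoot f), τ (a • z) = σ a • τ z := by
    intro a z
    rw [Algebra.smul_def, map_mul, hτC, ← Algebra.smul_def]
  obtain ⟨a₀, ha₀⟩ := exists_a0 (σ := σ) hi hf hm0 hd hτ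
  have hτne : τ ≠ RingHom.id _ := by
    intro h
    apply ha₀
    rw [← AdjoinRoot.mk_eq_mk, ← hτmk, h]
    rfl
  -- the functional
  let mkL : (AdjoinRoot f →ₗ[F] F) → (AdjoinRoot f → F) := fun l z => l z + ε * σ (l (τ z))
  have hex : ∃ l : AdjoinRoot f →ₗ[F] F, ∃ z, mkL l z ≠ 0 := by
    by_contra hcon
    push Not at hcon
    obtain ⟨l₁, hl₁⟩ : ∃ l : AdjoinRoot f →ₗ[F] F, l 1 ≠ 0 := by
      by_contra h
      push Not at h
      exact one_ne_zero ((Module.forall_dual_apply_eq_zero_iff F (1 : AdjoinRoot f)).mp h)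
    by_cases hσ : ∀ a, σ a = a
    · have he := halt hσ
      apply hτne
      refine RingHom.ext fun z => ?_
      show τ z = z
      have h1 : ∀ l : Module.Dual F (AdjoinRoot f), l (z - τ z) = 0 := by
        intro l
        have h2 := hcon l z
        simp only [mkL, he, hσ] at h2
        rw [map_sub]
        linear_combination h2
      have h3 := (Module.forall_dual_apply_eq_zero_iff F (z - τ z)).mp h1
      exact (sub_eq_zero.mp h3).symm
    · push Not at hσ
      obtain ⟨a, ha⟩ := hσ
      have h1 := hcon l₁ 1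
      have h2 := hcon (a • l₁) 1
      simp only [mkL, LinearMap.smul_apply, smul_eq_mul, map_mul] at h1 h2
      have h3 : (a - σ a) * l₁ 1 = 0 := by
        linear_combination h2 - σ a * h1
      exact (mul_ne_zero (sub_ne_zero.mpr (Ne.symm ha)) hl₁) h3
  obtain ⟨l, z₀, hz₀⟩ := hex
  let lam : AdjoinRoot f →ₗ[F] F :=
    { toFun := mkL l
      map_add' := by
        intro x y
        simp only [mkL, map_add]
        ring
      map_smul' := by
        intro a x
        simp only [mkL, hτsmul, map_smul, smul_eq_mul, map_mul, hs.inv, RingHom.id_apply]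
        ring }
  have hlam : ∀ z, lam z = l z + ε * σ (l (τ z)) := fun z => rfl
  have hl1 : ∀ z, lam (τ z) = ε * σ (lam z) := by
    intro z
    rw [hlam, hlam, hτ2, map_add, map_mul, hs.seps, hs.inv]
    linear_combination (-(l (τ z))) * hs.eps
  have hl2 : (∀ a, σ a = a) → ∀ z, τ z = z → lam z = 0 := by
    intro hσ z hz
    rw [hlam, hz, halt hσ, hσ]
    ring
  refine ⟨AdjoinRoot f, inferInstance, inferInstance, hfin, fun a b => lam (a * τ b), LinearMap.mulLeft F ρ, m, hm, ?_, ?_, ?_, ?_⟩
  · constructor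
    · intro x y z
      rw [add_mul, map_add]
    · intro a x y
      rw [smul_mul_assoc, map_smul]
      rfl
    · intro x y
      rw [← hl1, map_mul τ, hτ2, mul_comm]
    · intro x h
      by_contra hx
      apply hz₀
      have h1 := h (τ (x⁻¹ * z₀))
      rw [hτ2, ← mul_assoc, mul_inv_cancel₀ hx, one_mul] at h1
      exact h1
    · intro hσ x
      apply hl2 hσ
      rw [map_mul τ, hτ2, mul_comm]
  · intro x y
    show lam (ρ * x * τ (ρ * y)) = _
    rw [map_mul τ]
    congr 1
    calc ρ * x * (τ ρ * τ y) = (ρ * τ ρ) * (x * τ y) := by ring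
      _ = _ := by rw [hτρ, one_mul]
  · rw [LinearMap.pow_mulLeft F _ ρ m, hρm]
    refine LinearMap.ext fun z => ?_
    simp
  · exact charpoly_of_cyc hf (cyc_adjoin f)

/-- Roots of star-invariant polynomials in the symplectic case. -/
lemma root_of_star (hσ : ∀ a, σ a = a) {h : F[X]} (hm : h.Monic) (hstar : pstar σ h = h) {a : F} (ha : a * a = 1)
    (hc : h.coeff 0 * a ^ h.natDegree = -1) (hD : Odd h.natDegree ∨ (1 + 1 : F) ≠ 0) : h.eval a = 0 := by
  have hσ' : σ = RingHom.id F := RingHom.ext hσ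
  subst hσ'
  have h00 := coeff_zero_of_star hm.ne_zero hstar
  have hrev : reverse h = C (h.coeff 0) * h := by
    have e : C (h.coeff 0)⁻¹ * reverse h = h := by simpa [pstar] using hstar
    calc reverse h = C (h.coeff 0) * (C (h.coeff 0)⁻¹ * reverse h) := by
          rw [← mul_assoc, ← C_mul, mul_inv_cancel₀ h00, C_1, one_mul]
      _ = _ := by rw [e]
  have hco : ∀ i ∈ Finset.range (h.natDegree + 1), h.coeff (h.natDegree - i) = h.coeff 0 * h.coeff i := by
    intro i hi
    have hi' : i ≤ h.natDegree := by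
      simpa [Nat.lt_succ_iff] using hi
    have := congrArg (fun g => g.coeff i) hrev
    simp only [coeff_reverse, coeff_C_mul, revAt_le hi'] at this
    exact this
  rw [eval_eq_sum_range]
  have hpa : ∀ i ∈ Finset.range (h.natDegree + 1), a ^ (h.natDegree - i) = a ^ h.natDegree * a ^ i := by
    intro i hi
    have hi' : i ≤ h.natDegree := by
      simpa [Nat.lt_succ_iff] using hi
    have h1 : a ^ i * a ^ i = 1 := by
      rw [← mul_pow, ha, one_pow]
    calc a ^ (h.natDegree - i) = a ^ (h.natDegree - i) * (a ^ i * a ^ i) := by rw [h1, mul_one]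
      _ = (a ^ (h.natDegree - i) * a ^ i) * a ^ i := by ring
      _ = _ := by rw [← pow_add, Nat.sub_add_cancel hi']
  have hpair : ∀ i (hi : i ∈ Finset.range (h.natDegree + 1)),
      h.coeff i * a ^ i + h.coeff (h.natDegree - i) * a ^ (h.natDegree - i) = 0 := by
    intro i hi
    rw [hco i hi, hpa i hi]
    linear_combination (h.coeff i * a ^ i) * hc
  refine Finset.sum_involution (fun i _ => h.natDegree - i) hpair ?_ ?_ ?_
  · intro i hi hne heq
    have hi' : i ≤ h.natDegree := by
      simpa [Nat.lt_succ_iff] using hi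
    have h2 := hpair i hi
    have heq' : h.natDegree - i = i := heq
    rw [heq'] at h2
    rcases hD with hodd | h2ne
    · obtain ⟨k, hk⟩ := hodd
      omega
    · apply hne
      have h3 : (1 + 1 : F) * (h.coeff i * a ^ i) = 0 := by linear_combination h2
      exact (mul_eq_zero.mp h3).resolve_left h2ne
  · intro i hi
    simp only [Finset.mem_range] at hi ⊢
    omega
  · intro i hi
    have hi' : i ≤ h.natDegree := by
      simpa [Nat.lt_succ_iff] using hi
    show h.natDegree - (h.natDegree - i) = i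
    omega

lemma coeff_sq_of_star (hσ : ∀ a, σ a = a) {f : F[X]} (hf : f.Monic) (hstar : pstar σ f = f) :
    f.coeff 0 * f.coeff 0 = 1 := by
  have h00 := coeff_zero_of_star hf.ne_zero hstar
  have h1 := pstar_coeff_zero σ hf
  rw [hstar, hσ] at h1
  calc f.coeff 0 * f.coeff 0 = f.coeff 0 * (f.coeff 0)⁻¹ := by rw [← h1]
    _ = 1 := mul_inv_cancel₀ h00

/-- Self-dual irreducible polynomials of degree at least two in the symplectic case. -/
lemma even_of_star (hσ : ∀ a, σ a = a) {f : F[X]} (hf : f.Monic) (hi : Irreducible f) (hstar : pstar σ f = f)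
    (h2 : 2 ≤ f.natDegree) : Even f.natDegree ∧ f.coeff 0 = 1 := by
  have hsq := coeff_sq_of_star hσ hf hstar
  have hnoroot : ∀ a, f.eval a ≠ 0 := by
    intro a ha
    have h1 : (X - C a) ∣ f := dvd_iff_isRoot.mpr ha
    have h3 := (irreducible_X_sub_C a).associated_of_dvd hi h1
    have h4 : f ∣ X - C a := h3.symm.dvd
    have h5 := Polynomial.natDegree_le_of_dvd h4 (X_sub_C_ne_zero a)
    rw [natDegree_X_sub_C] at h5
    omega
  have heven : Even f.natDegree := by
    by_contra hodd
    rw [Nat.not_even_iff_odd] at hodd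
    apply hnoroot (- f.coeff 0)
    apply root_of_star hσ hf hstar (by linear_combination hsq) _ (Or.inl hodd)
    obtain ⟨k, hk⟩ := hodd
    rw [hk, pow_succ, pow_mul]
    have h6 : (-f.coeff 0) ^ 2 = 1 := by linear_combination hsq
    rw [h6, one_pow]
    linear_combination -hsq
  refine ⟨heven, ?_⟩
  by_contra hne
  have hm1 : f.coeff 0 = -1 := by
    have h6 : (f.coeff 0 - 1) * (f.coeff 0 + 1) = 0 := by linear_combination hsq
    rcases mul_eq_zero.mp h6 with h7 | h7
    · exact absurd (sub_eq_zero.mp h7) hne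
    · linear_combination h7
  have h21 : (1 + 1 : F) ≠ 0 := by
    intro h
    apply hne
    rw [hm1]
    linear_combination -h
  apply hnoroot 1
  apply root_of_star hσ hf hstar (by ring) _ (Or.inr h21)
  rw [one_pow, mul_one, hm1]

variable [Fintype F]

lemma rlz_hyp_f (p : ℕ) [hpf : Fact p.Prime] [CharP F p] (hs : Sys σ ε) (halt : (∀ a, σ a = a) → ε = -1) {f : F[X]} (hf : f.Monic) (h00 : f.coeff 0 ≠ 0) :
    Rlz σ ε (f * pstar σ f) := by
  obtain ⟨x, hx1, hx2⟩ := exists_matrix (p := p) (n := f.natDegree) f hf rfl h00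
  have hdet : (x : Matrix (Fin f.natDegree) (Fin f.natDegree) F).det ≠ 0 := (Matrix.isUnits_det_units x).ne_zero
  have hxm : (x : Matrix (Fin f.natDegree) (Fin f.natDegree) F) ^ orderOf x = 1 := by
    rw [← Units.val_pow_eq_pow_val, pow_orderOf_eq_one]
    rfl
  have h := rlz_hyp hs _ hdet hxm (cast_ne_zero_of_coprime (p := p) hx1 (Or.inr trivial)) halt
  rwa [hx2] at h

/-- All star-invariant polynomials are realized. -/
theorem rlz_of_star (p : ℕ) [hpf : Fact p.Prime] [CharP F p] (hs : Sys σ ε) (halt : (∀ a, σ a = a) → ε = -1) : ∀ (d : ℕ) (χ : F[X]), χ.natDegree = d → χ.Monic →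
    pstar σ χ = χ → ((∀ a, σ a = a) → (Even d ∧ χ.coeff 0 = 1)) → Rlz σ ε χ := by
  classical
  intro d
  induction d using Nat.strong_induction_on with
  | _ d ih =>
    intro χ hd hχ hstar hcond
    by_cases hd0 : d = 0
    · have h1 : χ = 1 := hχ.natDegree_eq_zero.mp (hd.trans hd0)
      rw [h1]
      exact rlz_one
    have h00 := coeff_zero_of_star hχ.ne_zero hstar
    -- the general step
    have step : ∀ g : F[X], g.Monic → 0 < g.natDegree → pstar σ g = g → Rlz σ ε g → g ∣ χ →
        ((∀ a, σ a = a) → (Even g.natDegree ∧ g.coeff 0 = 1)) → Rlz σ ε χ := by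
      intro g hg hpos hgs hr ⟨h, hh⟩ hgc
      have hhm : h.Monic := by
        rw [hh] at hχ
        exact hg.of_mul_monic_left hχ
      have hdeg : d = g.natDegree + h.natDegree := by
        rw [← hd, hh]
        exact hg.natDegree_mul hhm
      have hhs : pstar σ h = h := by
        apply mul_left_cancel₀ hg.ne_zero
        rw [← hh, ← hstar, hh, pstar_mul, hgs]
      have hh' : Rlz σ ε h := by
        apply ih _ (by omega) h rfl hhm hhs
        intro hσ
        obtain ⟨h1, h2⟩ := hcond hσ
        obtain ⟨h3, h4⟩ := hgc hσ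
        constructor
        · rw [hdeg] at h1
          exact (Nat.even_add.mp h1).mp h3
        · have := h2
          rw [hh, mul_coeff_zero, h4, one_mul] at this
          exact this
      rw [hh]
      exact rlz_mul hr hh'
    have hunit : ¬ IsUnit χ := by
      intro h
      exact hd0 (hd ▸ Polynomial.natDegree_eq_zero_of_isUnit h)
    obtain ⟨g₀, hg₀, hgd⟩ := WfDvdMonoid.exists_irreducible_factor hunit hχ.ne_zero
    set f := normalize g₀ with hfdef
    have hg' : Associated g₀ f := associated_normalize g₀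
    have hi : Irreducible f := hg'.irreducible hg₀
    have hfm : f.Monic := Polynomial.monic_normalize hg₀.ne_zero
    have hfd : f ∣ χ := hg'.symm.dvd.trans hgd
    have hf0 : f.coeff 0 ≠ 0 := by
      intro h
      obtain ⟨k, hk⟩ := hfd
      apply h00
      rw [hk, mul_coeff_zero, h, zero_mul]
    have hSm := pstar_monic σ hf0
    have hSd : pstar σ f ∣ χ := by
      obtain ⟨k, hk⟩ := hfd
      refine ⟨pstar σ k, ?_⟩
      rw [← pstar_mul, ← hk, hstar]
    have hgood : (∀ a, σ a = a) → (Even (f * pstar σ f).natDegree ∧ (f * pstar σ f).coeff 0 = 1) := by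
      intro hσ
      constructor
      · rw [hfm.natDegree_mul hSm, pstar_natDegree σ hf0]
        exact ⟨_, rfl⟩
      · rw [mul_coeff_zero, pstar_coeff_zero σ hfm, hσ]
        exact mul_inv_cancel₀ hf0
    have hgs : pstar σ (f * pstar σ f) = f * pstar σ f := by
      rw [pstar_mul, pstar_pstar σ hs.inv hfm hf0, mul_comm]
    have hgpos : 0 < (f * pstar σ f).natDegree := by
      rw [hfm.natDegree_mul hSm]
      have := hi.natDegree_pos
      omega
    by_cases hne : pstar σ f = f
    · by_cases hlin : (∀ a, σ a = a) ∧ f.natDegree = 1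
      · -- the linear symplectic case
        obtain ⟨hσ, h1⟩ := hlin
        obtain ⟨hev, hc1⟩ := hcond hσ
        have hsq := coeff_sq_of_star hσ hfm hne
        obtain ⟨h₁, hh₁⟩ := hfd
        have hh₁m : h₁.Monic := by
          rw [hh₁] at hχ
          exact hfm.of_mul_monic_left hχ
        have hdeg : d = f.natDegree + h₁.natDegree := by
          rw [← hd, hh₁]
          exact hfm.natDegree_mul hh₁m
        have hh₁s : pstar σ h₁ = h₁ := by
          apply mul_left_cancel₀ hfm.ne_zero
          rw [← hh₁, ← hstar, hh₁, pstar_mul, hne]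
        have hodd : Odd h₁.natDegree := by
          rw [h1] at hdeg
          rw [hdeg] at hev
          have h3 := Nat.even_add.mp hev
          have h4 : ¬ Even h₁.natDegree := fun h => by
            have := h3.mpr h
            exact (Nat.not_even_one) this
          exact Nat.not_even_iff_odd.mp h4
        have hc2 : h₁.coeff 0 = f.coeff 0 := by
          rw [hh₁, mul_coeff_zero] at hc1
          calc h₁.coeff 0 = (f.coeff 0 * f.coeff 0) * h₁.coeff 0 := by rw [hsq, one_mul]
            _ = f.coeff 0 * (f.coeff 0 * h₁.coeff 0) := by ring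
            _ = f.coeff 0 := by rw [hc1, mul_one]
        have hroot : h₁.eval (- f.coeff 0) = 0 := by
          apply root_of_star hσ hh₁m hh₁s (by linear_combination hsq) _ (Or.inl hodd)
          obtain ⟨k, hk⟩ := hodd
          rw [hk, pow_succ, pow_mul]
          have h6 : (-f.coeff 0) ^ 2 = 1 := by linear_combination hsq
          rw [h6, one_pow, hc2]
          linear_combination -hsq
        have hf' : f = X - C (- f.coeff 0) := by
          conv_lhs => rw [hfm.eq_X_add_C h1]
          simp
        have hdvd : f ∣ h₁ := by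
          rw [hf']
          exact dvd_iff_isRoot.mpr (by simpa [← hf'] using hroot)
        have hdvd2 : f * pstar σ f ∣ χ := by
          rw [hne, hh₁]
          exact mul_dvd_mul_left _ hdvd
        exact step _ (hfm.mul hSm) hgpos hgs (rlz_hyp_f p hs halt hfm hf0) hdvd2 hgood
      · -- elliptic
        have hr := rlz_ell hs halt hfm hi hne hlin
        refine step f hfm hi.natDegree_pos hne hr hfd ?_
        intro hσ
        apply even_of_star hσ hfm hi hne
        have h1 : f.natDegree ≠ 1 := fun h => hlin ⟨hσ, h⟩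
        have h2 := hi.natDegree_pos
        omega
    · have hiS := pstar_irreducible σ hs.inv hfm hf0 hi
      have hcop : IsCoprime f (pstar σ f) := by
        rw [hi.coprime_iff_not_dvd]
        intro h
        apply hne
        exact (Polynomial.eq_of_monic_of_associated hfm hSm (hi.associated_of_dvd hiS h)).symm
      exact step _ (hfm.mul hSm) hgpos hgs (rlz_hyp_f p hs halt hfm hf0) (hcop.mul_dvd hfd hSd) hgood

end Cfsg.Agent.Lib.KS2.IsoCl
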