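import Mathlib
import Cfsg.Agent.Lib.KS2.IsoThm
import Cfsg.Agent.Lib.KS2.SSConj2
import Cfsg.Agent.Lib.Classical.Symplectic

/-!
Semisimple elements of symplectic groups with the same characteristic polynomial are conjugate.
-/

set_option autoImplicit false
set_option linter.unusedSimpArgs false
set_option linter.unusedVariables false
set_option linter.deprecated false

universe u

namespace Cfsg.Agent.Lib.KS2.IsoCl

open Polynomial Matrix Cfsg.Agent.Lib.Classical Cfsg.Agent.Lib.KS2.SSConj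

variable {F : Type u} [Field F]

lemma sys_sp : Sys (RingHom.id F) (-1 : F) := ⟨fun _ => rfl, by ring, rfl⟩

lemma sp_form (n : ℕ) : IsForm (RingHom.id F) (-1 : F) (Cfsg.sympForm n F) where
  add_left := fun x y z => sympForm_add_left x y z
  smul_left := fun a x y => by
    rw [sympForm_smul_left]
  symm := fun x y => by
    rw [sympForm_flip x y]
    simp
  nondeg := fun x h => by
    apply sympForm_eq_zero_iff
    intro u
    rw [sympForm_flip x u, h u, neg_zero]
  alt := fun _ x => sympForm_self x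

variable [Fintype F] (p : ℕ) [hpf : Fact p.Prime] [CharP F p]

lemma sp_T_isom {n : ℕ} (g : Matrix.symplecticGroup (Fin n) F) (x y : Fin n ⊕ Fin n → F) :
    Cfsg.sympForm n F (Matrix.toLin' (g : Matrix (Fin n ⊕ Fin n) (Fin n ⊕ Fin n) F) x)
      (Matrix.toLin' (g : Matrix (Fin n ⊕ Fin n) (Fin n ⊕ Fin n) F) y) = Cfsg.sympForm n F x y :=
  mem_symplecticGroup_iff_preserves.mp g.2 x y

lemma sp_T_pow {n m : ℕ} (g : Matrix.symplecticGroup (Fin n) F) (h : orderOf g ∣ m) :
    (Matrix.toLin' (g : Matrix (Fin n ⊕ Fin n) (Fin n ⊕ Fin n) F)) ^ m = 1 := by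
  have h1 : (g : Matrix (Fin n ⊕ Fin n) (Fin n ⊕ Fin n) F) ^ m = 1 := by
    have h2 : g ^ m = 1 := orderOf_dvd_iff_pow_eq_one.mp h
    have h3 := congrArg Subtype.val h2
    simpa using h3
  rw [← Matrix.toLin'_pow, h1]
  exact Matrix.toLin'_one

/-- Semisimple elements of `Sp` with the same characteristic polynomial are conjugate. -/
theorem sp_conj (n : ℕ) (g h : Matrix.symplecticGroup (Fin n) F) (hg : (orderOf g).Coprime p) (hh : (orderOf h).Coprime p)
    (hc : (g : Matrix (Fin n ⊕ Fin n) (Fin n ⊕ Fin n) F).charpoly = (h : Matrix (Fin n ⊕ Fin n) (Fin n ⊕ Fin n) F).charpoly) :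
    IsConj g h := by
  classical
  set m := orderOf g * orderOf h with hm
  have hm0 : (m : F) ≠ 0 := cast_ne_zero_of_coprime (p := p) (Nat.Coprime.mul_left hg hh) (Or.inr trivial)
  obtain ⟨φ, hφB, hφT⟩ := iso_exists (sys_sp (F := F)) hm0 _ (Fin n ⊕ Fin n → F) (Fin n ⊕ Fin n → F)
    (Cfsg.sympForm n F) (Cfsg.sympForm n F) (Matrix.toLin' (g : Matrix (Fin n ⊕ Fin n) (Fin n ⊕ Fin n) F))
    (Matrix.toLin' (h : Matrix (Fin n ⊕ Fin n) (Fin n ⊕ Fin n) F)) rfl (sp_form n) (sp_form n) (sp_T_isom g) (sp_T_isom h)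
    (sp_T_pow g (Dvd.intro _ rfl)) (sp_T_pow h (Dvd.intro_left _ rfl))
    (by rw [Matrix.charpoly_toLin', Matrix.charpoly_toLin', hc])
  set M := LinearMap.toMatrix' φ with hM
  have hMv : ∀ x, M *ᵥ x = φ x := fun x => LinearMap.toMatrix'_mulVec φ x
  have hMS : M ∈ Matrix.symplecticGroup (Fin n) F := by
    rw [mem_symplecticGroup_iff_preserves]
    intro u v
    rw [hMv, hMv, hφB]
  have hcomm : M * (g : Matrix (Fin n ⊕ Fin n) (Fin n ⊕ Fin n) F) = (h : Matrix (Fin n ⊕ Fin n) (Fin n ⊕ Fin n) F) * M := by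
    apply Matrix.toLin'.injective
    refine LinearMap.ext fun v => ?_
    rw [Matrix.toLin'_mul, Matrix.toLin'_mul, hM, Matrix.toLin'_toMatrix']
    exact hφT v
  rw [isConj_iff]
  refine ⟨⟨M, hMS⟩, ?_⟩
  have h1 : (⟨M, hMS⟩ : Matrix.symplecticGroup (Fin n) F) * g = h * ⟨M, hMS⟩ := Subtype.ext hcomm
  rw [h1, mul_inv_cancel_right]

end Cfsg.Agent.Lib.KS2.IsoCl
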