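import Mathlib
import Cfsg.Agent.Lib.KS2.IsoReal
import Cfsg.Agent.Lib.KS2.IsoCount
import Cfsg.Agent.Lib.KS2.IsoSp
import Cfsg.Agent.Lib.KS2.IsoSU
import Cfsg.Agent.Lib.KS2.SpModel
import Cfsg.Agent.Lib.Classical.HermAbs

/-!
The number of semisimple classes of symplectic and special unitary groups.
-/

set_option autoImplicit false
set_option linter.unusedSimpArgs false
set_option linter.unusedVariables false
set_option linter.deprecated false

universe u

namespace Cfsg.Agent.Lib.KS2.IsoCl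

open Polynomial Matrix Cfsg.Agent.Lib.Classical Cfsg.Agent.Lib.KS2.SSConj

variable {F : Type u} [Field F] [Fintype F]

section sp

variable {n : ℕ}

/-- The characteristic polynomial of an element of `Sp`. -/
lemma sp_forward (g : Matrix.symplecticGroup (Fin n) F) :
    (g : Matrix (Fin n ⊕ Fin n) (Fin n ⊕ Fin n) F).charpoly.Monic ∧
    (g : Matrix (Fin n ⊕ Fin n) (Fin n ⊕ Fin n) F).charpoly.natDegree = 2 * n ∧
    (g : Matrix (Fin n ⊕ Fin n) (Fin n ⊕ Fin n) F).charpoly.coeff 0 = 1 ∧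
    pstar (RingHom.id F) (g : Matrix (Fin n ⊕ Fin n) (Fin n ⊕ Fin n) F).charpoly =
      (g : Matrix (Fin n ⊕ Fin n) (Fin n ⊕ Fin n) F).charpoly := by
  classical
  set A := (g : Matrix (Fin n ⊕ Fin n) (Fin n ⊕ Fin n) F) with hA
  have hdet : A.det = 1 := SymplecticGroup.det_eq_one g.2
  have h0 : A.charpoly.coeff 0 = 1 := by
    have h1 := Matrix.det_eq_sign_charpoly_coeff A
    rw [hdet] at h1
    have h2 : ((-1 : F) ^ Fintype.card (Fin n ⊕ Fin n)) = 1 := by
      rw [Fintype.card_sum, Fintype.card_fin, ← two_mul, pow_mul]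
      simp
    rw [h2, one_mul] at h1
    exact h1.symm
  refine ⟨Matrix.charpoly_monic _, ?_, h0, ?_⟩
  · rw [Matrix.charpoly_natDegree_eq_dim, Fintype.card_sum, Fintype.card_fin]
    ring
  · have hJ : (J (Fin n) F) * (-J (Fin n) F) = 1 := by
      rw [Matrix.mul_neg, J_squared, neg_neg]
    have hJ' : (-J (Fin n) F) * (J (Fin n) F) = 1 := by
      rw [Matrix.neg_mul, J_squared, neg_neg]
    let uJ : (Matrix (Fin n ⊕ Fin n) (Fin n ⊕ Fin n) F)ˣ := ⟨J (Fin n) F, -J (Fin n) F, hJ, hJ'⟩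
    have hm : A * (J (Fin n) F * Aᵀ * (-J (Fin n) F)) = 1 := by
      have h1 : A * J (Fin n) F * Aᵀ = J (Fin n) F := SymplecticGroup.mem_iff.mp g.2
      rw [← Matrix.mul_assoc, ← Matrix.mul_assoc, h1, hJ]
    have hinv : A⁻¹ = J (Fin n) F * Aᵀ * (-J (Fin n) F) := Matrix.inv_eq_right_inv hm
    have h2 : (A⁻¹).charpoly = A.charpoly := by
      rw [hinv]
      have h3 := Matrix.charpoly_units_conj uJ Aᵀ
      have h4 : (J (Fin n) F)⁻¹ = -J (Fin n) F := Matrix.inv_eq_right_inv hJ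
      rw [Matrix.charpoly_transpose, show (uJ : Matrix (Fin n ⊕ Fin n) (Fin n ⊕ Fin n) F) = J (Fin n) F from rfl, h4] at h3
      exact h3
    have hdet0 : A.det ≠ 0 := fun h => zero_ne_one (α := F) (h.symm.trans hdet)
    have h5 := charpoly_inv' A hdet0
    rw [h2, h0] at h5
    simp only [pstar, Polynomial.map_id, RingHom.id_apply, h0]
    exact h5.symm

/-- Realization in `Sp`. -/
lemma sp_real (p : ℕ) [hpf : Fact p.Prime] [CharP F p] {χ : F[X]} (hr : Rlz (RingHom.id F) (-1 : F) χ) (hd : χ.natDegree = 2 * n) :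
    ∃ g : Matrix.symplecticGroup (Fin n) F, (orderOf g).Coprime p ∧
      (g : Matrix (Fin n ⊕ Fin n) (Fin n ⊕ Fin n) F).charpoly = χ := by
  classical
  obtain ⟨V, _, _, _, B, T, m, hm, hB, hT, hTm, hχ⟩ := hr
  have hdim : Module.finrank F V = 2 * n := by
    rw [← hd, ← hχ, LinearMap.charpoly_natDegree]
  let B₀ : LinearMap.BilinForm F V := LinearMap.mk₂ F B hB.add_left (fun a x y => hB.smul_left a x y)
    (fun x y z => hB.add_right x y z) (fun a x y => hB.smul_right a x y)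
  have hB₀ : ∀ x y, B₀ x y = B x y := fun _ _ => rfl
  have hA : B₀.IsAlt := fun x => hB.alt (fun _ => rfl) x
  have hnd : B₀.Nondegenerate := by
    constructor
    · intro x h
      exact hB.nondeg x h
    · intro y h
      exact hB.nondeg_right y h
  obtain ⟨θ, φ, hφ⟩ := SpM.exists_hom B₀ hA hnd hdim
  let T₁ : SpM.isomSub B₀ := ⟨T, hT⟩
  refine ⟨φ T₁, ?_, ?_⟩
  · have h1 : (φ T₁) ^ m = 1 := by
      rw [← map_pow]
      have h2 : T₁ ^ m = 1 := Subtype.ext hTm
      rw [h2, map_one]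
    have h2 : orderOf (φ T₁) ∣ m := orderOf_dvd_of_pow_eq_one h1
    have hp : p.Prime := Fact.out
    rw [Nat.coprime_comm, hp.coprime_iff_not_dvd]
    intro h3
    apply hm
    exact (CharP.cast_eq_zero_iff F p m).mpr (h3.trans h2)
  · rw [← Matrix.charpoly_toLin', ← hχ]
    have h1 : Matrix.toLin' ((φ T₁ : Matrix.symplecticGroup (Fin n) F) : Matrix (Fin n ⊕ Fin n) (Fin n ⊕ Fin n) F) = θ.conj T := by
      refine LinearMap.ext fun v => ?_
      rw [LinearEquiv.conj_apply_apply]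
      obtain ⟨w, rfl⟩ := θ.surjective v
      rw [LinearEquiv.symm_apply_apply]
      exact hφ T₁ w
    rw [h1, LinearEquiv.charpoly_conj]

lemma sp_conj_charpoly (g h : Matrix.symplecticGroup (Fin n) F) (hc : IsConj g h) :
    (g : Matrix (Fin n ⊕ Fin n) (Fin n ⊕ Fin n) F).charpoly = (h : Matrix (Fin n ⊕ Fin n) (Fin n ⊕ Fin n) F).charpoly := by
  classical
  obtain ⟨u, rfl⟩ := isConj_iff.mp hc
  let U : (Matrix (Fin n ⊕ Fin n) (Fin n ⊕ Fin n) F)ˣ := Units.map (Matrix.symplecticGroup (Fin n) F).subtype (toUnits u)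
  have h1 := Matrix.charpoly_units_conj U (g : Matrix (Fin n ⊕ Fin n) (Fin n ⊕ Fin n) F)
  have h2 : (U : Matrix (Fin n ⊕ Fin n) (Fin n ⊕ Fin n) F)⁻¹ = ((u⁻¹ : Matrix.symplecticGroup (Fin n) F) : Matrix (Fin n ⊕ Fin n) (Fin n ⊕ Fin n) F) := by
    apply Matrix.inv_eq_right_inv
    have h3 := congrArg Subtype.val (mul_inv_cancel u)
    exact h3
  rw [h2] at h1
  exact h1.symm

/-- The number of semisimple classes of `Sp`. -/
theorem card_classes_sp {q : ℕ} (hq : Fintype.card F = q) (p : ℕ) [hpf : Fact p.Prime] [CharP F p] (n : ℕ) :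
    Nat.card {c : ConjClasses (Matrix.symplecticGroup (Fin n) F) //
      ∃ g : Matrix.symplecticGroup (Fin n) F, ConjClasses.mk g = c ∧ (orderOf g).Coprime p} = q ^ n := by
  rw [← hq, ← card_sp_polys (F := F) n]
  exact card_classes_eq (fun g : Matrix.symplecticGroup (Fin n) F => (orderOf g).Coprime p)
    (fun g => (g : Matrix (Fin n ⊕ Fin n) (Fin n ⊕ Fin n) F).charpoly)
    {χ : F[X] | χ.Monic ∧ χ.natDegree = 2 * n ∧ χ.coeff 0 = 1 ∧ pstar (RingHom.id F) χ = χ}
    sp_conj_charpoly (fun g h hg hh hc => sp_conj p n g h hg hh hc) (fun g _ => sp_forward g)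
    (fun χ hχ => by
      obtain ⟨h1, h2, h3, h4⟩ := hχ
      have hr := rlz_of_star p (sys_sp (F := F)) (fun _ => rfl) (2 * n) χ h2 h1 h4 (fun _ => ⟨even_two_mul n, h3⟩)
      exact sp_real p hr h2)

end sp

end Cfsg.Agent.Lib.KS2.IsoCl
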