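import Mathlib
import Cfsg.Agent.Lib.KS2.IsoGroup

/-!
The number of semisimple classes of special unitary groups.
-/

set_option autoImplicit false
set_option linter.unusedSimpArgs false
set_option linter.unusedVariables false
set_option linter.deprecated false

universe u

namespace Cfsg.Agent.Lib.KS2.IsoCl

open Polynomial Matrix Cfsg.Agent.Lib.Classical Cfsg.Agent.Lib.KS2.SSConj

variable {F : Type u} [Field F] [Fintype F] {q : ℕ} {n : ℕ}

/-- The characteristic polynomial of an element of `SU`. -/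
lemma su_forward (hF : Fintype.card F = q ^ 2) (g : Cfsg.SU n F q) :
    ((g : Matrix.SpecialLinearGroup (Fin n) F) : Matrix (Fin n) (Fin n) F).charpoly.Monic ∧
    ((g : Matrix.SpecialLinearGroup (Fin n) F) : Matrix (Fin n) (Fin n) F).charpoly.natDegree = n ∧
    ((g : Matrix.SpecialLinearGroup (Fin n) F) : Matrix (Fin n) (Fin n) F).charpoly.coeff 0 = (-1 : F) ^ n ∧
    pstar (conjQ hF) ((g : Matrix.SpecialLinearGroup (Fin n) F) : Matrix (Fin n) (Fin n) F).charpoly =
      ((g : Matrix.SpecialLinearGroup (Fin n) F) : Matrix (Fin n) (Fin n) F).charpoly := by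
  classical
  set A := ((g : Matrix.SpecialLinearGroup (Fin n) F) : Matrix (Fin n) (Fin n) F) with hA
  have hdet : A.det = 1 := (g : Matrix.SpecialLinearGroup (Fin n) F).2
  have hB : ∀ u v, Cfsg.hermForm n F q (A *ᵥ u) (A *ᵥ v) = Cfsg.hermForm n F q u v := g.2
  have hsq : ((-1 : F) ^ n) * ((-1 : F) ^ n) = 1 := by
    rw [← mul_pow]
    simp
  have h0 : A.charpoly.coeff 0 = (-1 : F) ^ n := by
    have h1 := Matrix.det_eq_sign_charpoly_coeff A
    rw [hdet, Fintype.card_fin] at h1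
    calc A.charpoly.coeff 0 = ((-1 : F) ^ n * (-1 : F) ^ n) * A.charpoly.coeff 0 := by rw [hsq, one_mul]
      _ = (-1 : F) ^ n * ((-1 : F) ^ n * A.charpoly.coeff 0) := by ring
      _ = _ := by rw [← h1, mul_one]
  refine ⟨Matrix.charpoly_monic _, ?_, h0, ?_⟩
  · rw [Matrix.charpoly_natDegree_eq_dim, Fintype.card_fin]
  · have hadj : hAdj hF A * A = 1 := hAdj_mul_self hF A hB
    have hinv : A⁻¹ = hAdj hF A := Matrix.inv_eq_left_inv hadj
    have hdet0 : A.det ≠ 0 := fun h => zero_ne_one (α := F) (h.symm.trans hdet)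
    have h1 := charpoly_inv' A hdet0
    have h2 : (A⁻¹).charpoly = A.charpoly.map (conjQ hF) := by
      rw [hinv, hAdj, Matrix.charpoly_transpose]
      exact Matrix.charpoly_map A (conjQ hF)
    rw [h2] at h1
    have h3 := congrArg (Polynomial.map (conjQ hF)) h1
    have hm : (A.charpoly.map (conjQ hF)).map (conjQ hF) = A.charpoly := by
      rw [Polynomial.map_map]
      have : (conjQ hF).comp (conjQ hF) = RingHom.id F := RingHom.ext (conjQ_conjQ hF)
      rw [this, Polynomial.map_id]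
    rw [hm, Polynomial.map_mul, Polynomial.map_C, map_inv₀, ← reverse_map'] at h3
    rw [pstar]
    exact h3.symm

lemma su_conj_charpoly (g h : Cfsg.SU n F q) (hc : IsConj g h) :
    ((g : Matrix.SpecialLinearGroup (Fin n) F) : Matrix (Fin n) (Fin n) F).charpoly =
      ((h : Matrix.SpecialLinearGroup (Fin n) F) : Matrix (Fin n) (Fin n) F).charpoly := by
  classical
  obtain ⟨u, rfl⟩ := isConj_iff.mp hc
  let ρ : Cfsg.SU n F q →* Matrix (Fin n) (Fin n) F := (Cfsg.slToMat n F).comp (Cfsg.SU n F q).subtype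
  let U : (Matrix (Fin n) (Fin n) F)ˣ := Units.map ρ (toUnits u)
  have h1 := Matrix.charpoly_units_conj U ((g : Matrix.SpecialLinearGroup (Fin n) F) : Matrix (Fin n) (Fin n) F)
  have h2 : (U : Matrix (Fin n) (Fin n) F)⁻¹ = ρ u⁻¹ := by
    apply Matrix.inv_eq_right_inv
    show ρ u * ρ u⁻¹ = 1
    rw [← map_mul, mul_inv_cancel, map_one]
  rw [h2] at h1
  exact h1.symm

/-- Realization in `SU`. -/
lemma su_real (hF : Fintype.card F = q ^ 2) (p : ℕ) [hpf : Fact p.Prime] [CharP F p] (hn : 0 < n) {χ : F[X]}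
    (hr : Rlz (conjQ hF) (1 : F) χ) (hd : χ.natDegree = n) (h00 : χ.coeff 0 = (-1 : F) ^ n) :
    ∃ g : Cfsg.SU n F q, (orderOf g).Coprime p ∧
      ((g : Matrix.SpecialLinearGroup (Fin n) F) : Matrix (Fin n) (Fin n) F).charpoly = χ := by
  classical
  haveI : Nonempty (Fin n) := ⟨⟨0, hn⟩⟩
  obtain ⟨V, _, _, _, B, T, m, hm, hB, hT, hTm, hχ⟩ := hr
  have hdim : Module.finrank F V = n := by
    rw [← hd, ← hχ, LinearMap.charpoly_natDegree]
  let Bt : V →ₛₗ[conjQ hF] V →ₗ[F] F := LinearMap.mk₂'ₛₗ (conjQ hF) (RingHom.id F) (fun x y => B y x)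
    (fun x x' y => hB.add_right y x x') (fun c x y => hB.smul_right c y x)
    (fun x y y' => hB.add_left y y' x) (fun c x y => hB.smul_left c y x)
  have hBt : ∀ x y, Bt x y = B y x := fun _ _ => rfl
  have hS : Bt.IsSymm := by
    constructor
    intro x y
    rw [hBt, hBt, hB.symm y x, one_mul]
  have hnd : Bt.Nondegenerate := by
    constructor
    · intro x h
      exact hB.nondeg_right x h
    · intro y h
      exact hB.nondeg y h
  obtain ⟨e, he⟩ := Witt.exists_orthonormal (conjQ hF) (conjQ_ne_id hF) (conjQ_conjQ hF) n V Bt hS hnd hdim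
  have hli : LinearIndependent F e := by
    rw [Fintype.linearIndependent_iff]
    intro g hg i
    have h1 := congrArg (Bt (e i)) hg
    rw [map_sum, map_zero] at h1
    simp only [map_smul, he, smul_eq_mul, mul_ite, mul_one, mul_zero] at h1
    simpa using h1
  let b : Module.Basis (Fin n) F V := basisOfLinearIndependentOfCardEqFinrank hli (by simp [hdim])
  have hb : ∀ i, b i = e i := fun i => by simp [b]
  set A := LinearMap.toMatrix b b T with hA
  let Φ : (Fin n → F) → V := fun u => ∑ i, u i • e i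
  have hrepr : ∀ u, b.repr (Φ u) = Finsupp.equivFunOnFinite.symm u := by
    intro u
    apply b.repr.symm.injective
    rw [LinearEquiv.symm_apply_apply]
    show Φ u = _
    rw [Module.Basis.repr_symm_apply, Finsupp.linearCombination_apply, Finsupp.sum_fintype]
    · simp [Φ, hb]
    · simp
  have hΦT : ∀ u, T (Φ u) = Φ (A *ᵥ u) := by
    intro u
    have h1 := LinearMap.toMatrix_mulVec_repr b b T (Φ u)
    have h2 : (⇑(b.repr (Φ u)) : Fin n → F) = u := by rw [hrepr]; rfl
    rw [h2] at h1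
    rw [← hA] at h1
    rw [h1]
    have h3 := b.sum_repr (T (Φ u))
    show _ = ∑ i, (⇑(b.repr (T (Φ u)))) i • e i
    rw [← h3]
    simp only [hb]
    simp [← hb]
  have hform : ∀ u w, Cfsg.hermForm n F q u w = Bt (Φ w) (Φ u) := by
    intro u w
    simp only [Φ, Cfsg.hermForm, map_sum, LinearMap.sum_apply, map_smulₛₗ, LinearMap.smul_apply, he,
      conjQ_apply, smul_eq_mul]
    simp [mul_comm]
  have hiso : ∀ u v, Cfsg.hermForm n F q (A *ᵥ u) (A *ᵥ v) = Cfsg.hermForm n F q u v := by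
    intro u v
    rw [hform, hform, ← hΦT, ← hΦT, hBt, hBt, hT]
  have hAχ : A.charpoly = χ := by
    rw [hA, LinearMap.charpoly_toMatrix, hχ]
  have hsq : ((-1 : F) ^ n) * ((-1 : F) ^ n) = 1 := by
    rw [← mul_pow]
    simp
  have hdetA : A.det = 1 := by
    rw [Matrix.det_eq_sign_charpoly_coeff, hAχ, h00, Fintype.card_fin, hsq]
  refine ⟨mkSU A hdetA hiso, ?_, hAχ⟩
  have hAm : A ^ m = 1 := by
    have h1 : LinearMap.toMatrix b b (T ^ m) = A ^ m := (LinearMap.toMatrix_pow b T m).symm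
    rw [← h1, hTm]
    exact LinearMap.toMatrix_one b
  have h1 : (mkSU A hdetA hiso : Cfsg.SU n F q) ^ m = 1 := by
    apply Subtype.ext
    apply Subtype.ext
    show A ^ m = 1
    exact hAm
  have h2 := orderOf_dvd_of_pow_eq_one h1
  have hp : p.Prime := Fact.out
  rw [Nat.coprime_comm, hp.coprime_iff_not_dvd]
  intro h3
  apply hm
  exact (CharP.cast_eq_zero_iff F p m).mpr (h3.trans h2)

/-- The number of star-invariant polynomials for `SU`. -/
lemma card_su_polys (hF : Fintype.card F = q ^ 2) (k : ℕ) :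
    Nat.card {χ : F[X] // χ.Monic ∧ χ.natDegree = k + 1 ∧ χ.coeff 0 = (-1 : F) ^ (k + 1) ∧ pstar (conjQ hF) χ = χ} = q ^ k := by
  obtain ⟨δ, hδ⟩ : ∃ δ, conjQ hF δ ≠ δ := by
    by_contra h
    push Not at h
    exact conjQ_ne_id hF (RingHom.ext h)
  have hsq : ((-1 : F) ^ (k + 1)) * ((-1 : F) ^ (k + 1)) = 1 := by
    rw [← mul_pow]
    simp
  have h1 := card_su_polys_sq (conjQ hF) δ hδ (conjQ_conjQ hF) ((-1 : F) ^ (k + 1)) hsq (by rw [map_pow, map_neg, map_one]) k
  rw [hF] at h1
  have h2 : (q ^ 2) ^ k = (q ^ k) ^ 2 := by ring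
  rw [h2] at h1
  exact (Nat.pow_left_injective (n := 2) (by omega)) h1

/-- The number of semisimple classes of `SU`. -/
theorem card_classes_su (hF : Fintype.card F = q ^ 2) (p : ℕ) [hpf : Fact p.Prime] [CharP F p] (n : ℕ) (hn : 1 ≤ n) :
    Nat.card {c : ConjClasses (Cfsg.SU n F q) // ∃ g : Cfsg.SU n F q, ConjClasses.mk g = c ∧ (orderOf g).Coprime p} = q ^ (n - 1) := by
  obtain ⟨k, rfl⟩ : ∃ k, n = k + 1 := ⟨n - 1, by omega⟩
  rw [Nat.add_sub_cancel, ← card_su_polys hF k]
  have hne : ¬ ∀ a, (conjQ hF) a = a := fun h => conjQ_ne_id hF (RingHom.ext h)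
  exact card_classes_eq (fun g : Cfsg.SU (k + 1) F q => (orderOf g).Coprime p)
    (fun g => ((g : Matrix.SpecialLinearGroup (Fin (k + 1)) F) : Matrix (Fin (k + 1)) (Fin (k + 1)) F).charpoly)
    {χ : F[X] | χ.Monic ∧ χ.natDegree = k + 1 ∧ χ.coeff 0 = (-1 : F) ^ (k + 1) ∧ pstar (conjQ hF) χ = χ}
    su_conj_charpoly (fun g h hg hh hc => su_conj hF p _ g h hg hh hc) (fun g _ => su_forward hF g)
    (fun χ hχ => by
      obtain ⟨h1, h2, h3, h4⟩ := hχ
      have hr := rlz_of_star p (sys_su hF) (fun h => absurd h hne) (k + 1) χ h2 h1 h4 (fun h => absurd h hne)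
      exact su_real hF p (by omega) hr h2 h3)

end Cfsg.Agent.Lib.KS2.IsoCl
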