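import Mathlib
import Cfsg.Agent.Lib.Char.Degrees
import Cfsg.Agent.Lib.Char.Clifford
import Cfsg.Agent.Lib.Char.Complete

set_option autoImplicit false
set_option linter.unusedSimpArgs false
set_option linter.unusedVariables false
set_option linter.unusedSectionVars false

namespace Cfsg.Agent.Lib.KS2.RK

open Cfsg Cfsg.Agent.Lib.Char Module
open scoped ComplexConjugate

universe u v

/-- The number of irreducible characters of degree prime to `ℓ`. -/
noncomputable abbrev cntL (ℓ : ℕ) (G : Type u) [Group G] : ℕ :=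
  Nat.card {χ : IrrCharacter G // ¬ ℓ ∣ charDegree (χ : G → ℂ)}

/-- Isomorphic groups have the same count. -/
lemma cntL_congr {G : Type u} {H : Type v} [Group G] [Group H] (e : H ≃* G) (ℓ : ℕ) : cntL ℓ G = cntL ℓ H := by
  apply Nat.card_congr
  refine ⟨fun χ => ⟨⟨χ.1.1 ∘ e, isIrr_comp_equiv e χ.1.2⟩, ?_⟩, fun χ => ⟨⟨χ.1.1 ∘ e.symm, isIrr_comp_equiv e.symm χ.1.2⟩, ?_⟩, ?_, ?_⟩
  · have := charDegree_comp_monoidHom e.toMonoidHom χ.1.1
    show ¬ ℓ ∣ charDegree (χ.1.1 ∘ e)
    have e2 : charDegree (χ.1.1 ∘ e) = charDegree χ.1.1 := this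
    rw [e2]
    exact χ.2
  · have := charDegree_comp_monoidHom e.symm.toMonoidHom χ.1.1
    show ¬ ℓ ∣ charDegree (χ.1.1 ∘ e.symm)
    have e2 : charDegree (χ.1.1 ∘ e.symm) = charDegree χ.1.1 := this
    rw [e2]
    exact χ.2
  · intro χ
    apply Subtype.ext
    apply Subtype.ext
    funext g
    simp
  · intro χ
    apply Subtype.ext
    apply Subtype.ext
    funext g
    simp

lemma charDegree_le_index {G : Type u} [Group G] [Finite G] (χ : IrrCharacter G) (A : Subgroup G)
    (hA : ∀ a ∈ A, ∀ b ∈ A, a * b = b * a) : charDegree (χ : G → ℂ) ≤ A.index := by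
  obtain ⟨n, ρ, hρ, h⟩ := χ.2
  rw [← h, charDegree_natCast (Representation.char_one ρ)]
  exact finrank_le_index_of_abelian ρ hρ A hA

lemma charDegree_dvd_index {G : Type u} [Group G] [Finite G] (χ : IrrCharacter G) (A : Subgroup G)
    (hN : A.Normal) (hA : ∀ a ∈ A, ∀ b ∈ A, a * b = b * a) : charDegree (χ : G → ℂ) ∣ A.index := by
  obtain ⟨n, ρ, hρ, h⟩ := χ.2
  rw [← h, charDegree_natCast (Representation.char_one ρ)]
  exact finrank_dvd_index_of_abelian_normal ρ hρ A hN hA

/-- For an abelian Sylow subgroup, all irreducible characters of the normaliser have `ℓ'`-degree. -/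
theorem cntL_normalizer_of_abelian {G : Type u} [Group G] [Finite G] (ℓ : ℕ) [Fact ℓ.Prime] (S : Sylow ℓ G)
    (hab : ∀ a ∈ (S : Subgroup G), ∀ b ∈ (S : Subgroup G), a * b = b * a) :
    cntL ℓ (Subgroup.normalizer ((S : Subgroup G) : Set G)) =
      Nat.card (ConjClasses (Subgroup.normalizer ((S : Subgroup G) : Set G))) := by
  classical
  set N := Subgroup.normalizer ((S : Subgroup G) : Set G) with hNd
  have hall : ∀ χ : IrrCharacter N, ¬ ℓ ∣ charDegree (χ : N → ℂ) := by
    intro χ hd
    have hle : (S : Subgroup G) ≤ N := Subgroup.le_normalizer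
    have h1 := charDegree_dvd_index χ ((S : Subgroup G).subgroupOf N)
      (Subgroup.normal_in_normalizer)
      (fun a ha b hb => Subtype.ext (hab a.1 ha b.1 hb))
    have h3 : ((S : Subgroup G).subgroupOf N).index ∣ (S : Subgroup G).index := by
      have := Subgroup.relIndex_mul_index hle
      rw [Subgroup.relIndex] at this
      exact ⟨_, this.symm⟩
    exact S.not_dvd_index (hd.trans (h1.trans h3))
  rw [← card_irr_eq_card_conjClasses]
  apply Nat.card_congr
  exact ⟨fun χ => χ.1, fun χ => ⟨χ, hall χ⟩, fun χ => rfl, fun χ => rfl⟩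

/-- The count for the normaliser of a Sylow subgroup is independent of the Sylow subgroup. -/
theorem cntL_sylow_conj {G : Type u} [Group G] [Finite G] (ℓ : ℕ) [Fact ℓ.Prime] (S S₀ : Sylow ℓ G) :
    cntL ℓ (Subgroup.normalizer ((S : Subgroup G) : Set G)) =
      cntL ℓ (Subgroup.normalizer ((S₀ : Subgroup G) : Set G)) := by
  obtain ⟨g, hg⟩ := MulAction.exists_smul_eq G S₀ S
  have hPS : (S : Subgroup G) = (S₀ : Subgroup G).map (MulAut.conj g).toMonoidHom := by
    rw [← hg]
    ext z
    rw [Sylow.coe_subgroup_smul, Subgroup.mem_pointwise_smul_iff_inv_smul_mem]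
    constructor
    · intro hz
      refine ⟨_, hz, ?_⟩
      simp [MulAut.smul_def, MulAut.conj_inv_apply, mul_assoc]
    · rintro ⟨a, ha, rfl⟩
      have : (MulAut.conj g)⁻¹ • ((MulAut.conj g).toMonoidHom a) = a := by
        simp [MulAut.smul_def, MulAut.conj_inv_apply, mul_assoc]
      rw [this]
      exact ha
  have hNP : Subgroup.normalizer ((S : Subgroup G) : Set G) =
      (Subgroup.normalizer ((S₀ : Subgroup G) : Set G)).map (MulAut.conj g).toMonoidHom := by
    rw [hPS]
    exact (Subgroup.map_equiv_normalizer_eq _ (MulAut.conj g)).symm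
  have hinj : Function.Injective (MulAut.conj g).toMonoidHom := (MulAut.conj g).injective
  let e : Subgroup.normalizer ((S₀ : Subgroup G) : Set G) ≃* Subgroup.normalizer ((S : Subgroup G) : Set G) :=
    (Subgroup.equivMapOfInjective _ _ hinj).trans (MulEquiv.subgroupCongr hNP.symm)
  exact cntL_congr e ℓ

/-- The sum of squares of degrees in natural numbers. -/
lemma sum_deg_sq_nat {G : Type u} [Group G] [Fintype G] :
    ∑ χ : IrrCharacter G, charDegree (χ : G → ℂ) ^ 2 = Nat.card G := by
  have h := sum_degree_sq (G := G)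
  have h1 : ∀ χ : IrrCharacter G, (χ : G → ℂ) 1 ^ 2 = ((charDegree (χ : G → ℂ) ^ 2 : ℕ) : ℂ) := by
    intro χ
    rw [map_one_eq_charDegree (IsIrrCharacter.isCharacter χ.2)]
    push_cast
    rfl
  rw [Finset.sum_congr rfl (fun χ _ => h1 χ)] at h
  exact_mod_cast h

/-- Counting by the filter. -/
lemma card_subtype_filter {α : Type*} [Fintype α] (p : α → Prop) [DecidablePred p] :
    Nat.card {a // p a} = ∑ a : α, if p a then 1 else 0 := by
  rw [Nat.card_eq_fintype_card, Fintype.card_subtype, Finset.card_filter]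

/-- Groups with all degrees at most two. -/
theorem cntL_two_of_le_two {G : Type u} [Group G] [Fintype G] (hd : ∀ χ : IrrCharacter G, charDegree (χ : G → ℂ) ≤ 2) :
    3 * cntL 2 G + Nat.card G = 4 * Nat.card (ConjClasses G) := by
  classical
  rw [← card_irr_eq_card_conjClasses, Nat.card_eq_fintype_card (α := IrrCharacter G), ← Finset.card_univ,
    Finset.card_eq_sum_ones, ← sum_deg_sq_nat, cntL, card_subtype_filter, Finset.mul_sum, Finset.mul_sum,
    ← Finset.sum_add_distrib]
  refine Finset.sum_congr rfl fun χ _ => ?_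
  have h0 := charDegree_pos_of_irr χ.2
  have h1 := hd χ
  have h3 : charDegree (χ : G → ℂ) = 1 ∨ charDegree (χ : G → ℂ) = 2 := by omega
  rcases h3 with h3 | h3 <;> rw [h3] <;> norm_num

end Cfsg.Agent.Lib.KS2.RK
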