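import Mathlib
import Cfsg.Agent.Lib.KS2.McKayGen
import Cfsg.Agent.Lib.KS2.SLOdd

set_option autoImplicit false
set_option linter.unusedSimpArgs false
set_option linter.unusedVariables false
set_option linter.unusedSectionVars false

namespace Cfsg.Agent.Lib.KS2.RK

open Matrix Cfsg Cfsg.Agent.Lib.Char
open scoped MatrixGroups ComplexConjugate

variable {F : Type*} [Field F] [Fintype F] [Fintype SL(2, F)]

local notation "q" => (Fintype.card F)

open Classical in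
/-- The indicator of `ℓ ∤ n`. -/
noncomputable def BL (ℓ n : ℕ) : ℕ := if ℓ ∣ n then 0 else 1

lemma BL_zero {ℓ n : ℕ} (h : ℓ ∣ n) : BL ℓ n = 0 := by
  rw [BL, if_pos h]

lemma BL_one {ℓ n : ℕ} (h : ¬ ℓ ∣ n) : BL ℓ n = 1 := by
  rw [BL, if_neg h]

/-- The count for `SL₂`, as a formula. -/
theorem OddPack.cnt_formula (P : OddPack F) (h2 : (2 : F) ≠ 0) (ℓ : ℕ) :
    cntL ℓ SL(2, F) = BL ℓ 1 + BL ℓ q + (q - 3) / 2 * BL ℓ (q + 1) + (q - 1) / 2 * BL ℓ (q - 1) +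
      2 * BL ℓ ((q + 1) / 2) + 2 * BL ℓ ((q - 1) / 2) := by
  classical
  have hcnt : cntL ℓ SL(2, F) = ∑ χ : IrrCharacter SL(2, F), BL ℓ (charDegree (χ : SL(2, F) → ℂ)) := by
    rw [cntL, card_subtype_filter]
    refine Finset.sum_congr rfl fun χ _ => ?_
    by_cases h : ℓ ∣ charDegree (χ : SL(2, F) → ℂ)
    · rw [BL_zero h, if_neg (not_not.mpr h)]
    · rw [BL_one h, if_pos h]
  have hnot := P.hnot
  have hcl := P.hclass
  have hS : ∀ χ ∈ ({P.ξ₁, P.ξ₂, P.η₁, P.η₂} : Finset (IrrCharacter SL(2, F))),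
      χ ∈ ({P.ξ₁, P.ξ₂, P.η₁, P.η₂} : Set (IrrCharacter SL(2, F))) := by
    intro χ h
    simpa using h
  have hsum := (slCx F).sum_classify ({P.ξ₁, P.ξ₂, P.η₁, P.η₂} : Finset (IrrCharacter SL(2, F)))
    (fun χ h => (hnot χ (hS χ h)).1) (fun χ h => (hnot χ (hS χ h)).2.1)
    (fun χ h => (hnot χ (hS χ h)).2.2.1) (fun χ h => (hnot χ (hS χ h)).2.2.2)
    (fun χ => by
      rcases hcl χ with h | h | h | h | h | h | h | h
      · exact Or.inl h
      · exact Or.inr (Or.inl h)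
      · exact Or.inr (Or.inr (Or.inl h))
      · exact Or.inr (Or.inr (Or.inr (Or.inl h)))
      all_goals
        refine Or.inr (Or.inr (Or.inr (Or.inr ?_)))
        rw [h]
        simp)
    (fun χ => ((BL ℓ (charDegree (χ : SL(2, F) → ℂ)) : ℕ) : ℂ)) ((BL ℓ 1 : ℕ) : ℂ) ((BL ℓ q : ℕ) : ℂ)
    ((BL ℓ (q + 1) : ℕ) : ℂ) ((BL ℓ (q - 1) : ℕ) : ℂ)
    (fun x => by
      have := charDegree_natCast (χ := ((slCx F).E1 x : SL(2, F) → ℂ)) (n := 1) (by simpa using (slCx F).deg_E1 x)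
      simp only [this])
    (fun x => by
      have := charDegree_natCast (χ := ((slCx F).E2 x : SL(2, F) → ℂ)) (n := q) (slCx F |>.deg_E2 x)
      simp only [this])
    (fun x => by
      have := charDegree_natCast (χ := ((slCx F).E3 x : SL(2, F) → ℂ)) (n := q + 1) (by simpa using (slCx F).deg_E3 x)
      simp only [this])
    (fun x => by
      have := charDegree_natCast (χ := ((slCx F).E4 x : SL(2, F) → ℂ)) (n := q - 1) (by rw [(slCx F).deg_E4 x, Cx.qsub_cast])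
      simp only [this])
  rw [Finset.sum_insert (by simp [P.hξ, P.hξη.1, P.hξη.2.1]), Finset.sum_insert (by simp [P.hξη.2.2.1, P.hξη.2.2.2]),
    Finset.sum_pair P.hη, sl_ncard_E1, sl_ncard_E2, sl_ncard_E3_odd h2, sl_ncard_E4_odd h2] at hsum
  have d1 := charDegree_natCast P.dξ₁
  have d2 := charDegree_natCast P.dξ₂
  have d3 := charDegree_natCast P.dη₁
  have d4 := charDegree_natCast P.dη₂
  rw [d1, d2, d3, d4] at hsum
  rw [hcnt]
  have : ((∑ χ : IrrCharacter SL(2, F), BL ℓ (charDegree (χ : SL(2, F) → ℂ)) : ℕ) : ℂ) =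
      ((BL ℓ 1 + BL ℓ q + (q - 3) / 2 * BL ℓ (q + 1) + (q - 1) / 2 * BL ℓ (q - 1) +
      2 * BL ℓ ((q + 1) / 2) + 2 * BL ℓ ((q - 1) / 2) : ℕ) : ℂ) := by
    push_cast at hsum ⊢
    rw [hsum]
    ring
  exact_mod_cast this

end Cfsg.Agent.Lib.KS2.RK
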