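import Mathlib
import Cfsg.Agent.Lib.KS2.McKayG
import Cfsg.Agent.Lib.KS2.SLSwap
import Cfsg.Agent.Lib.KS2.DicSylow
import Cfsg.Agent.Lib.KS2.QuatSylow
import Cfsg.Agent.Lib.Char.Burnside

set_option autoImplicit false
set_option linter.unusedSimpArgs false
set_option linter.unusedVariables false
set_option linter.unusedSectionVars false

namespace Cfsg.Agent.Lib.KS2.RK

open Matrix Cfsg Cfsg.Agent.Lib.Char
open scoped MatrixGroups ComplexConjugate
open Cfsg.Agent.Lib.KS2

universe u

section generic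

/-- The count for a group of order `24` with at most three linear characters. -/
theorem cnt_24 {N : Type u} [Group N] [Fintype N] (hcard : Nat.card N = 24)
    (ha : Nat.card {χ : IrrCharacter N // charDegree (χ : N → ℂ) = 1} ≤ 3) : cntL 2 N = 4 := by
  classical
  have hsq := sum_deg_sq_nat (G := N)
  rw [hcard] at hsq
  have hle : ∀ χ : IrrCharacter N, charDegree (χ : N → ℂ) ≤ 4 := by
    intro χ
    have h1 : charDegree (χ : N → ℂ) ^ 2 ≤ 24 := by
      rw [← hsq]
      exact Finset.single_le_sum (f := fun χ : IrrCharacter N => charDegree (χ : N → ℂ) ^ 2)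
        (fun _ _ => Nat.zero_le _) (Finset.mem_univ χ)
    nlinarith
  set A : IrrCharacter N → ℕ := fun χ => if charDegree (χ : N → ℂ) = 1 then 1 else 0 with hA
  set B : IrrCharacter N → ℕ := fun χ => if charDegree (χ : N → ℂ) = 2 then 1 else 0 with hB
  set C : IrrCharacter N → ℕ := fun χ => if charDegree (χ : N → ℂ) = 3 then 1 else 0 with hC
  set D : IrrCharacter N → ℕ := fun χ => if charDegree (χ : N → ℂ) = 4 then 1 else 0 with hD
  have hpt : ∀ χ : IrrCharacter N, charDegree (χ : N → ℂ) ^ 2 = A χ + 4 * B χ + 9 * C χ + 16 * D χ := by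
    intro χ
    have h0 := charDegree_pos_of_irr χ.2
    have h1 := hle χ
    simp only [hA, hB, hC, hD]
    have : charDegree (χ : N → ℂ) = 1 ∨ charDegree (χ : N → ℂ) = 2 ∨ charDegree (χ : N → ℂ) = 3 ∨ charDegree (χ : N → ℂ) = 4 := by
      omega
    rcases this with h | h | h | h <;> rw [h] <;> norm_num
  have hodd : ∀ χ : IrrCharacter N, (if ¬ 2 ∣ charDegree (χ : N → ℂ) then 1 else 0) = A χ + C χ := by
    intro χ
    have h0 := charDegree_pos_of_irr χ.2
    have h1 := hle χ
    simp only [hA, hC]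
    have : charDegree (χ : N → ℂ) = 1 ∨ charDegree (χ : N → ℂ) = 2 ∨ charDegree (χ : N → ℂ) = 3 ∨ charDegree (χ : N → ℂ) = 4 := by
      omega
    rcases this with h | h | h | h <;> rw [h] <;> norm_num
  rw [Finset.sum_congr rfl (fun χ _ => hpt χ), Finset.sum_add_distrib, Finset.sum_add_distrib,
    Finset.sum_add_distrib, ← Finset.mul_sum, ← Finset.mul_sum, ← Finset.mul_sum] at hsq
  have hcnt : cntL 2 N = ∑ χ, A χ + ∑ χ, C χ := by
    rw [cntL, card_subtype_filter, Finset.sum_congr rfl (fun χ _ => hodd χ), Finset.sum_add_distrib]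
  have hAs : ∑ χ, A χ = Nat.card {χ : IrrCharacter N // charDegree (χ : N → ℂ) = 1} := by
    rw [card_subtype_filter]
  have hA1 : 1 ≤ ∑ χ, A χ := by
    have h1 : A ⟨fun _ => 1, isIrrCharacter_one⟩ = 1 := by
      simp only [hA]
      rw [if_pos]
      exact charDegree_natCast (by simp)
    rw [← h1]
    exact Finset.single_le_sum (f := A) (fun _ _ => Nat.zero_le _) (Finset.mem_univ _)
  rw [hcnt]
  rw [← hAs] at ha
  omega

/-- At most three linear characters. -/
theorem linear_le_three {N : Type u} [Group N] [Finite N] (hcard : Nat.card N = 24) (K : Subgroup N)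
    (hK : Nat.card K = 8) (y : N) (hy : orderOf y = 3) (htriv : ∀ ν : N →* ℂˣ, ∀ k ∈ K, ν k = 1) :
    Nat.card {χ : IrrCharacter N // charDegree (χ : N → ℂ) = 1} ≤ 3 := by
  classical
  have hex : ∀ χ : {χ : IrrCharacter N // charDegree (χ : N → ℂ) = 1}, ∃ ν : N →* ℂˣ,
      (χ.1 : N → ℂ) = fun g => (ν g : ℂ) := by
    intro χ
    apply exists_hom_of_character_one (IsIrrCharacter.isCharacter χ.1.2)
    rw [map_one_eq_charDegree (IsIrrCharacter.isCharacter χ.1.2), χ.2]
    simp
  choose ν hν using hex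
  have hroot : ∀ χ, (ν χ y) ^ 3 = 1 := by
    intro χ
    rw [← map_pow, ← hy, pow_orderOf_eq_one, map_one]
  let f : {χ : IrrCharacter N // charDegree (χ : N → ℂ) = 1} → rootsOfUnity 3 ℂ :=
    fun χ => ⟨ν χ y, by rw [mem_rootsOfUnity]; exact hroot χ⟩
  have hinj : Function.Injective f := by
    intro a b hab
    have h1 : ν a y = ν b y := congrArg Subtype.val hab
    have hE : (ν a).eqLocusM (ν b) = ⊤ := ?_
    · have hv : ν a = ν b := by
        ext g
        have : g ∈ (ν a).eqLocusM (ν b) := by rw [hE]; trivial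
        have h3 : ν a g = ν b g := this
        rw [h3]
      apply Subtype.ext
      apply Subtype.ext
      rw [hν a, hν b, hv]
    · -- the equalizer has order divisible by 24
      let E : Subgroup N :=
        { carrier := {g | ν a g = ν b g}
          one_mem' := by simp
          mul_mem' := fun {x y} hx hy => by
            simp only [Set.mem_setOf_eq, map_mul] at *
            rw [hx, hy]
          inv_mem' := fun {x} hx => by
            simp only [Set.mem_setOf_eq, map_inv] at *
            rw [hx] }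
      have hKE : K ≤ E := fun k hk => by
        show ν a k = ν b k
        rw [htriv _ k hk, htriv _ k hk]
      have hyE : y ∈ E := h1
      have h8 : 8 ∣ Nat.card E := by
        have := Subgroup.card_dvd_of_le hKE
        rwa [hK] at this
      have h3 : 3 ∣ Nat.card E := by
        have := orderOf_dvd_natCard (⟨y, hyE⟩ : E)
        rwa [Subgroup.orderOf_mk, hy] at this
      have h24 : 24 ∣ Nat.card E := (show Nat.Coprime 3 8 by norm_num).mul_dvd_of_dvd_of_dvd h3 h8
      have hle : Nat.card E ≤ Nat.card N := Subgroup.card_le_card_group E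
      have hpos : 0 < Nat.card E := Nat.card_pos
      have he := Nat.le_of_dvd hpos h24
      have hEtop : E = ⊤ := Subgroup.eq_top_of_card_eq E (by omega)
      ext g
      constructor
      · intro _
        trivial
      · intro _
        have : g ∈ E := by rw [hEtop]; trivial
        exact this
  have := Nat.card_le_card_of_injective f hinj
  rwa [Complex.card_rootsOfUnity] at this

end generic

section dic

variable {F : Type*} [Field F]

open SL2

/-- Count for the normaliser of a Sylow subgroup inside a torus. -/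
theorem IsDic_cnt {T : Subgroup SL(2, F)} {w : SL(2, F)} (h : IsDic T w) (ℓ : ℕ) [Fact ℓ.Prime]
    (hℓ : ℓ ≠ 2) [Finite F] (hdvd : ℓ ∣ Nat.card T) (hidx : ¬ ℓ ∣ T.index) (S : Sylow ℓ SL(2, F)) :
    cntL ℓ (Subgroup.normalizer ((S : Subgroup SL(2, F)) : Set SL(2, F))) * 2 = Nat.card T + 6 := by
  classical
  obtain ⟨S'⟩ : Nonempty (Sylow ℓ T) := inferInstance
  have hSp : IsPGroup ℓ ((S' : Subgroup T).map T.subtype) := S'.isPGroup'.map _
  have hSi : ¬ ℓ ∣ ((S' : Subgroup T).map T.subtype).index := by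
    rw [Subgroup.index_map_subtype]
    exact Nat.Prime.not_dvd_mul Fact.out S'.not_dvd_index hidx
  let P₀ : Sylow ℓ SL(2, F) := hSp.toSylow hSi
  have hP₀ : (P₀ : Subgroup SL(2, F)) ≤ T := by
    show (S' : Subgroup T).map T.subtype ≤ T
    exact Subgroup.map_subtype_le _
  have hne : (P₀ : Subgroup SL(2, F)) ≠ ⊥ := by
    intro e
    have h1 := P₀.not_dvd_index
    rw [e, Subgroup.index_bot] at h1
    apply h1
    exact hdvd.trans (Subgroup.card_subgroup_dvd_card T)
  obtain ⟨hC, hN, x, hxT, hxs⟩ := h.sylow_main ℓ hℓ P₀ hP₀ hne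
  rw [cntL_sylow_conj ℓ S P₀, cntL_normalizer_of_abelian ℓ P₀ (fun a ha b hb => h.comm a (hP₀ ha) b (hP₀ hb)), hN]
  exact h.card_conjClasses x hxT hxs

section QDataSec

variable {T : Subgroup SL(2, F)} {w : SL(2, F)} {Q : Subgroup SL(2, F)}

/-- Count when the normaliser is the quaternion group itself. -/
theorem _root_.Cfsg.Agent.Lib.KS2.SL2.QData.cnt_eight (h : QData T w Q) [Finite F] (hcyc : IsCyclic Q) (h8 : 8 ∣ Nat.card Q) :
    cntL 2 (Subgroup.normalizer (h.S : Set SL(2, F))) = 4 := by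
  classical
  rw [h.normalizer_S_of_eight hcyc h8]
  letI : Fintype h.S := Fintype.ofFinite _
  have hcard := h.card_S
  have hcomm : ∀ a ∈ Q, ∀ b ∈ Q, a * b = b * a := fun a ha b hb => h.dic.comm a (h.le ha) b (h.le hb)
  have hidx : (Q.subgroupOf h.S).index = 2 := by
    have h1 := Subgroup.card_mul_index (Q.subgroupOf h.S)
    have h3 : Nat.card (Q.subgroupOf h.S) = Nat.card Q := by
      rw [Nat.card_congr (Subgroup.subgroupOfEquivOfLe h.le_S).toEquiv]
    rw [h3, hcard, mul_comm 2] at h1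
    exact Nat.eq_of_mul_eq_mul_left Nat.card_pos h1
  have hd : ∀ χ : IrrCharacter h.S, charDegree (χ : h.S → ℂ) ≤ 2 := by
    intro χ
    have := charDegree_le_index χ (Q.subgroupOf h.S) (fun a ha b hb => Subtype.ext (hcomm a.1 ha b.1 hb))
    rwa [hidx] at this
  have hinv : ∀ g ∈ h.S, g ∉ Q → ∀ t ∈ Q, g * t * g⁻¹ = t⁻¹ := by
    intro g hg hgQ t ht
    rcases hg with hg | hg
    · exact absurd hg hgQ
    · set a := w⁻¹ * g with ha
      have hga : g = w * a := by rw [ha]; group
      rw [hga]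
      have h1 : w * a * t * (w * a)⁻¹ = w * (a * t * a⁻¹) * w⁻¹ := by group
      rw [h1, hcomm a hg t ht, mul_inv_cancel_right, h.dic.wt t (h.le ht)]
  have hk := Cfsg.Agent.Lib.KS2.card_conjClasses_mul_two' h.S Q h.le_S hcomm hcard hinv
  have hinvol : Nat.card {t : SL(2, F) // t ∈ Q ∧ t * t = 1} = 2 := by
    refine Eq.trans ?_ h.dic.card_involutions
    apply Nat.card_congr
    apply Equiv.subtypeEquivRight
    intro t
    constructor
    · rintro ⟨h1, h3⟩
      exact ⟨h.le h1, h3⟩
    · rintro ⟨h1, h3⟩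
      exact ⟨h.max t h1 1 (by rw [pow_one, sq]; exact h3), h3⟩
  rw [hinvol] at hk
  have := cntL_two_of_le_two hd
  omega

/-- The element of order three. -/
theorem _root_.Cfsg.Agent.Lib.KS2.SL2.QData.exists_y (h : QData T w Q) [Finite F] (hcyc : IsCyclic Q) (h4 : Nat.card Q = 4) :
    ∃ c y : SL(2, F), c ∈ Q ∧ (∀ a ∈ Q, ∃ n : ℤ, a = c ^ n) ∧ y ∈ Subgroup.normalizer (h.S : Set SL(2, F)) ∧
      orderOf y = 3 ∧ y * c * y⁻¹ = c * w ∧ y * w * y⁻¹ = c := by
  classical
  have : Fintype F := Fintype.ofFinite F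
  have h2F := h.dic.two_ne
  have hS8 : Nat.card h.S = 8 := by rw [h.card_S, h4]
  obtain ⟨⟨c, hc⟩, hord⟩ := IsCyclic.exists_ofOrder_eq_natCard (α := Q)
  have hord' : orderOf c = 4 := by
    rw [← h4, ← hord, Subgroup.orderOf_mk]
  have hcs : ¬ IsScalar c := by
    intro hs
    have := orderOf_dvd_of_pow_eq_one (scalar_sq_eq_one c hs)
    rw [hord'] at this
    omega
  have hcc : c * c = mone := by
    have h1 : (c * c) * (c * c) = 1 := by
      have := pow_orderOf_eq_one c
      rw [hord', show 4 = 2 + 2 from rfl, pow_add, sq] at this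
      exact this
    rcases isScalar_cases _ (isScalar_of_mul_self h2F _ h1) with e | e
    · exfalso
      have := orderOf_dvd_of_pow_eq_one (by rw [sq]; exact e : c ^ 2 = 1)
      rw [hord'] at this
      omega
    · exact e
  have hcw : w * c = mone * (c * w) := by
    have h1 := h.dic.wt c (h.le hc)
    have h3 : c⁻¹ = mone * c := by
      apply inv_eq_of_mul_eq_one_left
      rw [mul_assoc, hcc]
      exact mone_mul_self
    rw [h3] at h1
    calc w * c = w * c * w⁻¹ * w := by group
      _ = mone * c * w := by rw [h1]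
      _ = mone * (c * w) := by group
  set y := quatY h2F c w hcc h.dic.ww hcw with hy
  have hy1 := quatY_conj1 h2F c w hcc h.dic.ww hcw
  have hy2 := quatY_conj2 h2F c w hcc h.dic.ww hcw
  have hy3 := quatY_conj3 h2F c w hcc h.dic.ww hcw
  have hy0 := quatY_ne_one h2F c w hcc h.dic.ww hcw
  have hytr := quatY_tr h2F c w hcc h.dic.ww hcw
  have hy3' : y ^ 3 = 1 := cube_of_tr _ hytr
  rw [← hy] at hy1 hy2 hy3 hy0 hytr
  have hyo : orderOf y = 3 := orderOf_eq_prime hy3' hy0
  have hQgen : ∀ a ∈ Q, ∃ n : ℤ, a = c ^ n := by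
    intro a ha
    have htop : Subgroup.zpowers (⟨c, hc⟩ : Q) = ⊤ := by
      apply Subgroup.eq_top_of_card_eq
      rw [Nat.card_zpowers, hord]
    have : (⟨a, ha⟩ : Q) ∈ Subgroup.zpowers (⟨c, hc⟩ : Q) := by rw [htop]; trivial
    obtain ⟨n, hn⟩ := this
    refine ⟨n, ?_⟩
    have := congrArg Subtype.val hn
    simpa using this.symm
  have hkS : c * w ∈ h.S := h.S.mul_mem (h.le_S hc) h.w_mem
  have hc1 : y * c * y⁻¹ = c * w := by rw [hy1]; group
  have hc3 : y * w * y⁻¹ = c := by rw [hy3]; group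
  have hconj : ∀ g ∈ h.S, y * g * y⁻¹ ∈ h.S := by
    have hQ : ∀ a ∈ Q, y * a * y⁻¹ ∈ h.S := by
      intro a ha
      obtain ⟨n, rfl⟩ := hQgen a ha
      rw [← conj_zpow, hc1]
      exact h.S.zpow_mem hkS n
    rintro g (hg | hg)
    · exact hQ g hg
    · set a := w⁻¹ * g with ha
      have hga : g = w * a := by rw [ha]; group
      have : y * g * y⁻¹ = (y * w * y⁻¹) * (y * a * y⁻¹) := by rw [hga]; group
      rw [this, hc3]
      exact h.S.mul_mem (h.le_S hc) (hQ a hg)
  have hyN : y ∈ Subgroup.normalizer (h.S : Set SL(2, F)) := by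
    rw [Subgroup.mem_normalizer_iff]
    intro g
    refine ⟨hconj g, ?_⟩
    intro hg
    have h1 := hconj _ (hconj _ hg)
    have e : y * (y * (y * g * y⁻¹) * y⁻¹) * y⁻¹ = y ^ 3 * g * (y ^ 3)⁻¹ := by
      simp only [pow_succ, pow_zero, one_mul]
      group
    rw [e, hy3', one_mul, inv_one, mul_one] at h1
    exact h1
  exact ⟨c, y, hc, hQgen, hyN, hyo, hc1, hc3⟩

/-- Count when the normaliser is a group of order 24. -/
theorem _root_.Cfsg.Agent.Lib.KS2.SL2.QData.cnt_four (h : QData T w Q) [Finite F] (hcyc : IsCyclic Q) (h4 : Nat.card Q = 4) :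
    cntL 2 (Subgroup.normalizer (h.S : Set SL(2, F))) = 4 := by
  classical
  obtain ⟨c, y, hc, hQgen, hyN, hyo, hc1, hc3⟩ := h.exists_y hcyc h4
  set N := Subgroup.normalizer (h.S : Set SL(2, F)) with hN
  letI : Fintype N := Fintype.ofFinite _
  have hS8 : Nat.card h.S = 8 := by rw [h.card_S, h4]
  have hcard : Nat.card N = 24 := by
    rw [hN, h.normalizer_S_of_four hcyc h4, hS8]
  have hle : h.S ≤ N := Subgroup.le_normalizer
  apply cnt_24 hcard
  apply linear_le_three hcard (h.S.subgroupOf N) ?_ (⟨y, hyN⟩ : N) (by rw [Subgroup.orderOf_mk]; exact hyo)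
  · intro ν k hk
    have hcS : c ∈ h.S := h.le_S hc
    have hwS : w ∈ h.S := h.w_mem
    let c' : N := ⟨c, hle hcS⟩
    let w' : N := ⟨w, hle hwS⟩
    let y' : N := ⟨y, hyN⟩
    have e1 : y' * c' * y'⁻¹ = c' * w' := Subtype.ext hc1
    have e3 : y' * w' * y'⁻¹ = c' := Subtype.ext hc3
    have hconjν : ∀ a : N, ν (y' * a * y'⁻¹) = ν a := by
      intro a
      rw [map_mul, map_mul, map_inv, mul_comm (ν y'), mul_inv_cancel_right]
    have h1 := hconjν c'
    rw [e1, map_mul] at h1
    have hw1 : ν w' = 1 := by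
      have := mul_left_cancel (a := ν c') (b := ν w') (c := 1) (by rw [h1, mul_one])
      exact this
    have h3 := hconjν w'
    rw [e3, hw1] at h3
    have hQ1 : ∀ a (ha : a ∈ Q), ν ⟨a, hle (h.le_S ha)⟩ = 1 := by
      intro a ha
      obtain ⟨n, rfl⟩ := hQgen a ha
      have e : (⟨c ^ n, hle (h.le_S ha)⟩ : N) = c' ^ n := Subtype.ext (by simp [c'])
      rw [e, map_zpow, h3, _root_.one_zpow]
    have hk' := Subgroup.mem_subgroupOf.mp hk
    rcases hk' with hk' | hk'
    · exact hQ1 _ hk'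
    · have e : k = w' * ⟨w⁻¹ * k, hle (h.le_S hk')⟩ := by
        apply Subtype.ext
        simp [w']
      rw [e, map_mul, hw1, hQ1 _ hk', one_mul]
  · exact (Nat.card_congr (Subgroup.subgroupOfEquivOfLe hle).toEquiv).trans hS8

end QDataSec

/-- The count for `ℓ = 2`, given a cyclic dicyclic configuration. -/
theorem cnt_two_main {T : Subgroup SL(2, F)} {w : SL(2, F)} [Finite F] (hD : IsDic T w) (hcyc : IsCyclic T)
    (h4 : 4 ∣ Nat.card T) (hidx : ¬ 4 ∣ T.index) (P : Sylow 2 SL(2, F)) :
    cntL 2 (Subgroup.normalizer ((P : Subgroup SL(2, F)) : Set SL(2, F))) = 4 := by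
  classical
  have hf2 : Fact (Nat.Prime 2) := ⟨Nat.prime_two⟩
  obtain ⟨Q₀⟩ : Nonempty (Sylow 2 T) := inferInstance
  set Q := (Q₀ : Subgroup T).map T.subtype with hQ
  have hQcard : Nat.card Q = Nat.card Q₀ :=
    (Nat.card_congr (Subgroup.equivMapOfInjective (Q₀ : Subgroup T) T.subtype T.subtype_injective).toEquiv).symm
  have hQmul : Nat.card Q₀ * (Q₀ : Subgroup T).index = Nat.card T := Subgroup.card_mul_index _
  have hQodd : ¬ 2 ∣ (Q₀ : Subgroup T).index := Q₀.not_dvd_index
  have hQ4 : 4 ∣ Nat.card Q := by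
    rw [hQcard]
    have hco : Nat.Coprime 4 (Q₀ : Subgroup T).index :=
      (Nat.Coprime.pow_left 2 ((Nat.Prime.coprime_iff_not_dvd Nat.prime_two).mpr hQodd))
    rw [← hQmul] at h4
    exact hco.dvd_of_dvd_mul_right h4
  have hData : QData T w Q := by
    refine ⟨hD, Subgroup.map_subtype_le _, Q₀.isPGroup'.map _, ?_⟩
    intro t ht k htk
    have hnorm : Subgroup.zpowers (⟨t, ht⟩ : T) ≤ Subgroup.normalizer ((Q₀ : Subgroup T) : Set T) := by
      intro y _
      rw [Subgroup.mem_normalizer_iff]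
      intro z
      have : y * z * y⁻¹ = z := by
        apply Subtype.ext
        have := hD.comm y.1 y.2 z.1 z.2
        simp only [Subgroup.coe_mul, Subgroup.coe_inv]
        rw [this, mul_inv_cancel_right]
      rw [this]
    have hp : IsPGroup 2 (Subgroup.zpowers (⟨t, ht⟩ : T)) := by
      rintro ⟨_, n, rfl⟩
      refine ⟨k, ?_⟩
      apply Subtype.ext
      show ((⟨t, ht⟩ : T) ^ n) ^ (2 ^ k) = 1
      have h1 : (⟨t, ht⟩ : T) ^ (2 ^ k) = 1 := Subtype.ext htk
      rw [← zpow_natCast, ← _root_.zpow_mul, mul_comm, _root_.zpow_mul, zpow_natCast, h1, _root_.one_zpow]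
    have hsup := IsPGroup.to_sup_of_normal_left' Q₀.isPGroup' hp hnorm
    have hmax := Q₀.is_maximal' hsup le_sup_left
    have hmem : (⟨t, ht⟩ : T) ∈ (Q₀ : Subgroup T) := by
      rw [← hmax]
      exact Subgroup.mem_sup_right (Subgroup.mem_zpowers _)
    exact ⟨_, hmem, rfl⟩
  have hQcyc : IsCyclic Q := by
    have : IsCyclic (Q₀ : Subgroup T) := inferInstance
    exact (Subgroup.equivMapOfInjective (Q₀ : Subgroup T) T.subtype T.subtype_injective).isCyclic.mp this
  have hSi : ¬ 2 ∣ hData.S.index := by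
    intro hdvd
    apply hidx
    have h1 := Subgroup.card_mul_index hData.S
    have h3 := Subgroup.card_mul_index T
    rw [hData.card_S, hQcard] at h1
    rw [← hQmul, ← h1] at h3
    have hpos : 0 < Nat.card Q₀ := Nat.card_pos
    have h5 : (Q₀ : Subgroup T).index * T.index = 2 * hData.S.index := by
      apply Nat.eq_of_mul_eq_mul_left hpos
      calc Nat.card Q₀ * ((Q₀ : Subgroup T).index * T.index) = Nat.card Q₀ * (Q₀ : Subgroup T).index * T.index := by ring
        _ = 2 * Nat.card Q₀ * hData.S.index := h3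
        _ = _ := by ring
    have h6 : 4 ∣ (Q₀ : Subgroup T).index * T.index := by
      rw [h5]
      obtain ⟨m, hm⟩ := hdvd
      exact ⟨m, by rw [hm]; ring⟩
    have hco : Nat.Coprime 4 (Q₀ : Subgroup T).index :=
      (Nat.Coprime.pow_left 2 ((Nat.Prime.coprime_iff_not_dvd Nat.prime_two).mpr hQodd))
    exact hco.dvd_of_dvd_mul_left h6
  let S₀ : Sylow 2 SL(2, F) := hData.isPGroup_S.toSylow hSi
  rw [cntL_sylow_conj 2 P S₀]
  show cntL 2 (Subgroup.normalizer (hData.S : Set SL(2, F))) = 4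
  by_cases h8 : 8 ∣ Nat.card Q
  · exact hData.cnt_eight hQcyc h8
  · apply hData.cnt_four hQcyc
    obtain ⟨n, hn⟩ := (IsPGroup.iff_card (p := 2) (G := Q)).mp hData.two
    rw [hn] at hQ4 h8 ⊢
    have hn2 : 2 ≤ n := by
      by_contra hlt
      have : n = 0 ∨ n = 1 := by omega
      rcases this with rfl | rfl <;> omega
    have hn3 : n < 3 := by
      by_contra hge
      apply h8
      have : (2 : ℕ) ^ 3 ∣ 2 ^ n := pow_dvd_pow 2 (by omega)
      simpa using this
    have : n = 2 := by omega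
    rw [this]
    norm_num

end dic

end Cfsg.Agent.Lib.KS2.RK
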