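import Mathlib
import Cfsg.Agent.Lib.KS2.McKayN

set_option autoImplicit false
set_option linter.unusedSimpArgs false
set_option linter.unusedVariables false
set_option linter.unusedSectionVars false

namespace Cfsg.Agent.Lib.KS2.RK

open Matrix Cfsg Cfsg.Agent.Lib.Char
open scoped MatrixGroups ComplexConjugate
open Cfsg.Agent.Lib.KS2

universe u

variable {F : Type*} [Field F] [Fintype F]

local notation "q" => (Fintype.card F)

lemma uHom_injective : Function.Injective (uHom : Multiplicative F →* SL(2, F)) := by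
  intro a b h
  have h1 := congrArg (fun g : SL(2, F) => (g : Matrix (Fin 2) (Fin 2) F) 0 1) h
  have e : ∀ c : Multiplicative F, ((uHom c : SL(2, F)) : Matrix (Fin 2) (Fin 2) F) 0 1 = Multiplicative.toAdd c :=
    fun c => (slCx F).u01 _
  simp only [e] at h1
  exact Multiplicative.toAdd.injective h1

lemma card_uHom_range : Nat.card (uHom : Multiplicative F →* SL(2, F)).range = q := by
  rw [← Nat.card_congr (MonoidHom.ofInjective (uHom_injective (F := F))).toEquiv, Nat.card_eq_fintype_card]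
  exact Fintype.card_congr Multiplicative.ofAdd.symm

lemma uHom_comm : ∀ a ∈ (uHom : Multiplicative F →* SL(2, F)).range,
    ∀ b ∈ (uHom : Multiplicative F →* SL(2, F)).range, a * b = b * a := by
  rintro _ ⟨x, rfl⟩ _ ⟨y, rfl⟩
  rw [← map_mul, ← map_mul, mul_comm]

lemma bor_u_conj {g : SL(2, F)} (hg : (g : Matrix (Fin 2) (Fin 2) F) 1 0 = 0) (c : F) :
    g * (slCx F).u c * g⁻¹ = (slCx F).u ((g : Matrix (Fin 2) (Fin 2) F) 0 0 ^ 2 * c) := by
  have hd := SL2.det_rel g
  rw [hg] at hd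
  apply mul_right_cancel (b := g)
  rw [inv_mul_cancel_right]
  have e00 := (slCx F).u00 c
  have e01 := (slCx F).u01 c
  have e10 := (slCx F).u10 c
  have e11 := (slCx F).u11 c
  have k00 := (slCx F).u00 ((g : Matrix (Fin 2) (Fin 2) F) 0 0 ^ 2 * c)
  have k01 := (slCx F).u01 ((g : Matrix (Fin 2) (Fin 2) F) 0 0 ^ 2 * c)
  have k10 := (slCx F).u10 ((g : Matrix (Fin 2) (Fin 2) F) 0 0 ^ 2 * c)
  have k11 := (slCx F).u11 ((g : Matrix (Fin 2) (Fin 2) F) 0 0 ^ 2 * c)
  simp only [slCx_e] at e00 e01 e10 e11 k00 k01 k10 k11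
  apply SL2.ext4
  · rw [SL2.mul00, SL2.mul00, e00, e10, k00, k01, hg]
    ring
  · rw [SL2.mul01, SL2.mul01, e01, e11, k00, k01]
    linear_combination (-(g : Matrix (Fin 2) (Fin 2) F) 0 0 * c) * hd
  · rw [SL2.mul10, SL2.mul10, e00, e10, k10, k11, hg]
    ring
  · rw [SL2.mul11, SL2.mul11, e01, e11, k10, k11, hg]
    ring

lemma normalizer_uHom : Subgroup.normalizer (((uHom : Multiplicative F →* SL(2, F)).range : Subgroup SL(2, F)) : Set SL(2, F)) = SL2.bor F := by
  have hU : ∀ g : SL(2, F), (g : Matrix (Fin 2) (Fin 2) F) 1 0 = 0 → ∀ h ∈ (uHom : Multiplicative F →* SL(2, F)).range,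
      g * h * g⁻¹ ∈ (uHom : Multiplicative F →* SL(2, F)).range := by
    rintro g hg _ ⟨x, rfl⟩
    refine ⟨Multiplicative.ofAdd ((g : Matrix (Fin 2) (Fin 2) F) 0 0 ^ 2 * Multiplicative.toAdd x), ?_⟩
    exact (bor_u_conj hg _).symm
  ext g
  rw [SL2.mem_bor, Subgroup.mem_normalizer_iff]
  constructor
  · intro h
    have h1 : uHom (Multiplicative.ofAdd (1 : F)) ∈ (uHom : Multiplicative F →* SL(2, F)).range := ⟨_, rfl⟩
    obtain ⟨x, hx⟩ := (h _).mp h1
    have hx' : (slCx F).u (Multiplicative.toAdd x) * g = g * (slCx F).u 1 := by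
      have e1 : uHom x = (slCx F).u (Multiplicative.toAdd x) := rfl
      have e2 : uHom (Multiplicative.ofAdd (1 : F)) = (slCx F).u 1 := rfl
      rw [← e1, hx, e2]
      group
    have h11 := congrArg (fun z : SL(2, F) => (z : Matrix (Fin 2) (Fin 2) F) 1 1) hx'
    simp only [SL2.mul11] at h11
    have e00 := (slCx F).u10 (Multiplicative.toAdd x)
    have e01 := (slCx F).u11 (Multiplicative.toAdd x)
    have e10 := (slCx F).u01 (1 : F)
    have e11 := (slCx F).u11 (1 : F)
    simp only [slCx_e] at e00 e01 e10 e11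
    rw [e00, e01, e10, e11] at h11
    linear_combination -h11
  · intro hg h
    refine ⟨hU g hg h, fun h1 => ?_⟩
    have hinv : ((g⁻¹ : SL(2, F)) : Matrix (Fin 2) (Fin 2) F) 1 0 = 0 := by
      rw [SL2.inv10, hg]
      simp
    have := hU g⁻¹ hinv _ h1
    have e : g⁻¹ * (g * h * g⁻¹) * g⁻¹⁻¹ = h := by group
    rwa [e] at this

/-- The count for the defining characteristic. -/
theorem cnt_p (h2 : (2 : F) ≠ 0) (ℓ : ℕ) [Fact ℓ.Prime] (hdvd : ℓ ∣ q) (S : Sylow ℓ SL(2, F)) :
    cntL ℓ (Subgroup.normalizer ((S : Subgroup SL(2, F)) : Set SL(2, F))) = q + 3 := by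
  classical
  have hp : ℓ.Prime := Fact.out
  obtain ⟨p, hch⟩ := CharP.exists F
  obtain ⟨n, hpp, hqn⟩ := FiniteField.card F p
  have hℓp : ℓ = p := by
    rw [hqn] at hdvd
    exact (Nat.prime_dvd_prime_iff_eq hp hpp).mp (hp.dvd_of_dvd_pow hdvd)
  subst hℓp
  have hpg : IsPGroup ℓ (uHom : Multiplicative F →* SL(2, F)).range :=
    IsPGroup.of_card (n := (n : ℕ)) (by rw [card_uHom_range, hqn])
  have hq2 : 2 ≤ q := Fintype.one_lt_card
  have hidx : ¬ ℓ ∣ (uHom : Multiplicative F →* SL(2, F)).range.index := by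
    have h1 := Subgroup.card_mul_index (uHom : Multiplicative F →* SL(2, F)).range
    rw [card_uHom_range, SL2.card_SL2] at h1
    have h3 : (uHom : Multiplicative F →* SL(2, F)).range.index = q ^ 2 - 1 :=
      Nat.eq_of_mul_eq_mul_left (by omega) h1
    rw [h3]
    intro hd
    have h4 : ℓ ∣ q ^ 2 := hdvd.trans (dvd_pow_self _ (by norm_num))
    have h5 : 1 ≤ q ^ 2 := Nat.one_le_pow _ _ (by omega)
    have h6 := Nat.dvd_sub h4 hd
    rw [show q ^ 2 - (q ^ 2 - 1) = 1 by omega] at h6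
    exact hp.one_lt.ne' (Nat.dvd_one.mp h6)
  let P₀ : Sylow ℓ SL(2, F) := hpg.toSylow hidx
  have hP₀ : (P₀ : Subgroup SL(2, F)) = (uHom : Multiplicative F →* SL(2, F)).range := rfl
  rw [cntL_sylow_conj ℓ S P₀, cntL_normalizer_of_abelian ℓ P₀ (by rw [hP₀]; exact uHom_comm), hP₀, normalizer_uHom]
  exact SL2.card_conjClasses_bor h2

/-- The count for a prime not dividing the order of the group. -/
theorem cnt_none (ℓ : ℕ) [Fact ℓ.Prime] (hnd : ¬ ℓ ∣ Nat.card SL(2, F)) (S : Sylow ℓ SL(2, F)) :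
    cntL ℓ (Subgroup.normalizer ((S : Subgroup SL(2, F)) : Set SL(2, F))) = cntL ℓ SL(2, F) := by
  have h1 : (S : Subgroup SL(2, F)) = ⊥ := by
    rcases S.isPGroup'.card_eq_or_dvd with h | h
    · exact Subgroup.eq_bot_of_card_eq _ h
    · exact absurd (h.trans (Subgroup.card_subgroup_dvd_card _)) hnd
  have h3 : Subgroup.normalizer ((S : Subgroup SL(2, F)) : Set SL(2, F)) = ⊤ := by
    rw [h1]
    exact Subgroup.normalizer_eq_top_iff.mpr inferInstance
  exact (cntL_congr ((MulEquiv.subgroupCongr h3).trans Subgroup.topEquiv) ℓ).symm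

end Cfsg.Agent.Lib.KS2.RK
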