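import Mathlib

/-!
# The rank-one Steinberg relations over a finite field.
-/

set_option autoImplicit false

namespace Cfsg.Agent.Lib.KS2.RankOne

variable {G : Type*} [Group G] {K : Type*} [Field K]

/-- The element `w_b(t)`. -/
def W (x : Bool → K → G) (b : Bool) (t : K) : G := x b t * x (!b) (-t⁻¹) * x b t

/-- The rank-one relations. -/
structure Rel (x : Bool → K → G) : Prop where
  add : ∀ b t u, x b t * x b u = x b (t + u)
  conj : ∀ b t u, t ≠ 0 → W x b t * x b u * (W x b t)⁻¹ = x (!b) (-(t⁻¹ ^ 2 * u))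

variable {x : Bool → K → G} (hx : Rel x)
include hx

lemma x_zero (b : Bool) : x b 0 = 1 := by
  have := hx.add b 0 0
  rw [add_zero] at this
  exact mul_eq_left.mp this

lemma x_neg (b : Bool) (t : K) : (x b t)⁻¹ = x b (-t) := by
  apply inv_eq_of_mul_eq_one_right
  rw [hx.add, add_neg_cancel, x_zero hx]

lemma W_inv (b : Bool) (t : K) : (W x b t)⁻¹ = W x b (-t) := by
  unfold W
  simp only [mul_inv_rev, x_neg hx, inv_neg, neg_neg, mul_assoc]

lemma W_swap (b : Bool) {t : K} (ht : t ≠ 0) : W x b t = W x (!b) (-t⁻¹) := by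
  have h1 := hx.conj b t t ht
  have h2 : t⁻¹ ^ 2 * t = t⁻¹ := by field_simp
  rw [h2] at h1
  have h3 : W x b t * x b t = x (!b) (-t⁻¹) * W x b t := by
    rw [← h1]; group
  have h4 : W x b t = x (!b) (-t⁻¹) * x b t * x (!b) (-t⁻¹) := by
    unfold W at h3 ⊢
    have h5 : x b t * x (!b) (-t⁻¹) * x b t * x b t = x (!b) (-t⁻¹) * x b t * x (!b) (-t⁻¹) * x b t := by
      rw [h3]; simp only [mul_assoc]
    exact mul_right_cancel h5
  rw [h4]
  unfold W
  simp [inv_neg, inv_inv, neg_neg, Bool.not_not]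

lemma conj_W (b : Bool) {t : K} (ht : t ≠ 0) (u : K) : W x b t * x (!b) u * (W x b t)⁻¹ = x b (-(t ^ 2 * u)) := by
  have h1 := hx.conj (!b) (-t⁻¹) u (neg_ne_zero.mpr (inv_ne_zero ht))
  rw [← W_swap hx b ht] at h1
  simp only [Bool.not_not, inv_neg, inv_inv] at h1
  rw [h1]
  simp

lemma x_eq_W (b : Bool) {c : K} (hc : c ≠ 0) : x (!b) c = x b c⁻¹ * W x b (-c⁻¹) * x b c⁻¹ := by
  unfold W
  simp only [inv_neg, inv_inv, neg_neg, ← x_neg hx]
  group

/-- The fundamental formula for `y(c) x(a)`. -/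
lemma yx_formula (b : Bool) {a c : K} (hc : c ≠ 0) (hu : 1 + a * c ≠ 0) :
    x (!b) c * x b a = x b (a / (1 + a * c)) * (W x b ((c * (1 + a * c))⁻¹) * W x b (-c⁻¹)) *
      x (!b) (c / (1 + a * c)) := by
  set u := 1 + a * c with hu'
  have hcu : c * u ≠ 0 := mul_ne_zero hc hu
  have h1 : x (!b) c * x b a = x b c⁻¹ * (W x b (-c⁻¹) * x b (a + c⁻¹)) := by
    rw [x_eq_W hx b hc, mul_assoc (x b c⁻¹ * _), hx.add, mul_assoc, add_comm]
  have h2 : W x b (-c⁻¹) * x b (a + c⁻¹) = x (!b) (-(c * u)) * W x b (-c⁻¹) := by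
    have h3 := hx.conj b (-c⁻¹) (a + c⁻¹) (neg_ne_zero.mpr (inv_ne_zero hc))
    have h4 : -((-c⁻¹)⁻¹ ^ 2 * (a + c⁻¹)) = -(c * u) := by
      rw [hu']; field_simp; ring
    rw [h4] at h3
    rw [← h3]; group
  have h5 : x (!b) (-(c * u)) = x b (-(c * u)⁻¹) * W x b ((c * u)⁻¹) * x b (-(c * u)⁻¹) := by
    have h6 := x_eq_W hx b (neg_ne_zero.mpr hcu)
    simp only [inv_neg, neg_neg] at h6
    exact h6
  have h7 : x b (-(c * u)⁻¹) * W x b (-c⁻¹) = W x b (-c⁻¹) * x (!b) (c / u) := by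
    have h8 := hx.conj b (c⁻¹) (-(c * u)⁻¹) (inv_ne_zero hc)
    have h9 : -((c⁻¹)⁻¹ ^ 2 * -(c * u)⁻¹) = c / u := by
      field_simp
    rw [h9] at h8
    rw [← h8, ← W_inv hx b c⁻¹]
    group
  have h10 : x b c⁻¹ * x b (-(c * u)⁻¹) = x b (a / u) := by
    rw [hx.add]
    congr 1
    field_simp
    rw [hu']
    ring
  rw [h1, h2, h5]
  calc x b c⁻¹ * (x b (-(c * u)⁻¹) * W x b (c * u)⁻¹ * x b (-(c * u)⁻¹) * W x b (-c⁻¹))
      = (x b c⁻¹ * x b (-(c * u)⁻¹)) * W x b (c * u)⁻¹ * (x b (-(c * u)⁻¹) * W x b (-c⁻¹)) := by group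
    _ = _ := by rw [h10, h7]; group

/-- Conjugation of `w` by `w`. -/
lemma W_conj_W (b : Bool) {s t : K} (hs : s ≠ 0) (ht : t ≠ 0) :
    W x b s * W x b t * (W x b s)⁻¹ = W x b (s ^ 2 * t⁻¹) := by
  have h1 := hx.conj b s t hs
  have h2 := conj_W hx b hs (-t⁻¹)
  have h3 : W x b s * W x b t * (W x b s)⁻¹ =
      (W x b s * x b t * (W x b s)⁻¹) * (W x b s * x (!b) (-t⁻¹) * (W x b s)⁻¹) * (W x b s * x b t * (W x b s)⁻¹) := by
    rw [show W x b s * W x b t * (W x b s)⁻¹ = W x b s * (x b t * x (!b) (-t⁻¹) * x b t) * (W x b s)⁻¹ from rfl]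
    group
  rw [h3, h1, h2]
  have h4 : W x (!b) (-(s⁻¹ ^ 2 * t)) = W x b (s ^ 2 * t⁻¹) := by
    have h5 : s ^ 2 * t⁻¹ ≠ 0 := mul_ne_zero (pow_ne_zero _ hs) (inv_ne_zero ht)
    rw [W_swap hx b h5]
    congr 1
    field_simp
  rw [← h4]
  unfold W
  simp only [Bool.not_not]
  congr 2
  · congr 2; field_simp
  

/-! ### The elements `h` -/

/-- `h(t) = w(t) w(1)⁻¹`. -/
def h (x : Bool → K → G) (t : K) : G := W x true t * (W x true 1)⁻¹

omit hx in
lemma h_one : h x (1 : K) = 1 := by simp [h]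

omit hx in
lemma W_eq_h (t : K) : W x true t = h x t * W x true 1 := by simp [h]

lemma W_neg_eq (t : K) : W x true (-t) = (W x true 1)⁻¹ * (h x t)⁻¹ := by
  rw [← W_inv hx, W_eq_h]; group

lemma h_conj_x {s : K} (hs : s ≠ 0) (u : K) : h x s * x true u * (h x s)⁻¹ = x true (s ^ 2 * u) := by
  have h1 : h x s * x true u * (h x s)⁻¹ =
      W x true s * ((W x true 1)⁻¹ * x true u * ((W x true 1)⁻¹)⁻¹) * (W x true s)⁻¹ := by
    unfold h; group
  rw [h1, W_inv hx true 1]
  have h2 := hx.conj true (-1 : K) u (by simp)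
  simp only [Bool.not_true, inv_neg, inv_one, even_two, Even.neg_pow, one_pow, one_mul] at h2
  rw [h2]
  have h3 := conj_W hx true hs (-u)
  simp only [Bool.not_true] at h3
  rw [h3]
  simp

lemma h_conj_y {s : K} (hs : s ≠ 0) (u : K) : h x s * x false u * (h x s)⁻¹ = x false (s⁻¹ ^ 2 * u) := by
  have h1 : h x s * x false u * (h x s)⁻¹ =
      W x true s * ((W x true 1)⁻¹ * x false u * ((W x true 1)⁻¹)⁻¹) * (W x true s)⁻¹ := by
    unfold h; group
  rw [h1, W_inv hx true 1]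
  have h2 := conj_W hx true (t := -1) (by simp) u
  simp only [Bool.not_true, even_two, Even.neg_pow, one_pow, one_mul] at h2
  rw [h2]
  have h3 := hx.conj true s (-u) hs
  simp only [Bool.not_true] at h3
  rw [h3]
  simp

lemma h_conj_W {s t : K} (hs : s ≠ 0) (ht : t ≠ 0) : h x s * W x true t * (h x s)⁻¹ = W x true (s ^ 2 * t) := by
  have h3 : h x s * W x true t * (h x s)⁻¹ =
      (h x s * x true t * (h x s)⁻¹) * (h x s * x false (-t⁻¹) * (h x s)⁻¹) * (h x s * x true t * (h x s)⁻¹) := by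
    rw [show h x s * W x true t * (h x s)⁻¹ = h x s * (x true t * x false (-t⁻¹) * x true t) * (h x s)⁻¹ from rfl]
    group
  rw [h3, h_conj_x hx hs, h_conj_y hx hs]
  unfold W
  simp only [Bool.not_true]
  congr 2
  congr 1
  field_simp

lemma W_conj_h {s : K} (hs : s ≠ 0) : W x true 1 * h x s * (W x true 1)⁻¹ = h x s⁻¹ := by
  have h1 := W_conj_W hx true (s := 1) (t := s) one_ne_zero hs
  simp only [one_pow, one_mul] at h1
  unfold h
  rw [← h1]
  group

/-- `h(s) h(t) = h(s² t) h(s⁻¹)`. -/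
lemma h_mul_h {s t : K} (hs : s ≠ 0) (ht : t ≠ 0) : h x s * h x t = h x (s ^ 2 * t) * h x s⁻¹ := by
  rw [← W_conj_h hx hs]
  have h1 := h_conj_W hx hs ht
  have h2 : h x s * W x true t = W x true (s ^ 2 * t) * h x s := by
    rw [← h1]; group
  unfold h at h2 ⊢
  have h3 : W x true s * (W x true 1)⁻¹ * (W x true t * (W x true 1)⁻¹) =
      (W x true s * (W x true 1)⁻¹ * W x true t) * (W x true 1)⁻¹ := by group
  rw [h3, h2]
  group

/-- An element commuting with the root elements. -/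
def Cen (x : Bool → K → G) (g : G) : Prop := ∀ b u, g * x b u = x b u * g

omit hx in
lemma Cen.comm_W {g : G} (hg : Cen x g) (b : Bool) (t : K) : g * W x b t = W x b t * g := by
  unfold W
  have h1 := hg b t
  have h2 := hg (!b) (-t⁻¹)
  calc g * (x b t * x (!b) (-t⁻¹) * x b t) = (g * x b t) * x (!b) (-t⁻¹) * x b t := by group
    _ = x b t * (g * x (!b) (-t⁻¹)) * x b t := by rw [h1]; group
    _ = x b t * x (!b) (-t⁻¹) * (g * x b t) := by rw [h2]; group
    _ = _ := by rw [h1]; group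

omit hx in
lemma Cen.inv {g : G} (hg : Cen x g) : Cen x g⁻¹ := by
  intro b u
  have := hg b u
  calc g⁻¹ * x b u = g⁻¹ * (x b u * g) * g⁻¹ := by group
    _ = g⁻¹ * (g * x b u) * g⁻¹ := by rw [this]
    _ = _ := by group

omit hx in
lemma Cen.mul {g g' : G} (hg : Cen x g) (hg' : Cen x g') : Cen x (g * g') := by
  intro b u
  calc g * g' * x b u = g * (g' * x b u) := by group
    _ = (g * x b u) * g' := by rw [hg' b u]; group
    _ = _ := by rw [hg b u]; group

omit hx in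
lemma Cen.comm_h {g : G} (hg : Cen x g) (t : K) : g * h x t = h x t * g := by
  unfold h
  have h1 := hg.comm_W true t
  have h2 := hg.inv.comm_W true 1
  have h3 : g * (W x true 1)⁻¹ = (W x true 1)⁻¹ * g := by
    have := hg.comm_W true 1
    calc g * (W x true 1)⁻¹ = (W x true 1)⁻¹ * (W x true 1 * g) * (W x true 1)⁻¹ := by group
      _ = (W x true 1)⁻¹ * (g * W x true 1) * (W x true 1)⁻¹ := by rw [this]
      _ = _ := by group
  calc g * (W x true t * (W x true 1)⁻¹) = (g * W x true t) * (W x true 1)⁻¹ := by group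
    _ = W x true t * (g * (W x true 1)⁻¹) := by rw [h1]; group
    _ = _ := by rw [h3]; group

lemma cen_cocycle {s t : K} (hs : s ≠ 0) (ht : t ≠ 0) : Cen x (h x s * h x t * (h x (s * t))⁻¹) := by
  intro b u
  have hst : s * t ≠ 0 := mul_ne_zero hs ht
  cases b with
  | true =>
    have h1 := h_conj_x hx hs (t ^ 2 * u)
    have h2 := h_conj_x hx ht u
    have h3 := h_conj_x hx hst ((s * t)⁻¹ ^ 2 * u)
    have h4 : (s * t) ^ 2 * ((s * t)⁻¹ ^ 2 * u) = u := by field_simp
    rw [h4] at h3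
    have h5 : s ^ 2 * (t ^ 2 * ((s * t)⁻¹ ^ 2 * u)) = u := by field_simp
    have h6 : h x s * h x t * (h x (s * t))⁻¹ * x true u =
        h x s * (h x t * ((h x (s * t))⁻¹ * x true u * h x (s * t)) * (h x t)⁻¹) * (h x s)⁻¹ *
          (h x s * h x t * (h x (s * t))⁻¹) := by group
    rw [h6]
    have h7 : (h x (s * t))⁻¹ * x true u * h x (s * t) = x true ((s * t)⁻¹ ^ 2 * u) := by
      rw [← h3]; group
    rw [h7, h_conj_x hx ht, h_conj_x hx hs, h5]
  | false =>
    have h3 := h_conj_y hx hst ((s * t) ^ 2 * u)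
    have h4 : (s * t)⁻¹ ^ 2 * ((s * t) ^ 2 * u) = u := by field_simp
    rw [h4] at h3
    have h5 : s⁻¹ ^ 2 * (t⁻¹ ^ 2 * ((s * t) ^ 2 * u)) = u := by field_simp
    have h6 : h x s * h x t * (h x (s * t))⁻¹ * x false u =
        h x s * (h x t * ((h x (s * t))⁻¹ * x false u * h x (s * t)) * (h x t)⁻¹) * (h x s)⁻¹ *
          (h x s * h x t * (h x (s * t))⁻¹) := by group
    rw [h6]
    have h7 : (h x (s * t))⁻¹ * x false u * h x (s * t) = x false ((s * t) ^ 2 * u) := by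
      rw [← h3]; group
    rw [h7, h_conj_y hx ht, h_conj_y hx hs, h5]

/-- The key identity. -/
lemma key_identity {a c : K} (ha : a ≠ 0) (hc : c ≠ 0) (hu : 1 + a * c ≠ 0) :
    W x true c⁻¹ * W x true (-(c * (1 + a * c))⁻¹) = W x true (a * (1 + a * c)) * W x true (-a) := by
  set u := 1 + a * c with hu'
  have hcu : c * u ≠ 0 := mul_ne_zero hc hu
  have h1 := yx_formula hx true (a := a) (c := c) hc hu
  have h2 := yx_formula hx false (a := -c) (c := -a) (neg_ne_zero.mpr ha) (by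
    convert hu using 1; rw [hu']; ring)
  simp only [Bool.not_false, Bool.not_true] at h1 h2
  have h3 : (1 : K) + -c * -a = u := by rw [hu']; ring
  rw [h3] at h2
  have h4 : (x false c * x true a)⁻¹ = x true (-a) * x false (-c) := by
    rw [mul_inv_rev, x_neg hx, x_neg hx]
  rw [h1, h2] at h4
  have h4' : (x true (a / u) * (W x true (c * u)⁻¹ * W x true (-c⁻¹)) * x false (c / u))⁻¹ =
      x false (-c / u) * ((W x true (-c⁻¹))⁻¹ * (W x true (c * u)⁻¹)⁻¹) * x true (-a / u) := by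
    have e1 : -c / u = -(c / u) := by ring
    have e2 : -a / u = -(a / u) := by ring
    rw [e1, e2, ← x_neg hx, ← x_neg hx]
    group
  rw [h4'] at h4
  have h5 : (W x true (-c⁻¹))⁻¹ * (W x true (c * u)⁻¹)⁻¹ =
      W x false (-a * u)⁻¹ * W x false (-(-a)⁻¹) :=
    mul_left_cancel (mul_right_cancel h4)
  have e3 : W x false (-a * u)⁻¹ = W x true (a * u) := by
    rw [W_swap hx true (t := a * u) (mul_ne_zero ha hu)]
    simp only [Bool.not_true]
    congr 1
    field_simp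
  have e4 : W x false (-(-a)⁻¹) = W x true (-a) := by
    rw [W_swap hx true (t := -a) (neg_ne_zero.mpr ha)]
    simp only [Bool.not_true]
  rw [e3, e4, W_inv hx, W_inv hx, neg_neg] at h5
  exact h5

end Cfsg.Agent.Lib.KS2.RankOne
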