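import Mathlib
import Cfsg.Agent.Lib.KS2.RankOne

/-!
# The rank-one presentation of `SL₂` over a finite field.
-/

set_option autoImplicit false

namespace Cfsg.Agent.Lib.KS2.RankOne

variable {G : Type*} [Group G] {K : Type*} [Field K] [Finite K]

variable {x : Bool → K → G} (hx : Rel x)
include hx

omit [Finite K] in
lemma Cen_one : Cen x (1 : G) := by intro b u; simp

lemma h_power (g : Kˣ) (i : ℕ) : ∃ C, Cen x C ∧ h x ((g ^ i : Kˣ) : K) = C * (h x (g : K)) ^ i := by
  induction i with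
  | zero => exact ⟨1, Cen_one hx, by simp [h_one]⟩
  | succ i ih =>
    obtain ⟨C, hC, hi⟩ := ih
    have h1 := cen_cocycle hx ((g ^ i : Kˣ)).ne_zero g.ne_zero
    refine ⟨(h x ((g ^ i : Kˣ) : K) * h x (g : K) * (h x (((g ^ i : Kˣ) : K) * g))⁻¹)⁻¹ * C, h1.inv.mul hC, ?_⟩
    have e1 : ((g ^ (i + 1) : Kˣ) : K) = ((g ^ i : Kˣ) : K) * g := by
      rw [pow_succ]; rfl
    rw [e1]
    have e2 : C * (h x (g : K)) ^ i * h x (g : K) = h x ((g ^ i : Kˣ) : K) * h x (g : K) := by rw [hi]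
    rw [pow_succ, ← mul_assoc, mul_assoc _ C, mul_assoc _ (C * _), e2]
    group

lemma h_comm {s t : K} (hs : s ≠ 0) (ht : t ≠ 0) : h x s * h x t = h x t * h x s := by
  obtain ⟨g, hg⟩ := IsCyclic.exists_generator (α := Kˣ)
  have hk : ∀ u : K, u ≠ 0 → ∃ C, Cen x C ∧ ∃ i : ℕ, h x u = C * (h x (g : K)) ^ i := by
    intro u hu
    have h1 := hg (Units.mk0 u hu)
    rw [mem_powers_iff_mem_zpowers.symm] at h1
    obtain ⟨i, hi⟩ := h1
    obtain ⟨C, hC, h2⟩ := h_power hx g i
    refine ⟨C, hC, i, ?_⟩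
    rw [← h2]
    simp only at hi
    rw [hi]
    rfl
  obtain ⟨C, hC, i, hi⟩ := hk s hs
  obtain ⟨C', hC', j, hj⟩ := hk t ht
  have c1 : Commute (h x (g : K)) (h x t) := by
    rw [hj]
    apply Commute.mul_right
    · exact (hC'.comm_h (g : K)).symm
    · exact Commute.pow_right (Commute.refl _) _
  have c2 : Commute ((h x (g : K)) ^ i) (h x t) := c1.pow_left i
  have c3 : Commute C (h x t) := hC.comm_h t
  have : Commute (h x s) (h x t) := by
    rw [hi]
    exact c3.mul_left c2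
  exact this

/-- Multiplicativity when one factor is a square. -/
lemma h_sq_mul {s t : K} (hs : s ≠ 0) (ht : t ≠ 0) : h x (s ^ 2 * t) = h x t * h x (s ^ 2) := by
  have h1 := h_mul_h hx hs ht
  have h2 := h_mul_h hx hs (one_ne_zero)
  rw [h_one, mul_one, mul_one] at h2
  have h3 : h x (s ^ 2 * t) = h x s * h x t * (h x s⁻¹)⁻¹ := by rw [h1]; group
  have h4 : h x (s ^ 2) = h x s * (h x s⁻¹)⁻¹ := by
    conv_rhs => rw [h2]
    group
  rw [h3, h4, h_comm hx hs ht]
  group

lemma h_isSquare_mul {r t : K} (hr : IsSquare r) (hr0 : r ≠ 0) (ht : t ≠ 0) : h x (r * t) = h x r * h x t := by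
  obtain ⟨s, rfl⟩ := hr
  have hs : s ≠ 0 := fun h => hr0 (by simp [h])
  have e : s * s = s ^ 2 := by ring
  rw [e, h_sq_mul hx hs ht, h_comm hx ht (pow_ne_zero 2 hs)]

omit [Finite K] in
/-- The identity in terms of `h`. -/
lemma E_identity {a c : K} (ha : a ≠ 0) (hc : c ≠ 0) (hu : 1 + a * c ≠ 0) :
    h x c⁻¹ * (h x (c * (1 + a * c))⁻¹)⁻¹ = h x (a * (1 + a * c)) * (h x a)⁻¹ := by
  have h1 := key_identity hx ha hc hu
  rw [W_eq_h (x := x) c⁻¹, W_neg_eq hx, W_eq_h (x := x) (a * (1 + a * c)), W_neg_eq hx] at h1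
  have h2 : h x c⁻¹ * W x true 1 * ((W x true 1)⁻¹ * (h x (c * (1 + a * c))⁻¹)⁻¹) =
      h x c⁻¹ * (h x (c * (1 + a * c))⁻¹)⁻¹ := by group
  have h3 : h x (a * (1 + a * c)) * W x true 1 * ((W x true 1)⁻¹ * (h x a)⁻¹) =
      h x (a * (1 + a * c)) * (h x a)⁻¹ := by group
  rw [h2, h3] at h1
  exact h1

/-- `h` is multiplicative. -/
theorem h_mul {s t : K} (hs : s ≠ 0) (ht : t ≠ 0) : h x s * h x t = h x (s * t) := by
  classical
  haveI := Fintype.ofFinite K
  by_cases hss : IsSquare s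
  · rw [h_isSquare_mul hx hss hs ht]
  by_cases hst : IsSquare t
  · rw [mul_comm s t, h_isSquare_mul hx hst ht hs, h_comm hx hs ht]
  -- both are nonsquares
  have hchar : ringChar K ≠ 2 := fun hc => hss (FiniteField.isSquare_of_char_two hc s)
  have hodd : Fintype.card K % 2 = 1 := by
    exact FiniteField.odd_card_of_char_ne_two hchar
  obtain ⟨a₀, b₀, hab⟩ := FiniteField.exists_root_sum_quadratic (R := K)
    (f := Polynomial.X ^ 2) (g := Polynomial.X ^ 2 - Polynomial.C s)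
    (Polynomial.degree_X_pow 2) (Polynomial.degree_X_pow_sub_C (by decide) _) hodd
  simp only [Polynomial.eval_pow, Polynomial.eval_X, Polynomial.eval_sub, Polynomial.eval_C] at hab
  have hs2 : s = a₀ ^ 2 + b₀ ^ 2 := by linear_combination -hab
  have ha0 : a₀ ≠ 0 := by
    rintro rfl
    apply hss
    rw [hs2]
    exact ⟨b₀, by ring⟩
  have hb0 : b₀ ≠ 0 := by
    rintro rfl
    apply hss
    rw [hs2]
    exact ⟨a₀, by ring⟩
  set A := a₀ ^ 2 with hA
  set B := b₀ ^ 2 with hB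
  have hA0 : A ≠ 0 := pow_ne_zero 2 ha0
  have hB0 : B ≠ 0 := pow_ne_zero 2 hb0
  have hAsq : IsSquare A := ⟨a₀, by rw [hA]; ring⟩
  have hBsq : IsSquare B := ⟨b₀, by rw [hB]; ring⟩
  have hu : (1 : K) + A * B⁻¹ ≠ 0 := by
    have : (1 : K) + A * B⁻¹ = s / B := by rw [hs2]; field_simp; ring
    rw [this]
    exact div_ne_zero hs hB0
  have hE := E_identity hx hA0 (inv_ne_zero hB0) hu
  have e1 : (B⁻¹)⁻¹ = B := inv_inv B
  have e2 : (B⁻¹ * (1 + A * B⁻¹))⁻¹ = B ^ 2 / s := by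
    have : (1 : K) + A * B⁻¹ = s / B := by rw [hs2]; field_simp; ring
    rw [this]; field_simp
  have e3 : A * (1 + A * B⁻¹) = A * s / B := by
    have : (1 : K) + A * B⁻¹ = s / B := by rw [hs2]; field_simp; ring
    rw [this]; field_simp
  rw [e1, e2, e3] at hE
  set N₁ := A * s / B with hN₁
  set N₂ := B ^ 2 / s with hN₂
  have hN₁0 : N₁ ≠ 0 := div_ne_zero (mul_ne_zero hA0 hs) hB0
  have hN₂0 : N₂ ≠ 0 := div_ne_zero (pow_ne_zero 2 hB0) hs
  have hE2 : h x N₁ * h x N₂ = h x A * h x B := by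
    have h3 : h x B = h x N₁ * (h x A)⁻¹ * h x N₂ := by
      rw [← hE]; group
    rw [h3]
    have c1 : h x A * (h x N₁ * (h x A)⁻¹ * h x N₂) = h x N₁ * h x N₂ := by
      calc h x A * (h x N₁ * (h x A)⁻¹ * h x N₂) = (h x A * h x N₁) * (h x A)⁻¹ * h x N₂ := by group
        _ = _ := by rw [h_comm hx hA0 hN₁0]; group
    rw [c1]
  have hprod : h x A * h x B = h x (A * B) := (h_isSquare_mul hx hAsq hA0 hB0).symm
  -- ratios
  set r := B / A with hr
  have hr0 : r ≠ 0 := div_ne_zero hB0 hA0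
  have hrsq : IsSquare r := ⟨b₀ / a₀, by rw [hr, hA, hB]; field_simp⟩
  have hsr : s = r * N₁ := by rw [hr, hN₁]; field_simp
  set r' := t * s / B ^ 2 with hr'
  have hr'0 : r' ≠ 0 := div_ne_zero (mul_ne_zero ht hs) (pow_ne_zero 2 hB0)
  have hr'sq : IsSquare r' := by
    have hq : quadraticChar K r' = 1 := by
      have e : r' * B ^ 2 = t * s := by
        rw [hr']; field_simp
      have h4 : quadraticChar K B = 1 := (quadraticChar_one_iff_isSquare hB0).mpr hBsq
      have h5 := congrArg (quadraticChar K) e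
      rw [map_mul, map_mul, map_pow, h4, quadraticChar_neg_one_iff_not_isSquare.mpr hst,
        quadraticChar_neg_one_iff_not_isSquare.mpr hss] at h5
      simpa using h5
    exact (quadraticChar_one_iff_isSquare hr'0).mp hq
  have htr : t = r' * N₂ := by rw [hr', hN₂]; field_simp
  have hfinal : s * t = r' * (r * (A * B)) := by
    rw [hsr, htr, hr', hr, hN₁, hN₂]; field_simp
  calc h x s * h x t = h x (r * N₁) * h x (r' * N₂) := by rw [← hsr, ← htr]
    _ = (h x r * h x N₁) * (h x r' * h x N₂) := by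
        rw [h_isSquare_mul hx hrsq hr0 hN₁0, h_isSquare_mul hx hr'sq hr'0 hN₂0]
    _ = h x r * (h x r' * h x N₁) * h x N₂ := by
        rw [h_comm hx hN₁0 hr'0 |>.symm]; group
    _ = h x r' * h x r * (h x N₁ * h x N₂) := by
        rw [h_comm hx hr'0 hr0]; group
    _ = h x r' * (h x r * h x (A * B)) := by rw [hE2, hprod]; group
    _ = h x r' * h x (r * (A * B)) := by
        rw [h_isSquare_mul hx hrsq hr0 (mul_ne_zero hA0 hB0)]
    _ = h x (r' * (r * (A * B))) := by
        rw [h_isSquare_mul hx hr'sq hr'0 (mul_ne_zero hr0 (mul_ne_zero hA0 hB0))]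
    _ = _ := by rw [hfinal]

omit [Finite K] in
lemma h_x {s : K} (hs : s ≠ 0) (a : K) : h x s * x true a = x true (s ^ 2 * a) * h x s := by
  rw [← h_conj_x hx hs a]; group

omit [Finite K] in
lemma x_h {t : K} (ht : t ≠ 0) (a : K) : x true a * h x t = h x t * x true (t⁻¹ ^ 2 * a) := by
  rw [h_x hx ht]
  congr 2
  field_simp

omit [Finite K] in
lemma w_h {t : K} (ht : t ≠ 0) : W x true 1 * h x t = h x t⁻¹ * W x true 1 := by
  rw [← W_conj_h hx ht]; group

lemma w_sq : W x true 1 * W x true 1 = h x (-1) := by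
  have h1 : W x true (-1) = h x (-1) * W x true 1 := W_eq_h (-1)
  rw [← W_inv hx] at h1
  have h2 : h x (-1) * h x (-1) = 1 := by
    rw [h_mul hx (by simp) (by simp)]
    simp [h_one]
  have h3 : (W x true 1)⁻¹ * (W x true 1)⁻¹ = h x (-1) := by
    nth_rewrite 1 [h1]
    group
  have h4 : W x true 1 * W x true 1 = (h x (-1))⁻¹ := by
    rw [← h3, mul_inv_rev, inv_inv]
  rw [h4]
  exact inv_eq_of_mul_eq_one_left h2

/-- The set of normal forms. -/
def NF (x : Bool → K → G) : Set G :=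
  {g | (∃ a t, t ≠ 0 ∧ g = x true a * h x t) ∨ (∃ a t b, t ≠ 0 ∧ g = x true a * h x t * W x true 1 * x true b)}

lemma nf_one : (1 : G) ∈ NF x :=
  Or.inl ⟨0, 1, one_ne_zero, by rw [x_zero hx, h_one, one_mul]⟩

lemma nf_x {g : G} (hg : g ∈ NF x) (c : K) : x true c * g ∈ NF x := by
  rcases hg with ⟨a, t, ht, rfl⟩ | ⟨a, t, b, ht, rfl⟩
  · exact Or.inl ⟨c + a, t, ht, by rw [← hx.add]; group⟩
  · exact Or.inr ⟨c + a, t, b, ht, by rw [← hx.add]; group⟩

lemma nf_h {g : G} (hg : g ∈ NF x) {s : K} (hs : s ≠ 0) : h x s * g ∈ NF x := by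
  rcases hg with ⟨a, t, ht, rfl⟩ | ⟨a, t, b, ht, rfl⟩
  · refine Or.inl ⟨s ^ 2 * a, s * t, mul_ne_zero hs ht, ?_⟩
    rw [← h_mul hx hs ht, ← mul_assoc, h_x hx hs]
    group
  · refine Or.inr ⟨s ^ 2 * a, s * t, b, mul_ne_zero hs ht, ?_⟩
    rw [← h_mul hx hs ht]
    have := h_x hx hs a
    calc h x s * (x true a * h x t * W x true 1 * x true b)
        = (h x s * x true a) * h x t * W x true 1 * x true b := by group
      _ = _ := by rw [this]; group

lemma nf_w {g : G} (hg : g ∈ NF x) : W x true 1 * g ∈ NF x := by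
  rcases hg with ⟨a, t, ht, rfl⟩ | ⟨a, t, b, ht, rfl⟩
  · refine Or.inr ⟨0, t⁻¹, t⁻¹ ^ 2 * a, inv_ne_zero ht, ?_⟩
    rw [x_zero hx, one_mul, x_h hx ht, ← mul_assoc, w_h hx ht]
  · by_cases ha : a = 0
    · subst ha
      have ht' : -t⁻¹ ≠ 0 := neg_ne_zero.mpr (inv_ne_zero ht)
      refine Or.inl ⟨(-t⁻¹) ^ 2 * b, -t⁻¹, ht', ?_⟩
      rw [x_zero hx, one_mul, ← h_x hx ht']
      calc W x true 1 * (h x t * W x true 1 * x true b)
          = (W x true 1 * h x t) * W x true 1 * x true b := by group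
        _ = h x t⁻¹ * (W x true 1 * W x true 1) * x true b := by rw [w_h hx ht]; group
        _ = _ := by
          rw [w_sq hx, h_mul hx (inv_ne_zero ht) (by simp)]
          congr 2
          ring
    · set c := t⁻¹ ^ 2 * a with hc
      have hc0 : c ≠ 0 := mul_ne_zero (pow_ne_zero 2 (inv_ne_zero ht)) ha
      have hcinv : -c⁻¹ ≠ 0 := neg_ne_zero.mpr (inv_ne_zero hc0)
      have m1 : (-1 : K) ≠ 0 := by simp
      have hwxw : W x true 1 * x true c * W x true 1 = x false (-c) * h x (-1) := by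
        have h1 := hx.conj true 1 c one_ne_zero
        simp only [Bool.not_true, inv_one, one_pow, one_mul] at h1
        rw [← h1, ← w_sq hx]
        group
      have hy : x false (-c) = x true (-c⁻¹) * h x c⁻¹ * W x true 1 * x true (-c⁻¹) := by
        have h2 := x_eq_W hx true (c := -c) (neg_ne_zero.mpr hc0)
        simp only [Bool.not_true, inv_neg, neg_neg] at h2
        rw [h2, W_eq_h (x := x) c⁻¹]
        group
      have hm1x : x true (-c⁻¹) * h x (-1) = h x (-1) * x true (-c⁻¹) := by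
        rw [h_x hx m1]
        simp
      have hm1w : W x true 1 * h x (-1) = h x (-1) * W x true 1 := by
        rw [w_h hx m1]
        simp
      refine Or.inr ⟨(t⁻¹) ^ 2 * (-c⁻¹), t⁻¹ * (c⁻¹ * (-1)), b - c⁻¹,
        mul_ne_zero (inv_ne_zero ht) (mul_ne_zero (inv_ne_zero hc0) m1), ?_⟩
      calc W x true 1 * (x true a * h x t * W x true 1 * x true b)
          = (W x true 1 * (x true a * h x t)) * W x true 1 * x true b := by group
        _ = h x t⁻¹ * (W x true 1 * x true c * W x true 1) * x true b := by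
            rw [x_h hx ht a, ← hc, ← mul_assoc (W x true 1), w_h hx ht]; simp only [mul_assoc]
        _ = h x t⁻¹ * (x true (-c⁻¹) * h x c⁻¹ * W x true 1 * (x true (-c⁻¹) * h x (-1))) * x true b := by
            rw [hwxw, hy]; group
        _ = h x t⁻¹ * x true (-c⁻¹) * h x c⁻¹ * (W x true 1 * h x (-1)) * x true (-c⁻¹) * x true b := by
            rw [hm1x]; group
        _ = (h x t⁻¹ * x true (-c⁻¹)) * (h x c⁻¹ * h x (-1)) * W x true 1 * (x true (-c⁻¹) * x true b) := by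
            rw [hm1w]; group
        _ = x true (t⁻¹ ^ 2 * -c⁻¹) * (h x t⁻¹ * h x (c⁻¹ * -1)) * W x true 1 * x true (b - c⁻¹) := by
            rw [h_x hx (inv_ne_zero ht), h_mul hx (inv_ne_zero hc0) m1, hx.add]
            rw [show -c⁻¹ + b = b - c⁻¹ by ring]
            group
        _ = _ := by
            rw [h_mul hx (inv_ne_zero ht) (mul_ne_zero (inv_ne_zero hc0) m1)]

lemma nf_y {g : G} (hg : g ∈ NF x) (c : K) : x false c * g ∈ NF x := by
  by_cases hc : c = 0
  · subst hc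
    rw [x_zero hx, one_mul]; exact hg
  · have h2 := x_eq_W hx true hc
    simp only [Bool.not_true] at h2
    rw [h2, W_eq_h (x := x) (-c⁻¹)]
    have h3 := nf_x hx (nf_h hx (nf_w hx (nf_x hx hg c⁻¹)) (neg_ne_zero.mpr (inv_ne_zero hc))) c⁻¹
    convert h3 using 1
    group

end Cfsg.Agent.Lib.KS2.RankOne
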