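import Mathlib
import Cfsg.Agent.Lib.KS2.RankOne2

/-!
# The rank-one presentation of `SL₂` over a finite field: the final statements.
-/

set_option autoImplicit false

open Matrix

namespace Cfsg.Agent.Lib.KS2.RankOne

variable {K : Type*} [Field K]

/-- The root elements of `SL₂`. -/
def el : Bool → K → Matrix.SpecialLinearGroup (Fin 2) K
  | true, t => ⟨!![1, t; 0, 1], by simp [Matrix.det_fin_two]⟩
  | false, t => ⟨!![1, 0; t, 1], by simp [Matrix.det_fin_two]⟩

lemma el_true_coe (t : K) : ((el true t : Matrix.SpecialLinearGroup (Fin 2) K) : Matrix (Fin 2) (Fin 2) K) = !![1, t; 0, 1] := rfl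
lemma el_false_coe (t : K) : ((el false t : Matrix.SpecialLinearGroup (Fin 2) K) : Matrix (Fin 2) (Fin 2) K) = !![1, 0; t, 1] := rfl

lemma W_el_true_coe {t : K} (ht : t ≠ 0) :
    ((W el true t : Matrix.SpecialLinearGroup (Fin 2) K) : Matrix (Fin 2) (Fin 2) K) = !![0, t; -t⁻¹, 0] := by
  unfold W
  simp only [Bool.not_true, Matrix.SpecialLinearGroup.coe_mul, el_true_coe, el_false_coe]
  ext i j
  fin_cases i <;> fin_cases j <;> simp [Matrix.mul_apply, Fin.sum_univ_two, ht] <;> (try field_simp) <;> (try ring)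

lemma W_el_false_coe {t : K} (ht : t ≠ 0) :
    ((W el false t : Matrix.SpecialLinearGroup (Fin 2) K) : Matrix (Fin 2) (Fin 2) K) = !![0, -t⁻¹; t, 0] := by
  unfold W
  simp only [Bool.not_false, Matrix.SpecialLinearGroup.coe_mul, el_true_coe, el_false_coe]
  ext i j
  fin_cases i <;> fin_cases j <;> simp [Matrix.mul_apply, Fin.sum_univ_two, ht] <;> (try field_simp) <;> (try ring)

lemma rel_el : Rel (el (K := K)) where
  add := by
    intro b t u
    apply Subtype.ext
    cases b
    · simp only [Matrix.SpecialLinearGroup.coe_mul, el_false_coe]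
      ext i j
      fin_cases i <;> fin_cases j <;> simp [Matrix.mul_apply, Fin.sum_univ_two, add_comm]
    · simp only [Matrix.SpecialLinearGroup.coe_mul, el_true_coe]
      ext i j
      fin_cases i <;> fin_cases j <;> simp [Matrix.mul_apply, Fin.sum_univ_two, add_comm]
  conj := by
    intro b t u ht
    rw [mul_inv_eq_iff_eq_mul]
    apply Subtype.ext
    cases b
    · simp only [Matrix.SpecialLinearGroup.coe_mul, W_el_false_coe ht, el_false_coe, Bool.not_false, el_true_coe]
      ext i j
      fin_cases i <;> fin_cases j <;> simp [Matrix.mul_apply, Fin.sum_univ_two] <;> field_simp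
    · simp only [Matrix.SpecialLinearGroup.coe_mul, W_el_true_coe ht, el_false_coe, Bool.not_true, el_true_coe]
      ext i j
      fin_cases i <;> fin_cases j <;> simp [Matrix.mul_apply, Fin.sum_univ_two] <;> field_simp

lemma h_el_coe {t : K} (ht : t ≠ 0) :
    ((h el t : Matrix.SpecialLinearGroup (Fin 2) K) : Matrix (Fin 2) (Fin 2) K) = !![t, 0; 0, t⁻¹] := by
  unfold h
  rw [W_inv rel_el, Matrix.SpecialLinearGroup.coe_mul, W_el_true_coe ht, W_el_true_coe (by simp)]
  ext i j
  fin_cases i <;> fin_cases j <;> simp [Matrix.mul_apply, Fin.sum_univ_two]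

variable {G : Type*} [Group G]

lemma map_W (f : G →* Matrix.SpecialLinearGroup (Fin 2) K) {x : Bool → K → G}
    (hf : ∀ b t, f (x b t) = el b t) (b : Bool) (t : K) : f (W x b t) = W el b t := by
  simp [W, map_mul, hf]

lemma map_h (f : G →* Matrix.SpecialLinearGroup (Fin 2) K) {x : Bool → K → G}
    (hf : ∀ b t, f (x b t) = el b t) (t : K) : f (h x t) = h el t := by
  simp [h, map_mul, map_inv, map_W f hf]

lemma nf1_coe (f : G →* Matrix.SpecialLinearGroup (Fin 2) K) {x : Bool → K → G}
    (hf : ∀ b t, f (x b t) = el b t) (a : K) {t : K} (ht : t ≠ 0) :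
    ((f (x true a * h x t) : Matrix.SpecialLinearGroup (Fin 2) K) : Matrix (Fin 2) (Fin 2) K) = !![t, a * t⁻¹; 0, t⁻¹] := by
  rw [map_mul, hf, map_h f hf, Matrix.SpecialLinearGroup.coe_mul, el_true_coe, h_el_coe ht]
  ext i j
  fin_cases i <;> fin_cases j <;> simp [Matrix.mul_apply, Fin.sum_univ_two]

lemma nf2_coe (f : G →* Matrix.SpecialLinearGroup (Fin 2) K) {x : Bool → K → G}
    (hf : ∀ b t, f (x b t) = el b t) (a : K) {t : K} (ht : t ≠ 0) (b : K) :
    ((f (x true a * h x t * W x true 1 * x true b) : Matrix.SpecialLinearGroup (Fin 2) K) : Matrix (Fin 2) (Fin 2) K) =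
      !![-(a * t⁻¹), t - a * t⁻¹ * b; -t⁻¹, -(t⁻¹ * b)] := by
  simp only [map_mul, hf, map_h f hf, map_W f hf, Matrix.SpecialLinearGroup.coe_mul, el_true_coe, h_el_coe ht,
    W_el_true_coe (one_ne_zero (α := K))]
  ext i j
  fin_cases i <;> fin_cases j <;> simp [Matrix.mul_apply, Fin.sum_univ_two] <;> ring

lemma entries_eq {M N : Matrix.SpecialLinearGroup (Fin 2) K} (h : M = N) (i j : Fin 2) :
    (M : Matrix (Fin 2) (Fin 2) K) i j = (N : Matrix (Fin 2) (Fin 2) K) i j := by rw [h]

/-- Injectivity on normal forms. -/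
lemma inj_of_nf (f : G →* Matrix.SpecialLinearGroup (Fin 2) K) {x : Bool → K → G}
    (hf : ∀ b t, f (x b t) = el b t) (hall : ∀ g, g ∈ NF x) : Function.Injective f := by
  intro g g' hgg
  have key : ∀ i j, ((f g : Matrix.SpecialLinearGroup (Fin 2) K) : Matrix (Fin 2) (Fin 2) K) i j = ((f g' : Matrix.SpecialLinearGroup (Fin 2) K) : Matrix (Fin 2) (Fin 2) K) i j :=
    entries_eq hgg
  rcases hall g with ⟨a, t, ht, rfl⟩ | ⟨a, t, b, ht, rfl⟩ <;> rcases hall g' with ⟨a', t', ht', rfl⟩ | ⟨a', t', b', ht', rfl⟩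
  · rw [nf1_coe f hf a ht, nf1_coe f hf a' ht'] at key
    have h1 : t = t' := by simpa using key 0 0
    subst h1
    have h2 : a * t⁻¹ = a' * t⁻¹ := by simpa using key 0 1
    have h3 : a = a' := mul_right_cancel₀ (inv_ne_zero ht) h2
    rw [h3]
  · rw [nf1_coe f hf a ht, nf2_coe f hf a' ht' b'] at key
    have h1 := key 1 0
    simp at h1
    exact absurd h1 (by simpa using ht')
  · rw [nf2_coe f hf a ht b, nf1_coe f hf a' ht'] at key
    have h1 := key 1 0
    simp at h1
    exact absurd h1 (by simpa using ht)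
  · rw [nf2_coe f hf a ht b, nf2_coe f hf a' ht' b'] at key
    have h1 : t = t' := by simpa using key 1 0
    subst h1
    have h2 : a * t⁻¹ = a' * t⁻¹ := by simpa using key 0 0
    have h3 : a = a' := mul_right_cancel₀ (inv_ne_zero ht) h2
    have h4 : t⁻¹ * b = t⁻¹ * b' := by simpa using key 1 1
    have h5 : b = b' := mul_left_cancel₀ (inv_ne_zero ht) h4
    rw [h3, h5]

/-- Surjectivity onto `SL₂`. -/
lemma surj_of_gen (f : G →* Matrix.SpecialLinearGroup (Fin 2) K) {x : Bool → K → G}
    (hf : ∀ b t, f (x b t) = el b t) : Function.Surjective f := by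
  intro M
  have hdet : (M : Matrix (Fin 2) (Fin 2) K) 0 0 * (M : Matrix (Fin 2) (Fin 2) K) 1 1 -
      (M : Matrix (Fin 2) (Fin 2) K) 0 1 * (M : Matrix (Fin 2) (Fin 2) K) 1 0 = 1 := by
    have := M.2
    rwa [Matrix.det_fin_two] at this
  by_cases hr : (M : Matrix (Fin 2) (Fin 2) K) 1 0 = 0
  · have hp : (M : Matrix (Fin 2) (Fin 2) K) 0 0 ≠ 0 := by
      intro h0
      rw [h0, hr] at hdet
      simp at hdet
    set p := (M : Matrix (Fin 2) (Fin 2) K) 0 0 with hpp
    refine ⟨x true ((M : Matrix (Fin 2) (Fin 2) K) 0 1 * p) * h x p, ?_⟩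
    apply Subtype.ext
    rw [nf1_coe f hf _ hp]
    have hs : (M : Matrix (Fin 2) (Fin 2) K) 1 1 = p⁻¹ := by
      rw [hr] at hdet
      simp only [mul_zero, sub_zero] at hdet
      exact eq_inv_of_mul_eq_one_right hdet
    ext i j
    fin_cases i <;> fin_cases j <;> simp [hr, hs, ← hpp, hp]
  · set r := (M : Matrix (Fin 2) (Fin 2) K) 1 0 with hrr
    have ht : -r⁻¹ ≠ 0 := neg_ne_zero.mpr (inv_ne_zero hr)
    refine ⟨x true (r⁻¹ * (M : Matrix (Fin 2) (Fin 2) K) 0 0) * h x (-r⁻¹) * W x true 1 *
      x true (r⁻¹ * (M : Matrix (Fin 2) (Fin 2) K) 1 1), ?_⟩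
    apply Subtype.ext
    rw [nf2_coe f hf _ ht]
    ext i j
    fin_cases i <;> fin_cases j
    · simp; field_simp
    · simp
      field_simp
      linear_combination hdet
    · simp; exact hrr
    · simp; field_simp

variable [Finite K]

/-- An abstract version: `SL₂(K)` is universal. -/
theorem nf_all {x : Bool → K → G} (hx : Rel x)
    (hgen : Subgroup.closure (Set.range fun p : Bool × K => x p.1 p.2) = ⊤) : ∀ g, g ∈ NF x := by
  intro g
  have hg : g ∈ Subgroup.closure (Set.range fun p : Bool × K => x p.1 p.2) := by rw [hgen]; trivial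
  induction hg using Subgroup.closure_induction_left with
  | one => exact nf_one hx
  | mul_left y hy z _ ih =>
    obtain ⟨⟨b, t⟩, rfl⟩ := hy
    cases b
    · exact nf_y hx ih t
    · exact nf_x hx ih t
  | inv_mul_cancel y hy z _ ih =>
    obtain ⟨⟨b, t⟩, rfl⟩ := hy
    simp only
    rw [x_neg hx]
    cases b
    · exact nf_y hx ih _
    · exact nf_x hx ih _

/-- The relators, as in the statement. -/
abbrev Rels (K : Type*) [Field K] : Set (FreeGroup (Bool × K)) :=
  ({g : FreeGroup (Bool × K) | ∃ (b : Bool) (t u : K), g = FreeGroup.of (b, t) * FreeGroup.of (b, u) * (FreeGroup.of (b, t + u))⁻¹} ∪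
          {g | ∃ (b : Bool) (t u : K), t ≠ 0 ∧
            g = (FreeGroup.of (b, t) * FreeGroup.of (!b, -t⁻¹) * FreeGroup.of (b, t)) * FreeGroup.of (b, u) *
                  (FreeGroup.of (b, t) * FreeGroup.of (!b, -t⁻¹) * FreeGroup.of (b, t))⁻¹ * (FreeGroup.of (!b, -(t⁻¹ ^ 2 * u)))⁻¹})

/-- The generators. -/
def gen (b : Bool) (t : K) : PresentedGroup (Rels K) := PresentedGroup.of (b, t)

omit [Finite K] in
lemma rel_gen : Rel (gen (K := K)) where
  add := by
    intro b t u
    have h1 := PresentedGroup.one_of_mem (rels := Rels K)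
      (x := FreeGroup.of (b, t) * FreeGroup.of (b, u) * (FreeGroup.of (b, t + u))⁻¹) (Or.inl ⟨b, t, u, rfl⟩)
    simp only [map_mul, map_inv] at h1
    exact mul_inv_eq_one.mp h1
  conj := by
    intro b t u ht
    have h1 := PresentedGroup.one_of_mem (rels := Rels K)
      (x := (FreeGroup.of (b, t) * FreeGroup.of (!b, -t⁻¹) * FreeGroup.of (b, t)) * FreeGroup.of (b, u) *
                  (FreeGroup.of (b, t) * FreeGroup.of (!b, -t⁻¹) * FreeGroup.of (b, t))⁻¹ * (FreeGroup.of (!b, -(t⁻¹ ^ 2 * u)))⁻¹)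
      (Or.inr ⟨b, t, u, ht, rfl⟩)
    simp only [map_mul, map_inv] at h1
    exact mul_inv_eq_one.mp h1

omit [Finite K] in
/-- A family satisfying the relations gives a homomorphism from the presented group. -/
lemma lift_rels {H : Type*} [Group H] {y : Bool → K → H} (hy : Rel y) :
    ∀ r ∈ Rels K, FreeGroup.lift (fun p : Bool × K => y p.1 p.2) r = 1 := by
  intro r hr
  rcases hr with ⟨b, t, u, rfl⟩ | ⟨b, t, u, ht, rfl⟩
  · simp only [map_mul, map_inv, FreeGroup.lift_apply_of]
    exact mul_inv_eq_one.mpr (hy.add b t u)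
  · simp only [map_mul, map_inv, FreeGroup.lift_apply_of]
    exact mul_inv_eq_one.mpr (hy.conj b t u ht)

/-- The homomorphism to `SL₂`. -/
noncomputable def toSL : PresentedGroup (Rels K) →* Matrix.SpecialLinearGroup (Fin 2) K :=
  PresentedGroup.toGroup (lift_rels rel_el)

omit [Finite K] in
lemma toSL_gen (b : Bool) (t : K) : toSL (gen b t) = el b t := by
  unfold toSL gen
  rw [PresentedGroup.toGroup.of]

omit [Finite K] in
lemma gen_closure : Subgroup.closure (Set.range fun p : Bool × K => gen p.1 p.2) = ⊤ := by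
  have h1 : (fun p : Bool × K => gen p.1 p.2) = PresentedGroup.of := rfl
  rw [h1]
  exact PresentedGroup.closure_range_of (Rels K)

/-- The rank-one presentation. -/
theorem toSL_bijective : Function.Bijective (toSL (K := K)) :=
  ⟨inj_of_nf toSL toSL_gen (nf_all rel_gen gen_closure), surj_of_gen toSL toSL_gen⟩

/-- `SL₂` is the universal group for the rank-one relations: a family of elements of any group satisfying
them is the image of the root elements under a homomorphism from `SL₂`. -/
theorem exists_hom {H : Type*} [Group H] {y : Bool → K → H} (hy : Rel y) :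
    ∃ ψ : Matrix.SpecialLinearGroup (Fin 2) K →* H, ∀ b t, ψ (el b t) = y b t := by
  let e := MulEquiv.ofBijective toSL (toSL_bijective (K := K))
  refine ⟨(PresentedGroup.toGroup (lift_rels hy)).comp e.symm.toMonoidHom, ?_⟩
  intro b t
  have h1 : e.symm (el b t) = gen b t := by
    rw [MulEquiv.symm_apply_eq]
    exact (toSL_gen b t).symm
  show PresentedGroup.toGroup (lift_rels hy) (e.symm (el b t)) = y b t
  rw [h1]
  unfold gen
  rw [PresentedGroup.toGroup.of]

end Cfsg.Agent.Lib.KS2.RankOne
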