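import Mathlib
import Cfsg.Agent.Lib.KS2.SLValues

set_option autoImplicit false
set_option linter.unusedSimpArgs false
set_option linter.unusedVariables false
set_option linter.unusedSectionVars false

namespace Cfsg.Agent.Lib.KS2.RK

open Matrix Cfsg Cfsg.Agent.Lib.Char
open scoped MatrixGroups ComplexConjugate

universe u

/-- Central elements act by scalars in an irreducible representation. -/
theorem char_central_mul {G : Type u} [Group G] [Fintype G] {χ : G → ℂ} (hχ : IsIrrCharacter G χ)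
    (z : G) (hz : ∀ g, z * g = g * z) : ∃ c : ℂ, ∀ g, χ (z * g) = c * χ g := by
  obtain ⟨n, ρ, hρ, rfl⟩ := hχ
  obtain ⟨c, hc⟩ := schur_scalar ρ hρ (ρ z) (by
    intro g v
    rw [← Module.End.mul_apply, ← map_mul, hz, map_mul]
    rfl)
  refine ⟨c, fun g => ?_⟩
  rw [Representation.character, Representation.character, map_mul, hc, smul_mul_assoc, one_mul,
    map_smul, smul_eq_mul]

variable {F : Type*} [Field F] [Fintype F] [Fintype SL(2, F)]

local notation "q" => (Fintype.card F)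

/-- A pair of irreducible characters swapped by the diagonal automorphisms. -/
structure SwapPair (a b : IrrCharacter SL(2, F)) : Prop where
  h2 : (2 : F) ≠ 0
  hab : a ≠ b
  hsum : ∀ (x : GL (Fin 2) F) (g : SL(2, F)), (a : SL(2, F) → ℂ) (cx x g) + (b : SL(2, F) → ℂ) (cx x g) =
    (a : SL(2, F) → ℂ) g + (b : SL(2, F) → ℂ) g
  hswap : ∀ (ν₀ : F) (_ : ¬ IsSquare ν₀) (h0 : ν₀ ≠ 0) (g : SL(2, F)),
    (a : SL(2, F) → ℂ) (cx (x0 ν₀ h0) g) = (b : SL(2, F) → ℂ) g

/-- The difference of the two characters. -/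
noncomputable def del (a b : IrrCharacter SL(2, F)) (g : SL(2, F)) : ℂ :=
  (a : SL(2, F) → ℂ) g - (b : SL(2, F) → ℂ) g

namespace SwapPair

variable {a b : IrrCharacter SL(2, F)} (S : SwapPair a b)

include S

lemma del_swap (ν₀ : F) (hν : ¬ IsSquare ν₀) (h0 : ν₀ ≠ 0) (g : SL(2, F)) :
    del a b (cx (x0 ν₀ h0) g) = - del a b g := by
  have h1 := S.hswap ν₀ hν h0 g
  have h3 := S.hsum (x0 ν₀ h0) g
  simp only [del]
  rw [h1] at h3 ⊢
  linear_combination -h3

omit S in
lemma del_isConj {g h : SL(2, F)} (hc : IsConj g h) : del a b g = del a b h := by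
  simp only [del]
  rw [Cfsg.Agent.Lib.Char.IsCharacter.map_isConj (IsIrrCharacter.isCharacter a.2) hc,
    Cfsg.Agent.Lib.Char.IsCharacter.map_isConj (IsIrrCharacter.isCharacter b.2) hc]

lemma del_zero_of_tr {g : SL(2, F)} (h : (SL2.tr g) ^ 2 ≠ 4) : del a b g = 0 := by
  obtain ⟨ν₀, hν, h0⟩ := exists_nonsq S.h2
  have h1 := S.del_swap ν₀ hν h0 g
  rw [← del_isConj (isConj_cx_of_tr _ h)] at h1
  have h3 : (2 : ℂ) * del a b g = 0 := by linear_combination h1
  simpa using h3

lemma del_zero_of_scalar {g : SL(2, F)} (h : SL2.IsScalar g) : del a b g = 0 := by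
  obtain ⟨ν₀, hν, h0⟩ := exists_nonsq S.h2
  have h1 := S.del_swap ν₀ hν h0 g
  rw [cx_scalar _ h] at h1
  have h3 : (2 : ℂ) * del a b g = 0 := by linear_combination h1
  simpa using h3

lemma del_zero_of_Z {g : SL(2, F)} (h : g ∈ (slCx F).Z) : del a b g = 0 :=
  S.del_zero_of_scalar h

/-- The central elements scale the difference. -/
lemma del_z {z : SL(2, F)} (hz : z ∈ (slCx F).Z) :
    ∃ c : ℂ, c * conj c = 1 ∧ ∀ g, del a b (z * g) = c * del a b g := by
  have hcomm : ∀ g, z * g = g * z := (slCx F).Z_comm hz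
  obtain ⟨c, hc⟩ := char_central_mul a.2 z hcomm
  obtain ⟨c', hc'⟩ := char_central_mul b.2 z hcomm
  have ha1 : (a : SL(2, F) → ℂ) 1 ≠ 0 := by
    rw [map_one_eq_charDegree (IsIrrCharacter.isCharacter a.2)]
    exact_mod_cast (charDegree_pos_of_irr a.2).ne'
  have h11 : (a : SL(2, F) → ℂ) 1 = (b : SL(2, F) → ℂ) 1 := by
    have := S.del_zero_of_Z ((slCx F).Z.one_mem)
    simp only [del] at this
    linear_combination this
  have hzz : (a : SL(2, F) → ℂ) z = (b : SL(2, F) → ℂ) z := by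
    have := S.del_zero_of_Z hz
    simp only [del] at this
    linear_combination this
  have h3 := hc 1
  have h4 := hc' 1
  rw [mul_one] at h3 h4
  have hcc' : c = c' := by
    apply mul_right_cancel₀ ha1
    rw [← h3, hzz, h4, h11]
  have hz2 : z * z = 1 := by
    obtain ⟨h1, h5, h6⟩ := hz
    have hd := SL2.det_rel z
    change (z : Matrix (Fin 2) (Fin 2) F) 0 1 = 0 at h1
    change (z : Matrix (Fin 2) (Fin 2) F) 1 0 = 0 at h5
    change (z : Matrix (Fin 2) (Fin 2) F) 0 0 = (z : Matrix (Fin 2) (Fin 2) F) 1 1 at h6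
    rw [h1, h6] at hd
    apply SL2.ext4
    · rw [SL2.mul00, h1, h6, SL2.one00]
      linear_combination hd
    · rw [SL2.mul01, h1, h6, SL2.one01]
      ring
    · rw [SL2.mul10, h5, h6, SL2.one10]
      ring
    · rw [SL2.mul11, h5, SL2.one11]
      linear_combination hd
  have hcsq : c * c = 1 := by
    have h7 := hc (z * 1)
    rw [← mul_assoc, hz2, one_mul, mul_one, h3] at h7
    apply mul_right_cancel₀ ha1
    rw [one_mul, ← mul_assoc] at *
    exact h7.symm
  have hc1 : c = 1 ∨ c = -1 := mul_self_eq_one_iff.mp hcsq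
  refine ⟨c, ?_, ?_⟩
  · rcases hc1 with rfl | rfl <;> simp
  · intro g
    simp only [del]
    rw [hc g, hc' g, ← hcc']
    ring

/-- The value of the norm at nontrivial unipotent elements. -/
lemma del_u {c : F} (hc : c ≠ 0) :
    del a b ((slCx F).u c) * conj (del a b ((slCx F).u c)) =
      del a b ((slCx F).u 1) * conj (del a b ((slCx F).u 1)) := by
  by_cases hs : IsSquare (c * 1)
  · rw [del_isConj (u_isConj hc one_ne_zero hs)]
  · have hc' : ¬ IsSquare c := by simpa using hs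
    have h1 := S.del_swap c hc' hc ((slCx F).u 1)
    rw [cx_x0_u, mul_one] at h1
    rw [h1]
    simp

lemma sum_if_R1 (h2 : (2 : F) ≠ 0) :
    ∑ g : SL(2, F), (if (slCx F).R 1 g = 1 then (1 : ℂ) else 0) = 2 * ((q : ℂ) ^ 2 - 1) := by
  classical
  have hq0 : (q : ℂ) ≠ 0 := Cx.q_ne F
  have hpt : ∀ g : SL(2, F), (if (slCx F).R 1 g = 1 then (1 : ℂ) else 0) =
      (if g ∈ (slCx F).Z then (q : ℂ) ^ 2 - 1 else 0) -
        ((slCx F).R 1 g ^ 2 - 2 * (slCx F).R 1 g) := by
    intro g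
    rcases (slCx F).R1_cases g with ⟨hz, hv⟩ | ⟨hn, hv⟩ | ⟨hz, hn, hv⟩
    · rw [if_pos hz, hv, if_neg]
      · ring
      · intro h
        apply hq0
        linear_combination h
    · rw [if_neg ((slCx F).Z_not_NE · hn), hv, if_neg (by norm_num)]
      ring
    · rw [if_neg hz]
      rcases hv with hv | hv
      · rw [hv, if_pos rfl]
        ring
      · rw [hv, if_neg (by norm_num)]
        ring
  rw [Finset.sum_congr rfl (fun g _ => hpt g), Finset.sum_sub_distrib, Finset.sum_sub_distrib,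
    (slCx F).sum_R1_sq, ← Finset.mul_sum, (slCx F).sum_R1, ← Finset.sum_filter, Finset.sum_const]
  have hcard : (Finset.univ.filter (fun g : SL(2, F) => g ∈ (slCx F).Z)).card = 2 := by
    refine Eq.trans ?_ (sl_card_Z_odd h2)
    rw [Nat.card_eq_fintype_card, Fintype.card_subtype]
  rw [hcard]
  simp

lemma del_cases (g : SL(2, F)) :
    del a b g * conj (del a b g) = if (slCx F).R 1 g = 1 then
      del a b ((slCx F).u 1) * conj (del a b ((slCx F).u 1)) else 0 := by
  classical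
  have hq0 : (q : ℂ) ≠ 0 := Cx.q_ne F
  rcases (slCx F).R1_cases g with ⟨hz, hv⟩ | ⟨hn, hv⟩ | ⟨hz, hn, hv⟩
  · rw [S.del_zero_of_Z hz, if_neg]
    · simp
    · rw [hv]
      intro h
      apply hq0
      linear_combination h
  · rw [S.del_zero_of_tr (tr_sq_ne_of_NE S.h2 hn), hv, if_neg (by norm_num)]
    simp
  · obtain ⟨x, hx⟩ := (slCx F).exists_conj_H hn
    obtain ⟨t, c, ht⟩ := (slCx F).H_form hx
    have hcong : del a b g = del a b ((t : SL(2, F)) * (slCx F).u c) := by
      rw [← ht]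
      apply del_isConj
      apply isConj_iff.mpr
      exact ⟨x⁻¹, by group⟩
    have hR : (slCx F).R 1 g = (slCx F).R 1 ((t : SL(2, F)) * (slCx F).u c) := by
      rw [← ht, (slCx F).R_conj]
    rw [hcong, hR]
    by_cases htz : (t : SL(2, F)) ∈ (slCx F).Z
    · have hc : c ≠ 0 := by
        rintro rfl
        apply hz
        have h1 : x⁻¹ * g * x = t := by rw [ht, (slCx F).u_zero, mul_one]
        have h2 : g = x * t * x⁻¹ := by rw [← h1]; group
        rw [h2, ← (slCx F).Z_comm htz x, mul_assoc, mul_inv_cancel, mul_one]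
        exact htz
      rw [(slCx F).R1_tu_unip t htz hc, if_pos rfl]
      obtain ⟨κ, hκ, hmul⟩ := S.del_z htz
      rw [hmul, map_mul, ← S.del_u hc]
      calc κ * del a b ((slCx F).u c) * (conj κ * conj (del a b ((slCx F).u c)))
          = (κ * conj κ) * (del a b ((slCx F).u c) * conj (del a b ((slCx F).u c))) := by ring
        _ = _ := by rw [hκ, one_mul]
    · rw [(slCx F).R1_tu_reg t htz c, if_neg (by norm_num)]
      have htr : (SL2.tr ((t : SL(2, F)) * (slCx F).u c)) ^ 2 ≠ 4 := by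
        have h00 : (((t : SL(2, F)) * (slCx F).u c : SL(2, F)) : Matrix (Fin 2) (Fin 2) F) 0 0 = ((t : SL(2, F)) : Matrix (Fin 2) (Fin 2) F) 0 0 :=
          (slCx F).tu00 t c
        have h11 : (((t : SL(2, F)) * (slCx F).u c : SL(2, F)) : Matrix (Fin 2) (Fin 2) F) 1 1 = ((t : SL(2, F)) : Matrix (Fin 2) (Fin 2) F) 1 1 :=
          (slCx F).tu11 t c
        have hne : ((t : SL(2, F)) : Matrix (Fin 2) (Fin 2) F) 0 0 ≠ ((t : SL(2, F)) : Matrix (Fin 2) (Fin 2) F) 1 1 :=
          (slCx F).not_Z_iff t |>.mp htz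
        have hd := SL2.det_rel (t : SL(2, F))
        have h01 : ((t : SL(2, F)) : Matrix (Fin 2) (Fin 2) F) 0 1 = 0 := t.2.1
        rw [h01] at hd
        simp only [SL2.tr, h00, h11]
        intro h
        apply hne
        have h5 : (((t : SL(2, F)) : Matrix (Fin 2) (Fin 2) F) 0 0 - ((t : SL(2, F)) : Matrix (Fin 2) (Fin 2) F) 1 1) ^ 2 = 0 := by
          linear_combination h - 4 * hd
        have := pow_eq_zero_iff (two_ne_zero) |>.mp h5
        linear_combination this
      rw [S.del_zero_of_tr htr]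
      simp

/-- The norm of the difference of values at `u`. -/
theorem del_norm : del a b ((slCx F).u 1) * conj (del a b ((slCx F).u 1)) = (q : ℂ) := by
  classical
  have hn : classInner (del a b) (del a b) = 2 := by
    have e : del a b = (a : SL(2, F) → ℂ) - (b : SL(2, F) → ℂ) := rfl
    rw [e, classInner_sub_left, classInner_sub_right, classInner_sub_right, classInner_irr_self a.2,
      classInner_irr_self b.2, classInner_irr a.2 b.2, classInner_irr b.2 a.2,
      if_neg (fun e => S.hab (Subtype.ext e)), if_neg (fun e => S.hab (Subtype.ext e).symm)]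
    norm_num
  rw [classInner_def, Finset.sum_congr rfl (fun g _ => S.del_cases g)] at hn
  have h3 : ∑ g : SL(2, F), (if (slCx F).R 1 g = 1 then
      del a b ((slCx F).u 1) * conj (del a b ((slCx F).u 1)) else 0) =
      (del a b ((slCx F).u 1) * conj (del a b ((slCx F).u 1))) *
        ∑ g : SL(2, F), (if (slCx F).R 1 g = 1 then (1 : ℂ) else 0) := by
    rw [Finset.mul_sum]
    refine Finset.sum_congr rfl fun g _ => ?_
    split_ifs <;> simp
  rw [h3, S.sum_if_R1 S.h2, (slCx F).card_G_c] at hn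
  have hδ : (((slCx F).δ : ℕ) : ℂ) = 1 := by
    have : (slCx F).δ = 1 := rfl
    rw [this]
    simp
  rw [hδ] at hn
  have hq0 : (q : ℂ) ≠ 0 := Cx.q_ne F
  have hq1 : (q : ℂ) - 1 ≠ 0 := Cx.q1_ne F
  have hq2 : (q : ℂ) + 1 ≠ 0 := Cx.qp_ne F
  field_simp at hn
  have h5 : (q : ℂ) ^ 2 - 1 ≠ 0 := by
    have : (q : ℂ) ^ 2 - 1 = ((q : ℂ) - 1) * ((q : ℂ) + 1) := by ring
    rw [this]
    exact mul_ne_zero hq1 hq2
  apply mul_right_cancel₀ h5
  linear_combination hn

/-- The conjugate of the difference. -/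
theorem del_conj : conj (del a b ((slCx F).u 1)) =
    (-1 : ℂ) ^ ((q - 1) / 2) * del a b ((slCx F).u 1) := by
  have hq1 := sl_q_odd S.h2
  have hinv : conj (del a b ((slCx F).u 1)) = del a b ((slCx F).u (-1)) := by
    simp only [del]
    rw [map_sub, (slCx F).u_neg,
      Cfsg.Agent.Lib.Char.IsCharacter.map_inv' (IsIrrCharacter.isCharacter a.2),
      Cfsg.Agent.Lib.Char.IsCharacter.map_inv' (IsIrrCharacter.isCharacter b.2)]
  rw [hinv]
  by_cases hs : IsSquare (-1 : F)
  · have h4 : q % 4 ≠ 3 := FiniteField.isSquare_neg_one_iff.mp hs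
    have h5 : Even ((q - 1) / 2) := by
      rw [Nat.even_iff]
      omega
    rw [h5.neg_one_pow, one_mul]
    apply del_isConj
    apply u_isConj (by simp) one_ne_zero
    simpa using hs
  · have h4 : q % 4 = 3 := by
      by_contra h
      exact hs (FiniteField.isSquare_neg_one_iff.mpr h)
    have h5 : Odd ((q - 1) / 2) := by
      rw [Nat.odd_iff]
      omega
    rw [h5.neg_one_pow]
    have h0 : (-1 : F) ≠ 0 := by simp
    have h1 := S.del_swap (-1) hs h0 ((slCx F).u 1)
    rw [cx_x0_u, mul_one] at h1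
    rw [h1]
    ring

/-- The square of the difference. -/
theorem del_sq : del a b ((slCx F).u 1) ^ 2 = (-1 : ℂ) ^ ((q - 1) / 2) * (q : ℂ) := by
  have h1 := S.del_norm
  rw [S.del_conj] at h1
  have h3 : ((-1 : ℂ) ^ ((q - 1) / 2)) * ((-1 : ℂ) ^ ((q - 1) / 2)) = 1 := by
    rw [← mul_pow]
    simp
  rw [← h1]
  calc del a b ((slCx F).u 1) ^ 2 = (((-1 : ℂ) ^ ((q - 1) / 2)) * ((-1 : ℂ) ^ ((q - 1) / 2))) * del a b ((slCx F).u 1) ^ 2 := by
        rw [h3, one_mul]
    _ = _ := by ring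

end SwapPair

namespace OddPack

variable (P : OddPack F)

lemma xi_swapPair (h2 : (2 : F) ≠ 0) : SwapPair P.ξ₁ P.ξ₂ where
  h2 := h2
  hab := P.hξ
  hsum x g := by rw [← R_eq, ← R_eq, R_cx h2]
  hswap ν₀ hν h0 g := P.xi_swap h2 hν h0 g

lemma eta_swapPair (h2 : (2 : F) ≠ 0) : SwapPair P.η₁ P.η₂ where
  h2 := h2
  hab := P.hη
  hsum x g := by
    have hl := (slCx F).lab_comp P.θ₀
    rw [← chi_eq, ← chi_eq, chi_cx h2 hl]
  hswap ν₀ hν h0 g := P.eta_swap h2 hν h0 g

lemma deg_half_succ (h2 : (2 : F) ≠ 0) (hq : 5 ≤ q) (χ : IrrCharacter SL(2, F))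
    (hd : (χ : SL(2, F) → ℂ) 1 = (((q + 1) / 2 : ℕ) : ℂ)) : χ = P.ξ₁ ∨ χ = P.ξ₂ := by
  have hq1 := sl_q_odd h2
  obtain ⟨n, hn, h⟩ := P.cases_deg χ
  rw [hn] at hd
  have hd' : n = (q + 1) / 2 := by exact_mod_cast hd
  rcases h with h | h | h | h | h | h
  · omega
  · omega
  · omega
  · omega
  · exact h.2
  · omega

lemma deg_half_pred (h2 : (2 : F) ≠ 0) (hq : 5 ≤ q) (χ : IrrCharacter SL(2, F))
    (hd : (χ : SL(2, F) → ℂ) 1 = (((q - 1) / 2 : ℕ) : ℂ)) : χ = P.η₁ ∨ χ = P.η₂ := by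
  have hq1 := sl_q_odd h2
  obtain ⟨n, hn, h⟩ := P.cases_deg χ
  rw [hn] at hd
  have hd' : n = (q - 1) / 2 := by exact_mod_cast hd
  rcases h with h | h | h | h | h | h
  · omega
  · omega
  · omega
  · omega
  · omega
  · exact h.2

end OddPack

/-- `u` in matrix form. -/
lemma u_one_eq {u : SL(2, F)} (hu : (u : Matrix (Fin 2) (Fin 2) F) = !![1, 1; 0, 1]) : u = (slCx F).u 1 := by
  apply SL2.ext4
  · rw [slu00, hu]; rfl
  · rw [slu01, hu]; rfl
  · rw [slu10, hu]; rfl
  · rw [slu11, hu]; rfl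

end Cfsg.Agent.Lib.KS2.RK
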