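import Mathlib
import Cfsg.Agent.Lib.KS2.SLGauss

set_option autoImplicit false
set_option linter.unusedSimpArgs false
set_option linter.unusedVariables false
set_option linter.unusedSectionVars false

namespace Cfsg.Agent.Lib.KS2.RK

open Matrix Cfsg Cfsg.Agent.Lib.Char
open scoped MatrixGroups ComplexConjugate

variable {F : Type*} [Field F] [Fintype F] [Fintype SL(2, F)]

local notation "q" => (Fintype.card F)

lemma sum_U [DecidableEq F] (f : SL(2, F) → ℂ) :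
    (∑ g : SL(2, F), if (g : Matrix (Fin 2) (Fin 2) F) 1 0 = 0 ∧ (g : Matrix (Fin 2) (Fin 2) F) 0 0 = 1 ∧
      (g : Matrix (Fin 2) (Fin 2) F) 1 1 = 1 then f g else 0) = ∑ c : F, f ((slCx F).u c) := by
  rw [← Finset.sum_filter]
  symm
  apply Finset.sum_nbij (fun c => (slCx F).u c)
  · intro c _
    simp only [Finset.mem_filter, Finset.mem_univ, true_and]
    exact ⟨slu10 c, slu00 c, slu11 c⟩
  · intro c _ d _ h
    have := congrArg (fun g : SL(2, F) => (g : Matrix (Fin 2) (Fin 2) F) 0 1) h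
    simpa only [slu01] using this
  · intro g hg
    simp only [Finset.coe_filter, Finset.mem_univ, true_and, Set.mem_setOf_eq] at hg
    refine ⟨(g : Matrix (Fin 2) (Fin 2) F) 0 1, by simp, ?_⟩
    apply SL2.ext4
    · rw [slu00, hg.2.1]
    · rw [slu01]
    · rw [slu10, hg.1]
    · rw [slu11, hg.2.2]
  · intro c _
    rfl

lemma sum_u_const {f : SL(2, F) → ℂ} {κ : ℂ} (h : ∀ c : F, c ≠ 0 → f ((slCx F).u c) = κ) :
    ∑ c : F, f ((slCx F).u c) = f 1 + ((q : ℂ) - 1) * κ := by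
  classical
  rw [← Finset.add_sum_erase Finset.univ _ (Finset.mem_univ (0 : F)), (slCx F).u_zero]
  congr 1
  rw [Finset.sum_congr rfl (fun c hc => h c (Finset.ne_of_mem_erase hc)), Finset.sum_const,
    Finset.card_erase_of_mem (Finset.mem_univ _), Finset.card_univ, nsmul_eq_mul, Cx.qsub_cast]

lemma sum_swap (h2 : (2 : F) ≠ 0) {a b : IrrCharacter SL(2, F)} (S : SwapPair a b) :
    ∑ c : F, (a : SL(2, F) → ℂ) ((slCx F).u c) = ∑ c : F, (b : SL(2, F) → ℂ) ((slCx F).u c) := by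
  obtain ⟨ν₀, hν, h0⟩ := exists_nonsq h2
  rw [← Equiv.sum_comp (Equiv.mulLeft₀ ν₀ h0) (fun c => (a : SL(2, F) → ℂ) ((slCx F).u c))]
  refine Finset.sum_congr rfl fun c _ => ?_
  rw [← S.hswap ν₀ hν h0, cx_x0_u]
  rfl

lemma sum_half (h2 : (2 : F) ≠ 0) {a b : IrrCharacter SL(2, F)} (S : SwapPair a b) {A : ℂ}
    (hA : ∑ c : F, ((a : SL(2, F) → ℂ) ((slCx F).u c) + (b : SL(2, F) → ℂ) ((slCx F).u c)) = 2 * A) :
    ∑ c : F, (a : SL(2, F) → ℂ) ((slCx F).u c) = A ∧ ∑ c : F, (b : SL(2, F) → ℂ) ((slCx F).u c) = A := by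
  have h1 := sum_swap h2 S
  rw [Finset.sum_add_distrib, ← h1] at hA
  have h3 : ∑ c : F, (a : SL(2, F) → ℂ) ((slCx F).u c) = A := by
    have : (2 : ℂ) * ∑ c : F, (a : SL(2, F) → ℂ) ((slCx F).u c) = 2 * A := by
      rw [← hA]
      ring
    exact mul_left_cancel₀ two_ne_zero this
  exact ⟨h3, h1 ▸ h3⟩

end Cfsg.Agent.Lib.KS2.RK
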