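import Mathlib
import Cfsg.Agent.Lib.KS2.SLSum

set_option autoImplicit false
set_option linter.unusedSimpArgs false
set_option linter.unusedVariables false
set_option linter.unusedSectionVars false

namespace Cfsg.Agent.Lib.KS2.RK

open Matrix Cfsg Cfsg.Agent.Lib.Char
open scoped MatrixGroups ComplexConjugate

universe u

/-- A quadratic character of a cyclic group in terms of the power map. -/
theorem cyclic_quad {G : Type u} [Group G] [Finite G] [IsCyclic G] {m : ℕ} (hG : Nat.card G = 2 * m)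
    (hm : 0 < m) (θ : G →* ℂˣ) (h1 : θ ≠ 1) (h2 : ∀ t, θ t ^ 2 = 1) (t : G) :
    (t ^ m = 1 → θ t = 1) ∧ (t ^ m ≠ 1 → θ t = -1) := by
  obtain ⟨c, hc⟩ := IsCyclic.exists_generator (α := G)
  have hord : orderOf c = 2 * m := by
    rw [orderOf_eq_card_of_forall_mem_zpowers hc, hG]
  have hpow : ∀ x : G, ∃ k : ℕ, c ^ k = x := fun x => (mem_powers_iff_mem_zpowers).2 (hc x)
  have hc1 : θ c ≠ 1 := by
    intro h
    apply h1
    ext x
    obtain ⟨k, rfl⟩ := hpow x
    simp [h]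
  have hcm : θ c = -1 := by
    have h3 : (θ c - 1 : ℂ) * (θ c + 1 : ℂ) = 0 := by
      have := congrArg Units.val (h2 c)
      simp only [Units.val_pow_eq_pow_val, Units.val_one] at this
      linear_combination this
    rcases mul_eq_zero.mp h3 with h5 | h5
    · exfalso
      apply hc1
      apply Units.ext
      simpa using sub_eq_zero.mp h5
    · apply Units.ext
      simp only [Units.val_neg, Units.val_one]
      linear_combination h5
  obtain ⟨k, rfl⟩ := hpow t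
  have hiff : (c ^ k) ^ m = 1 ↔ 2 ∣ k := by
    rw [← pow_mul, ← orderOf_dvd_iff_pow_eq_one, hord, mul_comm 2 m, mul_comm k m]
    exact Nat.mul_dvd_mul_iff_left hm
  constructor
  · intro h
    obtain ⟨r, rfl⟩ := hiff.mp h
    rw [map_pow, hcm, pow_mul]
    simp
  · intro h
    have hk : ¬ 2 ∣ k := fun h5 => h (hiff.mpr h5)
    have hodd : Odd k := by
      rw [Nat.odd_iff]
      omega
    rw [map_pow, hcm, hodd.neg_one_pow]

variable {F : Type*} [Field F] [Fintype F]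

local notation "q" => (Fintype.card F)

lemma sl_T_eq_torus : (slCx F).T = SL2.torus 1 (slCx F).ν := by
  ext g
  rw [(slCx F).mem_T, SL2.mem_torus, one_mul]
  rfl

instance T_isCyclic : IsCyclic (slCx F).T := by
  rw [sl_T_eq_torus]
  exact SL2.torus_isCyclic 1 _ (slCx F).hν

lemma card_T_sl : Nat.card (slCx F).T = q + 1 := by
  have := (slCx F).hT
  rw [this]
  show 1 * (q + 1) = q + 1
  ring

/-- The quadratic character as a multiplicative character with complex values. -/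
noncomputable def quadC (F : Type*) [Field F] [Fintype F] [DecidableEq F] : MulChar F ℂ :=
  (quadraticChar F).ringHomComp (Int.castRingHom ℂ)

section quad

variable [DecidableEq F]

lemma quadC_apply (a : F) : quadC F a = ((quadraticChar F a : ℤ) : ℂ) := by
  rw [quadC, MulChar.ringHomComp_apply]
  rfl

lemma quadC_sq : (quadC F) ^ 2 = 1 := by
  ext a
  rw [MulChar.pow_apply_coe, quadC_apply, MulChar.one_apply_coe]
  have h := quadraticChar_sq_one (F := F) a.ne_zero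
  have := congrArg (fun z : ℤ => (z : ℂ)) h
  simpa using this

lemma quadC_ne (h2 : (2 : F) ≠ 0) : quadC F ≠ 1 := by
  obtain ⟨a, ha⟩ := FiniteField.exists_nonsquare (F := F) (fun h => h2 (two_eq_zero_iff.mpr h))
  intro e
  have h0 : a ≠ 0 := fun h => ha (h ▸ IsSquare.zero)
  have h1 : quadC F a = -1 := by
    rw [quadC_apply, (quadraticChar_neg_one_iff_not_isSquare).mpr ha]
    simp
  rw [e, MulChar.one_apply (Ne.isUnit h0)] at h1
  norm_num at h1

end quad

variable [Fintype SL(2, F)]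

lemma OddPack.l₀_eq (P : OddPack F) (α : MulChar F ℂ) (hα : α ^ 2 = 1) (hα1 : α ≠ 1) : slLab α = P.l₀ := by
  have hinv : α⁻¹ = α := by
    have : α * α = 1 := by rw [← pow_two]; exact hα
    exact (eq_inv_of_mul_eq_one_left this).symm
  have hfix : slLab α = (slLab α).comp (slLike F).sg := by
    rw [slLab_sg, hinv]
  have h1 : slLab α ≠ 1 := by
    intro e
    apply hα1
    ext a
    have := congrArg (fun l : (slLike F).D →* ℂˣ => ((l (slDiag a) : ℂˣ) : ℂ)) e
    simpa only [slLab_val, MonoidHom.one_apply, Units.val_one, slDiag00, MulChar.one_apply_coe] using this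
  rcases P.hl₀u (slLab α) hfix with h | h
  · exact absurd h h1
  · exact h

/-- The sign value on diagonal elements. -/
lemma OddPack.l₀_val (P : OddPack F) (h2 : (2 : F) ≠ 0) (t : (slCx F).D) :
    (IsSquare (((t : SL(2, F)) : Matrix (Fin 2) (Fin 2) F) 0 0) → ((P.l₀ t : ℂˣ) : ℂ) = 1) ∧
    (¬ IsSquare (((t : SL(2, F)) : Matrix (Fin 2) (Fin 2) F) 0 0) → ((P.l₀ t : ℂˣ) : ℂ) = -1) := by
  classical
  rw [← P.l₀_eq (quadC F) quadC_sq (quadC_ne h2)]
  have h0 : ((t : SL(2, F)) : Matrix (Fin 2) (Fin 2) F) 0 0 ≠ 0 := (slCx F).e00_ne_of_mem t.2.2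
  constructor
  · intro hs
    have e := slLab_val (quadC F) t
    refine e.trans ?_
    show quadC F (((t : SL(2, F)) : Matrix (Fin 2) (Fin 2) F) 0 0) = 1
    rw [quadC_apply, (quadraticChar_one_iff_isSquare h0).mpr hs]
    simp
  · intro hs
    have e := slLab_val (quadC F) t
    refine e.trans ?_
    show quadC F (((t : SL(2, F)) : Matrix (Fin 2) (Fin 2) F) 0 0) = -1
    rw [quadC_apply, (quadraticChar_neg_one_iff_not_isSquare).mpr hs]
    simp

/-- The values of the half-degree principal series at diagonal elements. -/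
lemma OddPack.xi_diag (P : OddPack F) (h2 : (2 : F) ≠ 0) {g : SL(2, F)}
    (h01 : (g : Matrix (Fin 2) (Fin 2) F) 0 1 = 0) (h10 : (g : Matrix (Fin 2) (Fin 2) F) 1 0 = 0)
    (h3 : (g : Matrix (Fin 2) (Fin 2) F) 0 0 ^ 2 ≠ 1) :
    (P.ξ₁ : SL(2, F) → ℂ) g = ((P.l₀ ⟨g, h01, h10⟩ : ℂˣ) : ℂ) ∧
    (P.ξ₂ : SL(2, F) → ℂ) g = ((P.l₀ ⟨g, h01, h10⟩ : ℂˣ) : ℂ) := by
  have ht : g ∉ (slCx F).Z := by
    intro hz
    apply h3
    have hd := SL2.det_rel g
    rw [h01, h10] at hd
    have hz3 : (g : Matrix (Fin 2) (Fin 2) F) 0 0 = (g : Matrix (Fin 2) (Fin 2) F) 1 1 := hz.2.2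
    rw [← hz3] at hd
    rw [pow_two]
    linear_combination hd
  have hnt := tr_sq_ne_of_diag h01 h10 h3
  have hR := (slCx F).R_diag P.l₀ ⟨g, h01, h10⟩ ht
  have hfix : P.l₀ ((slCx F).sg ⟨g, h01, h10⟩) = P.l₀ ⟨g, h01, h10⟩ :=
    (congrArg (fun l : (slCx F).D →* ℂˣ => l ⟨g, h01, h10⟩) P.hl₀).symm
  rw [hfix] at hR
  constructor
  · rw [P.xi₁_half h2 hnt]
    rw [show (slCx F).R P.l₀ g = _ from hR]
    ring
  · rw [P.xi₂_half h2 hnt]
    rw [show (slCx F).R P.l₀ g = _ from hR]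
    ring

/-- The values of the half-degree cuspidal series at elements without eigenvectors. -/
lemma OddPack.eta_NE (P : OddPack F) (h2 : (2 : F) ≠ 0) {g : SL(2, F)} (hg : (slCx F).NE g) :
    ∃ t : (slCx F).T, IsConj g (t : SL(2, F)) ∧
      (P.η₁ : SL(2, F) → ℂ) g = -((P.θ₀ t : ℂˣ) : ℂ) ∧ (P.η₂ : SL(2, F) → ℂ) g = -((P.θ₀ t : ℂˣ) : ℂ) := by
  obtain ⟨t, ht, hc, hv⟩ := chi_of_NE (l := (slCx F).lab P.θ₀) (θ := P.θ₀) hg
  have hnt := tr_sq_ne_of_NE h2 hg
  have hfix : P.θ₀ ((slCx F).sgT t) = P.θ₀ t :=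
    (congrArg (fun l : (slCx F).T →* ℂˣ => l t) P.hθ₀).symm
  rw [sgT_eq_inv, map_inv] at hfix
  rw [hfix] at hv
  refine ⟨t, hc, ?_, ?_⟩
  · rw [P.eta₁_half h2 hnt, hv]
    ring
  · rw [P.eta₂_half h2 hnt, hv]
    ring

lemma OddPack.θ₀_sq (P : OddPack F) (t : (slCx F).T) : P.θ₀ t ^ 2 = 1 := by
  have hfix : P.θ₀ ((slCx F).sgT t) = P.θ₀ t :=
    (congrArg (fun l : (slCx F).T →* ℂˣ => l t) P.hθ₀).symm
  rw [sgT_eq_inv, map_inv] at hfix
  rw [pow_two]
  nth_rewrite 1 [← hfix]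
  exact inv_mul_cancel _

/-- The value of the quadratic label on the torus. -/
lemma OddPack.θ₀_val (P : OddPack F) (h2 : (2 : F) ≠ 0) (t : (slCx F).T) :
    (t ^ ((q + 1) / 2) = 1 → P.θ₀ t = 1) ∧ (t ^ ((q + 1) / 2) ≠ 1 → P.θ₀ t = -1) := by
  have hq1 := sl_q_odd h2
  have hq3 := sl_q_three h2
  exact cyclic_quad (m := (q + 1) / 2) (by rw [card_T_sl]; omega) (by omega) P.θ₀ P.hθ₀1 P.θ₀_sq t

end Cfsg.Agent.Lib.KS2.RK
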