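import Mathlib
import Cfsg.Agent.Lib.KS2.SLQuad

set_option autoImplicit false
set_option linter.unusedSimpArgs false
set_option linter.unusedVariables false
set_option linter.unusedSectionVars false

namespace Cfsg.Agent.Lib.KS2.RK

open Matrix Cfsg Cfsg.Agent.Lib.Char
open scoped MatrixGroups ComplexConjugate

variable {F : Type*} [Field F] [Fintype F] [Fintype SL(2, F)]

local notation "q" => (Fintype.card F)

lemma mem_Z_iff_center {g : SL(2, F)} : g ∈ (slCx F).Z ↔ g ∈ Subgroup.center SL(2, F) :=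
  SL2.isScalar_iff_center g

/-- Cyclic subgroups of order `q + 1` are conjugate to the torus. -/
theorem exists_torus_iso (h2 : (2 : F) ≠ 0) (C : Subgroup SL(2, F)) (hC : IsCyclic C)
    (hcard : Nat.card C = q + 1) :
    ∃ (x : SL(2, F)) (φ : C ≃* (slCx F).T), ∀ c : C, ((φ c : (slCx F).T) : SL(2, F)) = x⁻¹ * c * x := by
  classical
  have hq3 := sl_q_three h2
  obtain ⟨c₀, hc₀⟩ := hC.exists_generator
  have hord : orderOf (c₀ : SL(2, F)) = q + 1 := by
    rw [Subgroup.orderOf_coe, orderOf_eq_card_of_forall_mem_zpowers hc₀, hcard]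
  have hNE : (slCx F).NE (c₀ : SL(2, F)) := by
    by_contra hn
    obtain ⟨x, hx⟩ := (slCx F).exists_conj_H hn
    have h1 : orderOf (x⁻¹ * (c₀ : SL(2, F)) * x) = q + 1 := by
      rw [← hord]
      have : x⁻¹ * (c₀ : SL(2, F)) * x = MulAut.conj x⁻¹ (c₀ : SL(2, F)) := by
        simp [MulAut.conj_apply]
      rw [this, MulEquiv.orderOf_eq]
    have h3 : orderOf (⟨_, hx⟩ : (slCx F).H) = q + 1 := by
      rw [← h1, ← Subgroup.orderOf_coe]
    have h4 : q + 1 ∣ Nat.card (slCx F).H := h3 ▸ orderOf_dvd_natCard _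
    rw [(slCx F).card_H_eq] at h4
    have h5 : (slCx F).δ = 1 := rfl
    rw [h5, one_mul] at h4
    obtain ⟨r, hr⟩ : ∃ r, q = r + 3 := ⟨q - 3, by omega⟩
    rw [hr] at h4
    have h6 : (r + 3 - 1) * (r + 3) = (r + 3 + 1) * (r + 1) + 2 := by
      have : r + 3 - 1 = r + 2 := by omega
      rw [this]
      ring
    rw [h6] at h4
    have h7 : r + 3 + 1 ∣ 2 := (Nat.dvd_add_right (Nat.dvd_mul_right _ _)).mp h4
    have := Nat.le_of_dvd (by norm_num) h7
    omega
  obtain ⟨x, hx⟩ := (slCx F).NE_conj_T hNE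
  have hmem : ∀ c : C, x⁻¹ * (c : SL(2, F)) * x ∈ (slCx F).T := by
    intro c
    obtain ⟨k, hk⟩ := Subgroup.mem_zpowers_iff.mp (hc₀ c)
    rw [← hk, Subgroup.coe_zpow]
    have : x⁻¹ * (c₀ : SL(2, F)) ^ k * x = (x⁻¹ * (c₀ : SL(2, F)) * x) ^ k := by
      have := conj_zpow (a := x⁻¹) (b := (c₀ : SL(2, F))) (i := k)
      simpa using this.symm
    rw [this]
    exact (slCx F).T.zpow_mem hx k
  let f : C →* (slCx F).T :=
    { toFun := fun c => ⟨x⁻¹ * c * x, hmem c⟩
      map_one' := by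
        apply Subtype.ext
        simp
      map_mul' := fun a b => by
        apply Subtype.ext
        simp only [Subgroup.coe_mul]
        group }
  have hinj : Function.Injective f := by
    intro a b h
    have h1 : x⁻¹ * (a : SL(2, F)) * x = x⁻¹ * (b : SL(2, F)) * x := congrArg Subtype.val h
    apply Subtype.ext
    exact mul_left_cancel (mul_right_cancel h1)
  have hbij : Function.Bijective f :=
    (Nat.bijective_iff_injective_and_card f).mpr ⟨hinj, by rw [hcard, card_T_sl]⟩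
  exact ⟨x, MulEquiv.ofBijective f hbij, fun c => rfl⟩

lemma NE_of_T {t : SL(2, F)} (ht : t ∈ (slCx F).T) (hz : t ∉ (slCx F).Z) : (slCx F).NE t := by
  intro p r hpr
  exact (slCx F).T_no_eig ht (fun h => hz (((slCx F).mem_Z_of_T ht).mpr h)) p r hpr

/-- Central multiplicativity of the cuspidal characters. -/
lemma chi_central {l : (slCx F).D →* ℂˣ} {θ : (slCx F).T →* ℂˣ} (hl : (slCx F).Comp l θ)
    (hθ : θ ≠ θ.comp (slCx F).sgT) (z : (slCx F).Z) (g : SL(2, F)) :
    (slCx F).chi l θ ((z : SL(2, F)) * g) = ((θ ((slCx F).zT z) : ℂˣ) : ℂ) * (slCx F).chi l θ g := by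
  classical
  letI : Fintype (slCx F).Z := Fintype.ofFinite _
  obtain ⟨κ, hκ⟩ := char_central_mul ((slCx F).chi_irr hl hθ) (z : SL(2, F)) ((slCx F).Z_comm z.2)
  have h1 := hκ 1
  rw [mul_one, (slCx F).chi_z hl, (slCx F).chi_one hl] at h1
  have hq1 : (q : ℂ) - 1 ≠ 0 := Cx.q1_ne F
  have h3 : κ = ((θ ((slCx F).zT z) : ℂˣ) : ℂ) := by
    apply mul_right_cancel₀ hq1
    rw [← h1]
    ring
  rw [hκ, h3]

end Cfsg.Agent.Lib.KS2.RK
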