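import Mathlib
import Cfsg.Agent.Lib.KS2.IsoSU
import Cfsg.Agent.Lib.Classical.OrderUnitary
import Cfsg.Agent.Lib.Classical.FramesHerm
import Cfsg.Agent.Lib.Classical.HermAbs

/-!
An element of prime order acting nontrivially on a (skew-)Hermitian space obtained from the image of a
(skew-)self-adjoint operator: its order divides the order of a unitary group of the right degree.
-/

set_option autoImplicit false
set_option linter.unusedSectionVars false
set_option linter.unusedVariables false

namespace Cfsg.Agent.Lib.KS2.SUComm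

open Matrix Cfsg.Agent.Lib.Classical Cfsg.Agent.Lib.Classical.Abs

variable {F : Type*} [Field F] [Fintype F] {q m : ℕ}

lemma herm_zero_right' (hF : Fintype.card F = q ^ 2) (u : Fin m → F) : Cfsg.hermForm m F q u 0 = 0 := by
  have := one_lt_q hF
  simp [Cfsg.hermForm, zero_pow (show q ≠ 0 by omega)]

lemma herm_zero_left' (u : Fin m → F) : Cfsg.hermForm m F q 0 u = 0 := by
  simp [Cfsg.hermForm]

theorem dvd_card_GU (hF : Fintype.card F = q ^ 2) (L C : (Fin m → F) →ₗ[F] (Fin m → F)) {ε : F} (hε : ε * ε = 1)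
    (hεq : ε ^ q = ε)
    (hL : ∀ u v, Cfsg.hermForm m F q (L u) v = ε * Cfsg.hermForm m F q u (L v))
    (hC : ∀ u v, Cfsg.hermForm m F q (C u) (C v) = Cfsg.hermForm m F q u v) (hLC : ∀ u, L (C u) = C (L u))
    {r : ℕ} (hr : r.Prime) (hCr : ∀ u, (C ^ r) u = u)
    (hfix : ∀ x ∈ LinearMap.range L, C x = x → x = 0) (hne : L ≠ 0) :
    r ∣ Nat.card (Cfsg.GU (Module.finrank F (LinearMap.range L)) F q) := by
  classical
  haveI : Fact r.Prime := ⟨hr⟩
  have hε0 : ε ≠ 0 := by
    rintro rfl
    simp at hε
  -- the section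
  obtain ⟨s', hs'⟩ := LinearMap.exists_rightInverse_of_surjective L.rangeRestrict (LinearMap.range_rangeRestrict L)
  have hs : ∀ x : LinearMap.range L, L (s' x) = x := by
    intro x
    have := LinearMap.congr_fun hs' x
    exact congrArg Subtype.val this
  -- the scalar
  obtain ⟨t, ht0, ht⟩ := IsoCl.hilbert90 hF (u := ε) (by rw [conjQ_apply, hεq, hε])
  set c : F := conjQ hF t with hc
  have hc0 : c ≠ 0 := by
    rw [hc]
    exact (map_ne_zero _).mpr ht0
  have hcc : conjQ hF c = c * ε := by
    have h1 : conjQ hF c = t := conjQ_conjQ hF t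
    have h2 : ε * t = c := ht
    rw [h1, ← h2]
    linear_combination (-t) * hε
  -- vanishing on the kernel
  have hk1 : ∀ (x : LinearMap.range L) (κ : Fin m → F), L κ = 0 → Cfsg.hermForm m F q (x : Fin m → F) κ = 0 := by
    intro x κ hκ
    rw [← hs x, hL, hκ, herm_zero_right' hF, mul_zero]
  -- the form
  let B : LinearMap.range L →ₛₗ[conjQ hF] LinearMap.range L →ₗ[F] F :=
    LinearMap.mk₂'ₛₗ (conjQ hF) (RingHom.id F) (fun x y => c * Cfsg.hermForm m F q (y : Fin m → F) (s' x))
      (fun x x' y => by
        rw [map_add, hermForm_add_right hF, mul_add])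
      (fun a x y => by
        rw [map_smul, hermForm_smul_right]
        simp only [conjQ_apply, smul_eq_mul]
        ring)
      (fun x y y' => by
        rw [Submodule.coe_add, hermForm_add_left hF, mul_add])
      (fun a x y => by
        rw [Submodule.coe_smul, hermForm_smul_left]
        simp only [RingHom.id_apply, smul_eq_mul]
        ring)
  have hB : ∀ x y, B x y = c * Cfsg.hermForm m F q (y : Fin m → F) (s' x) := fun _ _ => rfl
  have hS : B.IsSymm := by
    refine ⟨fun x y => ?_⟩
    rw [hB, hB, map_mul, hcc]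
    change c * ε * (Cfsg.hermForm m F q (y : Fin m → F) (s' x)) ^ q = _
    rw [hermForm_symm hF]
    have h1 := hL (s' x) (s' y)
    rw [hs x, hs y] at h1
    rw [h1]
    ring
  have hnd : B.Nondegenerate := by
    constructor
    · intro x hx
      apply Subtype.ext
      apply hermForm_nondeg_right hF
      intro u
      have h1 := hx ⟨L u, LinearMap.mem_range_self L u⟩
      rw [hB] at h1
      have h2 := (mul_eq_zero.mp h1).resolve_left hc0
      have h3 := hL u (s' x)
      rw [hs x] at h3
      simp only at h2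
      rw [h2] at h3
      exact ((mul_eq_zero.mp h3.symm).resolve_left hε0)
    · intro y hy
      apply Subtype.ext
      apply hermForm_nondeg_left hF
      intro v
      have h1 := hy ⟨L v, LinearMap.mem_range_self L v⟩
      rw [hB] at h1
      have h2 := (mul_eq_zero.mp h1).resolve_left hc0
      have h3 : v = s' ⟨L v, LinearMap.mem_range_self L v⟩ + (v - s' ⟨L v, LinearMap.mem_range_self L v⟩) := by abel
      rw [h3, hermForm_add_right hF, h2, zero_add]
      apply hk1
      rw [map_sub, hs]
      simp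
  set w := Module.finrank F (LinearMap.range L) with hw
  obtain ⟨e, he⟩ := Witt.exists_orthonormal (conjQ hF) (conjQ_ne_id hF) (conjQ_conjQ hF) w (LinearMap.range L) B hS hnd hw.symm
  -- coordinates
  let Φ : (Fin w → F) →ₗ[F] LinearMap.range L := ∑ i, (LinearMap.proj i).smulRight (e i)
  have hΦ : ∀ a, Φ a = ∑ i, a i • e i := by
    intro a
    simp [Φ, LinearMap.sum_apply]
  have hBΦ : ∀ a b, B (Φ a) (Φ b) = Cfsg.hermForm w F q b a := by
    intro a b
    rw [hΦ, hΦ]
    simp only [map_sum, LinearMap.sum_apply, LinearMap.map_smulₛₗ, LinearMap.smul_apply, map_smul, he, smul_eq_mul, Cfsg.hermForm]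
    refine Finset.sum_congr rfl fun i _ => ?_
    rw [Finset.sum_eq_single i]
    · simp only [if_true, conjQ_apply]
      ring
    · intro j _ hj
      simp [hj]
    · simp
  have hΦinj : Function.Injective Φ := by
    rw [injective_iff_map_eq_zero]
    intro a ha
    apply hermForm_nondeg_right hF
    intro b
    rw [← hBΦ, ha]
    simp
  let Φe : (Fin w → F) ≃ₗ[F] LinearMap.range L :=
    LinearMap.linearEquivOfInjective Φ hΦinj (by simp [hw])
  have hΦe : ∀ a, Φe a = Φ a := fun a => rfl
  -- the action
  have hCI : ∀ x ∈ LinearMap.range L, C x ∈ LinearMap.range L := by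
    rintro x ⟨a, rfl⟩
    exact ⟨C a, hLC a⟩
  let T : LinearMap.range L →ₗ[F] LinearMap.range L := C.restrict hCI
  have hT : ∀ x, (T x : Fin m → F) = C x := fun x => rfl
  have hCinj : Function.Injective C := by
    rw [injective_iff_map_eq_zero]
    intro u hu
    apply hermForm_nondeg_left hF
    intro v
    rw [← hC, hu, herm_zero_left']
  have hTinj : Function.Injective T := by
    intro a b hab
    apply Subtype.ext
    apply hCinj
    exact congrArg Subtype.val hab
  let Te : LinearMap.range L ≃ₗ[F] LinearMap.range L := LinearEquiv.ofInjectiveEndo T hTinj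
  have hTe : ∀ x, Te x = T x := fun x => rfl
  have hBT : ∀ x y, B (T x) (T y) = B x y := by
    intro x y
    rw [hB, hB]
    congr 1
    have h1 : Cfsg.hermForm m F q ((T y : Fin m → F)) (s' (T x)) = Cfsg.hermForm m F q (T y : Fin m → F) (C (s' x)) := by
      have h4 := hk1 (T y) (s' (T x) - C (s' x)) (by
        rw [map_sub, hs, hLC, hs, hT, sub_self])
      have h5 := hermForm_add_right hF (T y : Fin m → F) (C (s' x)) (s' (T x) - C (s' x))
      rw [add_sub_cancel] at h5
      rw [h5, h4, add_zero]
    rw [h1, hT, hC]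
  let τ : (Fin w → F) ≃ₗ[F] (Fin w → F) := Φe.trans (Te.trans Φe.symm)
  have hτ : ∀ a, Φ (τ a) = T (Φ a) := by
    intro a
    rw [← hΦe]
    change Φe (Φe.symm (Te (Φe a))) = _
    rw [LinearEquiv.apply_symm_apply, hTe, hΦe]
  have hτmem : τ ∈ isoG (Cfsg.hermForm w F q) := by
    intro u v
    rw [← hBΦ, ← hBΦ, hτ, hτ, hBT]
  let g : isoG (Cfsg.hermForm w F q) := ⟨τ, hτmem⟩
  have hgpow : ∀ (n : ℕ) (a : Fin w → F), (Φ ((g ^ n).1 a) : Fin m → F) = (C ^ n) (Φ a) := by
    intro n
    induction n with
    | zero =>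
      intro a
      simp
    | succ n ih =>
      intro a
      rw [pow_succ, pow_succ]
      change (Φ ((g ^ n).1 (τ a)) : Fin m → F) = (C ^ n) (C (Φ a))
      rw [ih, hτ, hT]
  have hgr : g ^ r = 1 := by
    apply Subtype.ext
    apply LinearEquiv.ext
    intro a
    apply hΦinj
    apply Subtype.ext
    rw [hgpow, hCr]
    rfl
  have hg1 : g ≠ 1 := by
    intro h1
    have hne' : (LinearMap.range L) ≠ ⊥ := by
      intro hb
      apply hne
      exact LinearMap.range_eq_bot.mp hb
    obtain ⟨x, hx, hx0⟩ := Submodule.exists_mem_ne_zero_of_ne_bot hne'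
    apply hx0
    apply hfix x hx
    have h2 : τ (Φe.symm ⟨x, hx⟩) = Φe.symm ⟨x, hx⟩ := by
      have := congrArg (fun z : isoG (Cfsg.hermForm w F q) => z.1 (Φe.symm ⟨x, hx⟩)) h1
      exact this
    have h3 := hτ (Φe.symm ⟨x, hx⟩)
    rw [h2, ← hΦe, LinearEquiv.apply_symm_apply] at h3
    have h4 := congrArg Subtype.val h3
    exact h4.symm
  have hord : orderOf g = r := orderOf_eq_prime hgr hg1
  have hdvd := orderOf_dvd_natCard g
  rw [hord] at hdvd
  rwa [Nat.card_congr (Cfsg.Agent.Lib.Classical.Frames.guE w F q).toEquiv]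

end Cfsg.Agent.Lib.KS2.SUComm
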