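import Mathlib
import Cfsg.Agent.Lib.KS2.SUComm1

/-!
Decomposition for two commuting isometries of coprime prime orders.
-/

set_option autoImplicit false
set_option linter.unusedSectionVars false
set_option linter.unusedVariables false

namespace Cfsg.Agent.Lib.KS2.SUComm

open Cfsg.Agent.Lib.Classical

variable {F : Type*} [Field F] [Fintype F] {q m : ℕ}

local notation "V" => (Fin m → F)
local notation "End" => Module.End F (Fin m → F)

/-- The adjoint of an isometry of finite order. -/
lemma iso_adj (A B : (Module.End F (Fin m → F))) (hA : ∀ u v, Cfsg.hermForm m F q (A u) (A v) = Cfsg.hermForm m F q u v)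
    (hAB : A * B = 1) (u v : Fin m → F) : Cfsg.hermForm m F q (A u) v = Cfsg.hermForm m F q u (B v) := by
  rw [← hA u (B v)]
  have : A (B v) = v := LinearMap.congr_fun hAB v
  rw [this]

lemma natCast_pow_q (hF : Fintype.card F = q ^ 2) (r : ℕ) : ((r : F)⁻¹) ^ q = (r : F)⁻¹ := by
  have : conjQ hF ((r : F)⁻¹) = (r : F)⁻¹ := by
    rw [map_inv₀, map_natCast]
  rwa [conjQ_apply] at this

section Avg

variable (hF : Fintype.card F = q ^ 2) (C : (Module.End F (Fin m → F))) (r : ℕ)

/-- The averaging operator. -/
noncomputable def E0 : (Module.End F (Fin m → F)) := ((r : F)⁻¹) • ∑ i ∈ Finset.range r, C ^ i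

include hF in
lemma C_mul_sum (hCr : C ^ r = 1) : C * ∑ i ∈ Finset.range r, C ^ i = ∑ i ∈ Finset.range r, C ^ i := by
  rw [Finset.mul_sum]
  have : ∀ n, C * ∑ i ∈ Finset.range n, C ^ i = ∑ i ∈ Finset.range n, C ^ i + (C ^ n - 1) := by
    intro n
    induction n with
    | zero => simp
    | succ n ih =>
      rw [Finset.sum_range_succ, mul_add, ih, pow_succ']
      abel
  rw [← Finset.mul_sum, this, hCr]
  simp

include hF in
lemma C_mul_E0 (hCr : C ^ r = 1) : C * E0 C r = E0 C r := by
  unfold E0
  rw [mul_smul_comm, C_mul_sum hF C r hCr]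

include hF in
lemma pow_mul_E0 (hCr : C ^ r = 1) (i : ℕ) : C ^ i * E0 C r = E0 C r := by
  induction i with
  | zero => simp
  | succ i ih => rw [pow_succ', mul_assoc, ih, C_mul_E0 hF C r hCr]

include hF in
lemma E0_idem (hCr : C ^ r = 1) (hr : (r : F) ≠ 0) : E0 C r * E0 C r = E0 C r := by
  have h : (∑ i ∈ Finset.range r, C ^ i) * E0 C r = (r : F) • E0 C r := by
    rw [Finset.sum_mul, Finset.sum_congr rfl (fun i _ => pow_mul_E0 hF C r hCr i)]
    simp [Nat.cast_smul_eq_nsmul]
  have h2 : E0 C r * E0 C r = ((r : F)⁻¹) • ((∑ i ∈ Finset.range r, C ^ i) * E0 C r) := by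
    have : E0 C r * E0 C r = (((r : F)⁻¹) • ∑ i ∈ Finset.range r, C ^ i) * E0 C r := rfl
    rw [this, smul_mul_assoc]
  rw [h2, h, smul_smul, inv_mul_cancel₀ hr, one_smul]

lemma E0_comm (A : (Module.End F (Fin m → F))) (h : A * C = C * A) : A * E0 C r = E0 C r * A := by
  unfold E0
  rw [mul_smul_comm, smul_mul_assoc, Finset.mul_sum, Finset.sum_mul]
  congr 1
  refine Finset.sum_congr rfl fun i _ => ?_
  exact ((show Commute A C from h).pow_right i)

lemma E0_fix (hr : (r : F) ≠ 0) (x : Fin m → F) (hx : C x = x) : E0 C r x = x := by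
  have h : ∀ i : ℕ, (C ^ i) x = x := by
    intro i
    induction i with
    | zero => simp
    | succ i ih => rw [pow_succ', Module.End.mul_apply, ih, hx]
  unfold E0
  simp only [LinearMap.smul_apply, LinearMap.sum_apply, h]
  simp only [Finset.sum_const, Finset.card_range]
  rw [← Nat.cast_smul_eq_nsmul F, smul_smul, inv_mul_cancel₀ hr, one_smul]

include hF in
/-- `E₀` is self-adjoint. -/
lemma E0_adj (hC : ∀ u v, Cfsg.hermForm m F q (C u) (C v) = Cfsg.hermForm m F q u v) (hCr : C ^ r = 1) (hr0 : (r : F) ≠ 0)
    (u v : Fin m → F) : Cfsg.hermForm m F q (E0 C r u) v = Cfsg.hermForm m F q u (E0 C r v) := by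
  -- both sides equal `H(E₀ u, E₀ v)`
  have hC' : ∀ i : ℕ, ∀ u v, Cfsg.hermForm m F q ((C ^ i) u) ((C ^ i) v) = Cfsg.hermForm m F q u v := by
    intro i
    induction i with
    | zero => simp
    | succ i ih =>
      intro u v
      rw [pow_succ', Module.End.mul_apply, Module.End.mul_apply, hC, ih]
  have hfix : ∀ (i : ℕ) (x : Fin m → F), (C ^ i) (E0 C r x) = E0 C r x := by
    intro i x
    have := LinearMap.congr_fun (pow_mul_E0 hF C r hCr i) x
    simpa using this
  have hsum_r : ∀ (s : Finset ℕ) (x y : Fin m → F), Cfsg.hermForm m F q x ((∑ i ∈ s, C ^ i) y) = ∑ i ∈ s, Cfsg.hermForm m F q x ((C ^ i) y) := by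
    intro s x y
    induction s using Finset.induction_on with
    | empty => simp [herm_zero_right' hF]
    | insert a s ha ih =>
      rw [Finset.sum_insert ha, Finset.sum_insert ha, LinearMap.add_apply, hermForm_add_right hF, ih]
  have hsum_l : ∀ (s : Finset ℕ) (x y : Fin m → F), Cfsg.hermForm m F q ((∑ i ∈ s, C ^ i) x) y = ∑ i ∈ s, Cfsg.hermForm m F q ((C ^ i) x) y := by
    intro s x y
    induction s using Finset.induction_on with
    | empty => simp [herm_zero_left']
    | insert a s ha ih =>
      rw [Finset.sum_insert ha, Finset.sum_insert ha, LinearMap.add_apply, hermForm_add_left hF, ih]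
  have hrq := natCast_pow_q hF r
  have h1 : ∀ x y, Cfsg.hermForm m F q (E0 C r x) (E0 C r y) = Cfsg.hermForm m F q (E0 C r x) y := by
    intro x y
    have e1 : E0 C r y = ((r : F)⁻¹) • (∑ i ∈ Finset.range r, C ^ i) y := rfl
    rw [e1, hermForm_smul_right, hsum_r, hrq]
    have e2 : ∀ i ∈ Finset.range r, Cfsg.hermForm m F q (E0 C r x) ((C ^ i) y) = Cfsg.hermForm m F q (E0 C r x) y := by
      intro i _
      conv_lhs => rw [← hfix i x]
      exact hC' i _ _
    rw [Finset.sum_congr rfl e2]
    simp only [Finset.sum_const, Finset.card_range, nsmul_eq_mul]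
    field_simp
  have h2 : ∀ x y, Cfsg.hermForm m F q (E0 C r x) (E0 C r y) = Cfsg.hermForm m F q x (E0 C r y) := by
    intro x y
    have e1 : E0 C r x = ((r : F)⁻¹) • (∑ i ∈ Finset.range r, C ^ i) x := rfl
    rw [e1, hermForm_smul_left, hsum_l]
    have e2 : ∀ i ∈ Finset.range r, Cfsg.hermForm m F q ((C ^ i) x) (E0 C r y) = Cfsg.hermForm m F q x (E0 C r y) := by
      intro i _
      conv_lhs => rw [← hfix i y]
      exact hC' i _ _
    rw [Finset.sum_congr rfl e2]
    simp only [Finset.sum_const, Finset.card_range, nsmul_eq_mul]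
    field_simp
  rw [← h1, h2]

end Avg

section Main

variable (hF : Fintype.card F = q ^ 2)

include hF in
/-- Main reduction. -/
theorem exists_GU (p : ℕ) [hp : Fact p.Prime] [CharP F p] {r : ℕ} (hr : r.Prime) (hrp : r ≠ p)
    (hm : 4 ≤ m) (A C : (Module.End F (Fin m → F)))
    (hA : ∀ u v, Cfsg.hermForm m F q (A u) (A v) = Cfsg.hermForm m F q u v)
    (hC : ∀ u v, Cfsg.hermForm m F q (C u) (C v) = Cfsg.hermForm m F q u v)
    (hAC : A * C = C * A) (hAp : A ^ p = 1) (hCr : C ^ r = 1) (hA1 : A ≠ 1) (hC1 : C ≠ 1) :
    ∃ w, w ≤ m - 2 ∧ r ∣ Nat.card (Cfsg.GU w F q) := by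
  classical
  haveI : Fact r.Prime := ⟨hr⟩
  have hr0 : (r : F) ≠ 0 := by
    intro h
    have := (CharP.cast_eq_zero_iff F p r).mp h
    exact hrp ((Nat.prime_dvd_prime_iff_eq hp.out hr).mp this).symm
  set E := E0 C r with hE
  have hCE : C * E = E := C_mul_E0 hF C r hCr
  have hEE : E * E = E := E0_idem hF C r hCr hr0
  have hAE : A * E = E * A := E0_comm C r A hAC
  have hCE' : C * E = E * C := E0_comm C r C rfl
  have hEadj := E0_adj hF C r hC hCr hr0
  set E₁ : (Module.End F (Fin m → F)) := 1 - E with hE₁
  have hE1E1 : E₁ * E₁ = E₁ := by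
    simp only [hE₁, sub_mul, mul_sub, one_mul, mul_one, hEE, sub_self, sub_zero]
  have hE1E : E₁ * E = 0 := by
    simp only [hE₁, sub_mul, one_mul, hEE, sub_self]
  have hE1C : E₁ * C = C * E₁ := by
    simp only [hE₁, sub_mul, mul_sub, one_mul, mul_one, hCE']
  have hE1A : E₁ * A = A * E₁ := by
    simp only [hE₁, sub_mul, mul_sub, one_mul, mul_one, hAE]
  have hE1fix : ∀ x : Fin m → F, C x = x → E₁ x = 0 := by
    intro x hx
    have := E0_fix C r hr0 x hx
    simp only [hE₁, LinearMap.sub_apply, Module.End.one_apply]
    rw [sub_eq_zero]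
    exact this.symm
  have hE1adj : ∀ u v, Cfsg.hermForm m F q (E₁ u) v = Cfsg.hermForm m F q u (E₁ v) := by
    intro u v
    have h1 : ∀ (a b : Fin m → F) c, Cfsg.hermForm m F q (a - b) c = Cfsg.hermForm m F q a c - Cfsg.hermForm m F q b c := by
      intro a b c
      simp [Cfsg.hermForm, sub_mul, Finset.sum_sub_distrib]
    have h2 : ∀ (a b : Fin m → F) c, Cfsg.hermForm m F q c (a - b) = Cfsg.hermForm m F q c a - Cfsg.hermForm m F q c b := by
      intro a b c
      simp [Cfsg.hermForm, mul_sub, Finset.sum_sub_distrib, conjQ_sub hF]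
    simp only [hE₁, LinearMap.sub_apply, Module.End.one_apply]
    rw [h1, h2, hEadj]
  have hCrA : ∀ u, (C ^ r) u = u := by
    intro u
    rw [hCr]
    rfl
  haveI hne : Nonempty (Fin m) := ⟨⟨0, by omega⟩⟩
  haveI hnt : Nontrivial (Module.End F (Fin m → F)) := inferInstance
  haveI hcp : CharP (Module.End F (Fin m → F)) p :=
    charP_of_injective_algebraMap (algebraMap F (Module.End F (Fin m → F))).injective p
  set N : (Module.End F (Fin m → F)) := A - 1 with hN
  have hNE1 : N * E₁ = E₁ * N := by
    simp only [hN, sub_mul, mul_sub, one_mul, mul_one, hE1A]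
  have hNC : N * C = C * N := by
    simp only [hN, sub_mul, mul_sub, one_mul, mul_one, hAC]
  have hNp : N ^ p = 0 := by
    rw [hN, sub_pow_char_of_commute p (Commute.one_right A), hAp, one_pow, sub_self]
  by_cases hM : N * E₁ = 0
  · -- the case `M = 0`
    refine ⟨Module.finrank F (LinearMap.range E₁), ?_, ?_⟩
    · obtain ⟨v, hv⟩ : ∃ v, N v ≠ 0 := by
        by_contra hcon
        push Not at hcon
        apply hA1
        refine LinearMap.ext fun u => ?_
        have := hcon u
        simp only [hN, LinearMap.sub_apply, Module.End.one_apply] at this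
        simpa using sub_eq_zero.mp this
      set v₀ := E v with hv₀
      have hNv₀ : N v₀ = N v := by
        have h1 : N = N * E := by
          have : N * (E₁ + E) = N := by
            simp [hE₁]
          rw [mul_add, hM, zero_add] at this
          exact this.symm
        have := LinearMap.congr_fun h1 v
        simpa using this.symm
      have hv₀0 : v₀ ≠ 0 := by
        intro h
        rw [h, map_zero] at hNv₀
        exact hv hNv₀.symm
      have hker1 : E₁ v₀ = 0 := by
        have := LinearMap.congr_fun hE1E v
        simpa using this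
      have hker2 : E₁ (N v₀) = 0 := by
        have h1 : E₁ (N v₀) = N (E₁ v₀) := by
          have := LinearMap.congr_fun hNE1 v₀
          simpa using this.symm
        rw [h1, hker1, map_zero]
      have hAv : ∀ (c : F), N v₀ = c • v₀ → c = 0 := by
        intro c hc
        have h1 : A v₀ = (1 + c) • v₀ := by
          have : A v₀ - v₀ = c • v₀ := by
            simpa [hN] using hc
          rw [add_smul, one_smul, ← this]
          abel
        have h2 : ∀ n : ℕ, (A ^ n) v₀ = (1 + c) ^ n • v₀ := by
          intro n
          induction n with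
          | zero => simp
          | succ n ih =>
            rw [pow_succ', Module.End.mul_apply, ih, map_smul, h1, smul_smul, pow_succ]
        have h3 := h2 p
        rw [hAp, Module.End.one_apply] at h3
        have h4 : (1 + c) ^ p = 1 := by
          have h5 : (1 - (1 + c) ^ p) • v₀ = 0 := by
            rw [sub_smul, one_smul, ← h3, sub_self]
          rcases smul_eq_zero.mp h5 with h6 | h6
          · exact (sub_eq_zero.mp h6).symm
          · exact absurd h6 hv₀0
        rw [add_pow_char, one_pow] at h4
        have h5 : c ^ p = 0 := by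
          linear_combination h4
        exact pow_eq_zero_iff (hp.out.ne_zero) |>.mp h5
      have hli : LinearIndependent F ![v₀, N v₀] := by
        rw [LinearIndependent.pair_iff]
        intro s t hst
        have ht : t = 0 := by
          by_contra ht
          have : N v₀ = (-(s / t)) • v₀ := by
            have h1 : t • N v₀ = (-s) • v₀ := by
              rw [neg_smul]
              exact eq_neg_of_add_eq_zero_right hst
            have h2 : N v₀ = t⁻¹ • (t • N v₀) := by
              rw [smul_smul, inv_mul_cancel₀ ht, one_smul]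
            rw [h2, h1, smul_smul]
            congr 1
            field_simp
          have h2 := hAv _ this
          rw [this, h2, zero_smul] at hNv₀
          exact hv hNv₀.symm
        refine ⟨?_, ht⟩
        rw [ht, zero_smul, add_zero] at hst
        exact (smul_eq_zero.mp hst).resolve_right hv₀0
      have hspan : Submodule.span F (Set.range ![v₀, N v₀]) ≤ LinearMap.ker E₁ := by
        rw [Submodule.span_le]
        rintro _ ⟨i, rfl⟩
        fin_cases i
        · exact hker1
        · exact hker2
      have hfr := finrank_span_eq_card hli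
      have hmono := Submodule.finrank_mono hspan
      have hsum := LinearMap.finrank_range_add_finrank_ker E₁
      rw [Module.finrank_fin_fun] at hsum
      simp only [Fintype.card_fin] at hfr
      omega
    · apply dvd_card_GU hF E₁ C (ε := 1) (by simp) (by simp) (by simpa using hE1adj) hC ?_ hr hCrA ?_ ?_
      · intro u
        have := LinearMap.congr_fun hE1C u
        simpa using this
      · rintro x ⟨y, rfl⟩ hx
        have h1 := hE1fix _ hx
        have h2 := LinearMap.congr_fun hE1E1 y
        rw [Module.End.mul_apply] at h2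
        rw [← h2, h1]
      · intro h0
        apply hC1
        have h1 : E = 1 := by
          have : (1 : (Module.End F (Fin m → F))) - E = 0 := h0
          exact (sub_eq_zero.mp this).symm
        rw [h1, mul_one, ] at hCE
        exact hCE
  · -- the case `M ≠ 0`
    set M : (Module.End F (Fin m → F)) := N * E₁ with hMdef
    have hMN : ∀ j : ℕ, M ^ (j + 1) = N ^ (j + 1) * E₁ := by
      intro j
      have hc : Commute N E₁ := hNE1
      rw [hMdef, hc.mul_pow]
      congr 1
      induction j with
      | zero => simp
      | succ j ih => rw [pow_succ, ih, hE1E1]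
    have hMp : M ^ p = 0 := by
      obtain ⟨j, hj⟩ : ∃ j, p = j + 1 := ⟨p - 1, by have := hp.out.pos; omega⟩
      rw [hj, hMN, ← hj, hNp, zero_mul]
    have hex : ∃ k, M ^ k = 0 := ⟨p, hMp⟩
    set k := Nat.find hex with hk
    have hk0 : M ^ k = 0 := Nat.find_spec hex
    have hkmin : ∀ j, j < k → M ^ j ≠ 0 := fun j hj => Nat.find_min hex hj
    have hk2 : 2 ≤ k := by
      by_contra h
      have : k = 0 ∨ k = 1 := by omega
      rcases this with h | h
      · rw [h, pow_zero] at hk0
        exact one_ne_zero hk0
      · rw [h, pow_one] at hk0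
        exact hM hk0
    obtain ⟨j, hj⟩ : ∃ j, k = j + 2 := ⟨k - 2, by omega⟩
    set L : (Module.End F (Fin m → F)) := M ^ (j + 1) with hL
    have hLne : L ≠ 0 := hkmin (j + 1) (by omega)
    have hNL : N * L = 0 := by
      have h1 : E₁ * M = M := by
        rw [hMdef, ← mul_assoc, ← hNE1, mul_assoc, hE1E1]
      have h2 : M * L = 0 := by
        rw [hL, ← pow_succ']
        rw [hj] at hk0
        exact hk0
      have h3 : E₁ * L = L := by
        rw [hL, pow_succ', ← mul_assoc, h1]
      rw [← h3, ← mul_assoc]
      exact h2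
    have hE1L : E₁ * L = L := by
      have h1 : E₁ * M = M := by
        rw [hMdef, ← mul_assoc, ← hNE1, mul_assoc, hE1E1]
      rw [hL, pow_succ', ← mul_assoc, h1]
    have hLL : L * L = 0 := by
      rw [hL, ← pow_add]
      exact pow_eq_zero_of_le (by omega) hk0
    -- adjoints
    obtain ⟨i, hi⟩ : ∃ i, p = i + 1 := ⟨p - 1, by have := hp.out.pos; omega⟩
    set B : (Module.End F (Fin m → F)) := A ^ i with hB
    have hAB : A * B = 1 := by
      rw [hB, ← pow_succ', ← hi, hAp]
    have hBA : B * A = 1 := by
      rw [hB, ← pow_succ, ← hi, hAp]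
    have hE1B : E₁ * B = B * E₁ := by
      have hc : Commute E₁ A := hE1A
      exact hc.pow_right i
    have hBM : B * M = M * B := by
      have hcA : Commute N A := by
        show N * A = A * N
        simp only [hN, sub_mul, mul_sub, one_mul, mul_one]
      have h1 : Commute N B := hcA.pow_right i
      have h2 : Commute E₁ B := hE1B
      exact ((h1.mul_left h2)).symm
    set D : (Module.End F (Fin m → F)) := (-1 : F) • (B * M) with hD
    have hDeq : D = (B - 1) * E₁ := by
      have : B * N = 1 - B := by
        simp only [hN, mul_sub, mul_one, hBA]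
      rw [hD, hMdef, ← mul_assoc, this]
      refine LinearMap.ext fun x => ?_
      simp [sub_mul]
    have hMadj : ∀ u v, Cfsg.hermForm m F q (M u) v = Cfsg.hermForm m F q u (D v) := by
      intro u v
      have h1 : ∀ (a b : Fin m → F) c, Cfsg.hermForm m F q (a - b) c = Cfsg.hermForm m F q a c - Cfsg.hermForm m F q b c := by
        intro a b c
        simp [Cfsg.hermForm, sub_mul, Finset.sum_sub_distrib]
      have h2 : ∀ (a b : Fin m → F) c, Cfsg.hermForm m F q c (a - b) = Cfsg.hermForm m F q c a - Cfsg.hermForm m F q c b := by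
        intro a b c
        simp [Cfsg.hermForm, mul_sub, Finset.sum_sub_distrib, conjQ_sub hF]
      have e1 : M u = A (E₁ u) - E₁ u := by
        simp [hMdef, hN]
      have e2 : D v = E₁ (B v - v) := by
        rw [hDeq]
        have : (B - 1) * E₁ = E₁ * (B - 1) := by
          simp only [sub_mul, mul_sub, one_mul, mul_one, hE1B]
        rw [this]
        simp
      rw [e1, e2, h1, iso_adj A B hA hAB, ← hE1adj u (B v - v), h2]
    have hMjadj : ∀ (n : ℕ) u v, Cfsg.hermForm m F q ((M ^ n) u) v = Cfsg.hermForm m F q u ((D ^ n) v) := by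
      intro n
      induction n with
      | zero => simp
      | succ n ih =>
        intro u v
        rw [pow_succ', Module.End.mul_apply, hMadj, ih, pow_succ, Module.End.mul_apply]
    have hDpow : ∀ n : ℕ, D ^ n = ((-1 : F) ^ n) • (B ^ n * M ^ n) := by
      intro n
      have hc : Commute B M := hBM
      rw [hD, smul_pow, hc.mul_pow]
    have hBL : B * L = L := by
      have h1 : A * L = L := by
        have : N * L = A * L - L := by
          simp [hN, sub_mul]
        rw [this] at hNL
        exact sub_eq_zero.mp hNL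
      conv_lhs => rw [← h1, ← mul_assoc, hBA, one_mul]
    have hBnL : ∀ n : ℕ, B ^ n * L = L := by
      intro n
      induction n with
      | zero => simp
      | succ n ih => rw [pow_succ, mul_assoc, hBL, ih]
    set ε : F := (-1) ^ (j + 1) with hε
    have hεε : ε * ε = 1 := by
      rw [hε, ← mul_pow]
      simp
    have hεq : ε ^ q = ε := by
      have : conjQ hF ε = ε := by
        rw [hε, map_pow, map_neg, map_one]
      rwa [conjQ_apply] at this
    have hLadj : ∀ u v, Cfsg.hermForm m F q (L u) v = ε * Cfsg.hermForm m F q u (L v) := by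
      intro u v
      rw [hL, hMjadj, hDpow]
      have e : ((-1 : F) ^ (j + 1) • (B ^ (j + 1) * M ^ (j + 1))) v = ε • ((M ^ (j + 1)) v) := by
        have h1 : B ^ (j + 1) * M ^ (j + 1) = M ^ (j + 1) := hBnL (j + 1)
        rw [h1]
        rfl
      rw [e, hermForm_smul_right, hεq]
    have hLC : L * C = C * L := by
      have h1 : Commute M C := by
        show N * E₁ * C = C * (N * E₁)
        rw [mul_assoc, hE1C, ← mul_assoc, hNC, mul_assoc]
      exact h1.pow_left (j + 1)
    refine ⟨Module.finrank F (LinearMap.range L), ?_, ?_⟩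
    · have hle : LinearMap.range L ≤ LinearMap.ker L := by
        rintro _ ⟨y, rfl⟩
        have := LinearMap.congr_fun hLL y
        simpa using this
      have hmono := Submodule.finrank_mono hle
      have hsum := LinearMap.finrank_range_add_finrank_ker L
      rw [Module.finrank_fin_fun] at hsum
      omega
    · apply dvd_card_GU hF L C hεε hεq hLadj hC ?_ hr hCrA ?_ hLne
      · intro u
        have := LinearMap.congr_fun hLC u
        simpa using this
      · rintro x ⟨y, rfl⟩ hx
        have h1 := hE1fix _ hx
        have h2 := LinearMap.congr_fun hE1L y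
        rw [Module.End.mul_apply] at h2
        rw [← h2, h1]

end Main

end Cfsg.Agent.Lib.KS2.SUComm
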