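import Mathlib

/-!
Fitting decompositions of endomorphisms attached to a symplectic form.
-/

set_option autoImplicit false
set_option linter.unusedSectionVars false
set_option linter.unusedVariables false

namespace Cfsg.Agent.Lib.KS2.SpC

open Module Polynomial

universe u v

variable {F : Type u} [Field F] {V : Type v} [AddCommGroup V] [Module F V]

/-- Symplectic forms. -/
structure Sy (B : LinearMap.BilinForm F V) : Prop where
  alt : ∀ x, B x x = 0
  nd : ∀ x, (∀ y, B x y = 0) → x = 0

lemma anti {B : LinearMap.BilinForm F V} (hB : ∀ x, B x x = 0) (x y : V) : B x y = - B y x := by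
  have h := hB (x + y)
  simp only [map_add, LinearMap.add_apply, hB, zero_add, add_zero] at h
  rw [add_comm] at h
  exact eq_neg_of_add_eq_zero_left h

/-- Nondegenerate subspaces. -/
def NDS (B : LinearMap.BilinForm F V) (W : Submodule F V) : Prop := ∀ w ∈ W, (∀ u ∈ W, B w u = 0) → w = 0

lemma mem_perp {B : LinearMap.BilinForm F V} {W : Submodule F V} {x : V} :
    x ∈ B.orthogonal W ↔ ∀ w ∈ W, B w x = 0 := by
  rw [LinearMap.BilinForm.mem_orthogonal_iff]

lemma Sy.restrict {B : LinearMap.BilinForm F V} (hB : Sy B) {W : Submodule F V} (hW : NDS B W) :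
    Sy (B.restrict W) := by
  refine ⟨fun x => hB.alt x.1, fun x hx => Subtype.ext (hW x.1 x.2 fun u hu => hx ⟨u, hu⟩)⟩

lemma isRefl_of {B : LinearMap.BilinForm F V} (hB : ∀ x, B x x = 0) : B.IsRefl := by
  intro x y h
  rw [anti hB, h, neg_zero]

lemma nondeg_of {B : LinearMap.BilinForm F V} (hB : Sy B) : B.Nondegenerate := by
  refine ⟨fun x hx => hB.nd x hx, fun x hx => hB.nd x fun y => ?_⟩
  rw [anti hB.alt]
  have := hx y
  simp only [neg_eq_zero]
  exact this

variable [FiniteDimensional F V]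

lemma isCompl_perp {B : LinearMap.BilinForm F V} (hB : Sy B) {W : Submodule F V} (hW : NDS B W) :
    IsCompl W (B.orthogonal W) :=
  LinearMap.BilinForm.isCompl_orthogonal_of_restrict_nondegenerate (isRefl_of hB.alt) (nondeg_of (hB.restrict hW))

lemma perp_nds {B : LinearMap.BilinForm F V} (hB : Sy B) {W : Submodule F V} (hW : NDS B W) :
    NDS B (B.orthogonal W) := by
  intro x hx hu
  apply hB.nd
  intro v
  obtain ⟨w, hw, u, hu', rfl⟩ := Submodule.mem_sup.mp (show v ∈ W ⊔ B.orthogonal W by
    rw [(isCompl_perp hB hW).sup_eq_top]; trivial)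
  rw [map_add, hu u hu', add_zero, anti hB.alt, mem_perp.mp hx w hw, neg_zero]

omit [FiniteDimensional F V] in
lemma form_add {B : LinearMap.BilinForm F V} (hB : ∀ x, B x x = 0) {W : Submodule F V} {w u x z : V} (hw : w ∈ W) (hu : u ∈ W)
    (hx : x ∈ B.orthogonal W) (hz : z ∈ B.orthogonal W) : B (w + x) (u + z) = B w u + B x z := by
  simp only [map_add, LinearMap.add_apply]
  rw [mem_perp.mp hz w hw, anti hB x u, mem_perp.mp hx u hu]
  simp

/-- The common shape of the conditions. -/
def Cc (c₁ c₂ : F) (B : LinearMap.BilinForm F V) (T : Module.End F V) : Prop :=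
  ∀ x y, c₁ * B (T x) (T y) + c₂ * (B (T x) y + B x (T y)) = B x y

omit [FiniteDimensional F V] in
lemma aeval_restrict (T : Module.End F V) (W : Submodule F V) (h : ∀ x ∈ W, T x ∈ W) (y : F[X]) (w : W) :
    (((aeval (T.restrict h : Module.End F W) y) w : W) : V) = aeval T y (w : V) := by
  have hpow : ∀ (n : ℕ) (w : W), ((((T.restrict h : Module.End F W) ^ n) w : W) : V) = (T ^ n) (w : V) := by
    intro n
    induction n with
    | zero => intro w; simp
    | succ n ih =>
      intro w
      rw [pow_succ, pow_succ, Module.End.mul_apply, Module.End.mul_apply, ih]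
      rfl
  induction y using Polynomial.induction_on' with
  | add p q hp hq =>
    simp only [map_add, LinearMap.add_apply, Submodule.coe_add, hp, hq]
  | monomial n a =>
    simp only [aeval_monomial, Module.End.mul_apply, Module.algebraMap_end_apply, Submodule.coe_smul, hpow]

/-- The Fitting decomposition data of `T` with respect to `W`. -/
structure IsFib (y : F[X]) (B : LinearMap.BilinForm F V) (W : Submodule F V) (T : Module.End F V) : Prop where
  inv : ∀ x ∈ W, T x ∈ W
  inv' : ∀ x ∈ B.orthogonal W, T x ∈ B.orthogonal W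
  un : IsUnit (aeval (T.restrict inv : Module.End F W) y)
  nil : IsNilpotent (aeval (T.restrict inv' : Module.End F (B.orthogonal W)) y)

/-- Glueing endomorphisms. -/
noncomputable def glue {W W' : Submodule F V} (hc : IsCompl W W') (T₁ : Module.End F W) (T₂ : Module.End F W') :
    Module.End F V :=
  (Submodule.prodEquivOfIsCompl W W' hc).toLinearMap ∘ₗ (T₁.prodMap T₂) ∘ₗ (Submodule.prodEquivOfIsCompl W W' hc).symm.toLinearMap

omit [FiniteDimensional F V] in
lemma glue_add {W W' : Submodule F V} (hc : IsCompl W W') (T₁ : Module.End F W) (T₂ : Module.End F W') (w : W) (w' : W') :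
    glue hc T₁ T₂ ((w : V) + w') = (T₁ w : V) + (T₂ w' : V) := by
  have h1 : (Submodule.prodEquivOfIsCompl W W' hc) (w, w') = (w : V) + w' := by
    simp [Submodule.coe_prodEquivOfIsCompl']
  simp only [glue, LinearMap.comp_apply, LinearEquiv.coe_coe]
  rw [← h1, LinearEquiv.symm_apply_apply]
  simp [Submodule.coe_prodEquivOfIsCompl']

omit [FiniteDimensional F V] in
lemma glue_left {W W' : Submodule F V} (hc : IsCompl W W') (T₁ : Module.End F W) (T₂ : Module.End F W') (w : W) :
    glue hc T₁ T₂ (w : V) = (T₁ w : V) := by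
  have := glue_add hc T₁ T₂ w 0
  simpa using this

omit [FiniteDimensional F V] in
lemma glue_right {W W' : Submodule F V} (hc : IsCompl W W') (T₁ : Module.End F W) (T₂ : Module.End F W') (w : W') :
    glue hc T₁ T₂ (w : V) = (T₂ w : V) := by
  have := glue_add hc T₁ T₂ 0 w
  simpa using this

section fib

variable (c₁ c₂ : F) (y : F[X]) {B : LinearMap.BilinForm F V}

/-- Elements with nilpotent `y(T)`. -/
abbrev XNil (c₁ c₂ : F) (y : F[X]) (B : LinearMap.BilinForm F V) :=
  {T : Module.End F V // Cc c₁ c₂ B T ∧ IsNilpotent (aeval T y)}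

/-- Elements with invertible `y(T)`. -/
abbrev XUn (c₁ c₂ : F) (y : F[X]) (B : LinearMap.BilinForm F V) :=
  {T : Module.End F V // Cc c₁ c₂ B T ∧ IsUnit (aeval T y)}

/-- Fibres of the decomposition. -/
noncomputable def fibEquiv (hB : Sy B) {W : Submodule F V} (hW : NDS B W) :
    {T : Module.End F V // Cc c₁ c₂ B T ∧ IsFib y B W T} ≃
      XNil c₁ c₂ y (B.restrict (B.orthogonal W)) × XUn c₁ c₂ y (B.restrict W) where
  toFun T := (⟨T.1.restrict T.2.2.inv', fun a b => T.2.1 a.1 b.1, T.2.2.nil⟩,
    ⟨T.1.restrict T.2.2.inv, fun a b => T.2.1 a.1 b.1, T.2.2.un⟩)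
  invFun p := by
    classical
    have hc := isCompl_perp hB hW
    let G := glue hc p.2.1 p.1.1
    have hG1 : ∀ x ∈ W, G x ∈ W := by
      intro x hx
      have := glue_left hc p.2.1 p.1.1 ⟨x, hx⟩
      change G x = _ at this
      rw [this]
      exact (p.2.1 _).2
    have hG2 : ∀ x ∈ B.orthogonal W, G x ∈ B.orthogonal W := by
      intro x hx
      have := glue_right hc p.2.1 p.1.1 ⟨x, hx⟩
      change G x = _ at this
      rw [this]
      exact (p.1.1 _).2
    have hR1 : (G.restrict hG1 : Module.End F W) = p.2.1 := by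
      ext w
      exact glue_left hc p.2.1 p.1.1 w
    have hR2 : (G.restrict hG2 : Module.End F (B.orthogonal W)) = p.1.1 := by
      ext w
      exact glue_right hc p.2.1 p.1.1 w
    refine ⟨G, ?_, ⟨hG1, hG2, ?_, ?_⟩⟩
    · intro a b
      obtain ⟨w, hw, u, hu, rfl⟩ := Submodule.mem_sup.mp (show a ∈ W ⊔ B.orthogonal W by
        rw [hc.sup_eq_top]; trivial)
      obtain ⟨w', hw', u', hu', rfl⟩ := Submodule.mem_sup.mp (show b ∈ W ⊔ B.orthogonal W by
        rw [hc.sup_eq_top]; trivial)
      have e1 := glue_add hc p.2.1 p.1.1 ⟨w, hw⟩ ⟨u, hu⟩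
      have e2 := glue_add hc p.2.1 p.1.1 ⟨w', hw'⟩ ⟨u', hu'⟩
      simp only at e1 e2
      change G (w + u) = _ at e1
      change G (w' + u') = _ at e2
      rw [e1, e2]
      have h1 := p.2.2.1 ⟨w, hw⟩ ⟨w', hw'⟩
      have h2 := p.1.2.1 ⟨u, hu⟩ ⟨u', hu'⟩
      simp only [LinearMap.BilinForm.restrict_apply, LinearMap.domRestrict_apply] at h1 h2
      rw [form_add hB.alt (p.2.1 _).2 (p.2.1 _).2 (p.1.1 _).2 (p.1.1 _).2,
        form_add hB.alt hw hw' hu hu', form_add hB.alt (p.2.1 _).2 hw' (p.1.1 _).2 hu',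
        form_add hB.alt hw (p.2.1 _).2 hu (p.1.1 _).2, ← h1, ← h2]
      ring
    · rw [hR1]
      exact p.2.2.2
    · rw [hR2]
      exact p.1.2.2
  left_inv T := by
    apply Subtype.ext
    have hc := isCompl_perp hB hW
    ext a
    obtain ⟨w, hw, u, hu, rfl⟩ := Submodule.mem_sup.mp (show a ∈ W ⊔ B.orthogonal W by
      rw [hc.sup_eq_top]; trivial)
    have e1 := glue_add hc (T.1.restrict T.2.2.inv) (T.1.restrict T.2.2.inv') ⟨w, hw⟩ ⟨u, hu⟩
    simp only at e1
    exact e1.trans (map_add T.1 w u).symm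
  right_inv p := by
    have hc := isCompl_perp hB hW
    apply Prod.ext
    · apply Subtype.ext
      ext w
      exact glue_right hc p.2.1 p.1.1 w
    · apply Subtype.ext
      ext w
      exact glue_left hc p.2.1 p.1.1 w

/-- Existence and uniqueness of the decomposition. -/
theorem exists_unique_fib (hB : Sy B) (T : Module.End F V) (hperp : ∀ (N : ℕ) (x z : V), ((aeval T y) ^ N) x = 0 →
    B x (((aeval T y) ^ N) z) = 0) : ∃! W : Submodule F V, NDS B W ∧ IsFib y B W T := by
  set Y : Module.End F V := aeval T y with hY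
  have hTY : T * Y = Y * T := by
    have h := (Polynomial.commute_X y).map (aeval T)
    rw [aeval_X] at h
    exact h.eq
  have hTYp : ∀ (N : ℕ) (x : V), (Y ^ N) (T x) = T ((Y ^ N) x) := by
    intro N x
    have h : Commute T (Y ^ N) := Commute.pow_right hTY N
    exact (congrArg (fun f : Module.End F V => f x) h.eq).symm
  obtain ⟨N₀, hN₀⟩ := Filter.eventually_atTop.mp (Y.eventually_isCompl_ker_pow_range_pow)
  set N := N₀ + 1 with hN
  have hcK : IsCompl (LinearMap.ker (Y ^ N)) (LinearMap.range (Y ^ N)) := hN₀ N (by omega)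
  set K := LinearMap.ker (Y ^ N) with hKdef
  set R := LinearMap.range (Y ^ N) with hRdef
  have hinj : ∀ r ∈ R, Y r = 0 → r = 0 := by
    intro r hr h0
    have h1 : r ∈ K := by
      rw [hKdef, LinearMap.mem_ker, hN, pow_succ, Module.End.mul_apply, h0, map_zero]
    have : r ∈ K ⊓ R := ⟨h1, hr⟩
    rw [hcK.inf_eq_bot] at this
    simpa using this
  have hYR : ∀ r ∈ R, Y r ∈ R := by
    rintro r ⟨z, rfl⟩
    refine ⟨Y z, ?_⟩
    change (Y ^ N) (Y z) = Y ((Y ^ N) z)
    rw [← Module.End.mul_apply, ← Module.End.mul_apply, ← pow_succ, ← pow_succ']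
  have hYK : ∀ (M : ℕ), ∀ k ∈ K, (Y ^ M) k ∈ K := by
    intro M k hk
    rw [hKdef, LinearMap.mem_ker, ← Module.End.mul_apply, ← pow_add, add_comm, pow_add, Module.End.mul_apply]
    rw [LinearMap.mem_ker] at hk
    rw [hk, map_zero]
  have hYRp : ∀ (M : ℕ), ∀ r ∈ R, (Y ^ M) r ∈ R := by
    rintro M r ⟨z, rfl⟩
    refine ⟨(Y ^ M) z, ?_⟩
    change (Y ^ N) ((Y ^ M) z) = (Y ^ M) ((Y ^ N) z)
    rw [← Module.End.mul_apply, ← Module.End.mul_apply, ← pow_add, ← pow_add, add_comm]
  have hinjp : ∀ (M : ℕ), ∀ r ∈ R, (Y ^ M) r = 0 → r = 0 := by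
    intro M
    induction M with
    | zero => intro r _ h; simpa using h
    | succ M ih =>
      intro r hr h
      rw [pow_succ, Module.End.mul_apply] at h
      exact hinj r hr (ih _ (hYR r hr) h)
  have hKR : ∀ k ∈ K, ∀ r ∈ R, B k r = 0 := by
    rintro k hk r ⟨z, rfl⟩
    exact hperp N k z hk
  have hRK : ∀ r ∈ R, ∀ k ∈ K, B r k = 0 := by
    intro r hr k hk
    rw [anti hB.alt, hKR k hk r hr, neg_zero]
  have hsup : ∀ v : V, ∃ k ∈ K, ∃ r ∈ R, k + r = v := by
    intro v
    exact Submodule.mem_sup.mp (show v ∈ K ⊔ R by rw [hcK.sup_eq_top]; trivial)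
  have hRnd : NDS B R := by
    intro r hr hu
    apply hB.nd
    intro v
    obtain ⟨k, hk, r', hr', rfl⟩ := hsup v
    rw [map_add, hRK r hr k hk, hu r' hr', add_zero]
  have hperpR : B.orthogonal R = K := by
    ext x
    rw [mem_perp]
    constructor
    · intro hx
      obtain ⟨k, hk, r, hr, rfl⟩ := hsup x
      have h0 : r = 0 := by
        apply hRnd r hr
        intro u hu
        have h1 := hx u hu
        rw [map_add, hRK u hu k hk, zero_add] at h1
        rw [anti hB.alt, h1, neg_zero]
      rw [h0, add_zero]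
      exact hk
    · intro hx w hw
      exact hRK w hw x hx
  have hTK : ∀ k ∈ K, T k ∈ K := by
    intro k hk
    rw [hKdef, LinearMap.mem_ker, hTYp]
    rw [LinearMap.mem_ker] at hk
    rw [hk, map_zero]
  have hTR : ∀ r ∈ R, T r ∈ R := by
    rintro r ⟨z, rfl⟩
    exact ⟨T z, hTYp N z⟩
  have hfib : IsFib y B R T := by
    have h2 : ∀ x ∈ B.orthogonal R, T x ∈ B.orthogonal R := by
      rw [hperpR]
      exact hTK
    refine ⟨hTR, h2, ?_, ?_⟩
    · rw [Module.End.isUnit_iff]
      have hi : Function.Injective (aeval (T.restrict hTR : Module.End F R) y) := by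
        rw [injective_iff_map_eq_zero]
        intro r hr
        apply Subtype.ext
        have := aeval_restrict T R hTR y r
        rw [hr] at this
        exact hinj r.1 r.2 this.symm
      exact ⟨hi, LinearMap.injective_iff_surjective.mp hi⟩
    · refine ⟨N, ?_⟩
      ext x
      have hpw : ∀ (M : ℕ) (x : B.orthogonal R),
          ((((aeval (T.restrict h2 : Module.End F (B.orthogonal R)) y) ^ M) x : B.orthogonal R) : V) = (Y ^ M) (x : V) := by
        intro M
        induction M with
        | zero => intro x; simp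
        | succ M ih =>
          intro x
          rw [pow_succ, pow_succ, Module.End.mul_apply, Module.End.mul_apply, ih, aeval_restrict]
      rw [hpw]
      have hx : (x : V) ∈ K := by
        rw [← hperpR]
        exact x.2
      exact hx
  refine ⟨R, ⟨hRnd, hfib⟩, ?_⟩
  rintro W ⟨hWnd, hWf⟩
  have hc := isCompl_perp hB hWnd
  have h1 : W ≤ R := by
    intro w hw
    have hu : IsUnit ((aeval (T.restrict hWf.inv : Module.End F W) y) ^ N) := hWf.un.pow N
    rw [Module.End.isUnit_iff] at hu
    obtain ⟨w', hw'⟩ := hu.2 ⟨w, hw⟩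
    have hpw : ∀ (M : ℕ) (x : W),
        ((((aeval (T.restrict hWf.inv : Module.End F W) y) ^ M) x : W) : V) = (Y ^ M) (x : V) := by
      intro M
      induction M with
      | zero => intro x; simp
      | succ M ih =>
        intro x
        rw [pow_succ, pow_succ, Module.End.mul_apply, Module.End.mul_apply, ih, aeval_restrict]
    have h3 := hpw N w'
    rw [hw'] at h3
    exact ⟨w', h3.symm⟩
  have h2 : B.orthogonal W ≤ K := by
    intro x hx
    obtain ⟨M, hM⟩ := hWf.nil
    have hpw : ∀ (M : ℕ) (x : B.orthogonal W),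
        ((((aeval (T.restrict hWf.inv' : Module.End F (B.orthogonal W)) y) ^ M) x : B.orthogonal W) : V) = (Y ^ M) (x : V) := by
      intro M
      induction M with
      | zero => intro x; simp
      | succ M ih =>
        intro x
        rw [pow_succ, pow_succ, Module.End.mul_apply, Module.End.mul_apply, ih, aeval_restrict]
    have h3 := hpw M ⟨x, hx⟩
    rw [hM] at h3
    simp only [LinearMap.zero_apply, ZeroMemClass.coe_zero] at h3
    obtain ⟨k, hk, r, hr, rfl⟩ := hsup x
    rw [map_add] at h3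
    have h4 : (Y ^ M) r ∈ K := by
      have : (Y ^ M) r = - (Y ^ M) k := by
        rw [eq_neg_iff_add_eq_zero, add_comm]
        exact h3.symm
      rw [this]
      exact K.neg_mem (hYK M k hk)
    have h5 : (Y ^ M) r ∈ K ⊓ R := ⟨h4, hYRp M r hr⟩
    rw [hcK.inf_eq_bot, Submodule.mem_bot] at h5
    rw [hinjp M r hr h5, add_zero]
    exact hk
  apply le_antisymm h1
  intro r hr
  obtain ⟨w, hw, u, hu, rfl⟩ := Submodule.mem_sup.mp (show r ∈ W ⊔ B.orthogonal W by
    rw [hc.sup_eq_top]; trivial)
  have h3 : u ∈ R := by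
    have : u = (w + u) - w := by abel
    rw [this]
    exact R.sub_mem hr (h1 hw)
  have h4 : u ∈ K ⊓ R := ⟨h2 hu, h3⟩
  rw [hcK.inf_eq_bot, Submodule.mem_bot] at h4
  rw [h4, add_zero]
  exact hw

/-- The counting formula. -/
theorem card_fit [Finite F] (hB : Sy B) (hperp : ∀ T : Module.End F V, Cc c₁ c₂ B T → ∀ (N : ℕ) (x z : V),
    ((aeval T y) ^ N) x = 0 → B x (((aeval T y) ^ N) z) = 0) [Fintype {W : Submodule F V // NDS B W}] :
    Nat.card {T : Module.End F V // Cc c₁ c₂ B T} =
      ∑ W : {W : Submodule F V // NDS B W},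
        Nat.card (XNil c₁ c₂ y (B.restrict (B.orthogonal W.1))) * Nat.card (XUn c₁ c₂ y (B.restrict W.1)) := by
  classical
  have hfin : Finite (Module.End F V) := Module.finite_of_finite F
  have hex := fun T : {T : Module.End F V // Cc c₁ c₂ B T} => exists_unique_fib y hB T.1 (hperp T.1 T.2)
  let Φ : {T : Module.End F V // Cc c₁ c₂ B T} → {W : Submodule F V // NDS B W} :=
    fun T => ⟨(hex T).choose, (hex T).choose_spec.1.1⟩
  have hΦ : ∀ T, IsFib y B (Φ T).1 T.1 := fun T => (hex T).choose_spec.1.2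
  have hΦu : ∀ T (W : {W : Submodule F V // NDS B W}), IsFib y B W.1 T.1 → Φ T = W := by
    intro T W hW
    apply Subtype.ext
    exact ((hex T).choose_spec.2 W.1 ⟨W.2, hW⟩).symm
  have e1 := Equiv.sigmaFiberEquiv Φ
  rw [← Nat.card_congr e1, Nat.card_sigma]
  refine Finset.sum_congr rfl fun W _ => ?_
  rw [← Nat.card_prod, ← Nat.card_congr (fibEquiv c₁ c₂ y hB W.2)]
  apply Nat.card_congr
  exact { toFun := fun T => ⟨T.1.1, T.1.2, by have h := hΦ T.1; rw [T.2] at h; exact h⟩
          invFun := fun T => ⟨⟨T.1, T.2.1⟩, hΦu _ _ T.2.2⟩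
          left_inv := fun T => rfl
          right_inv := fun T => rfl }

end fib

end Cfsg.Agent.Lib.KS2.SpC
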