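import Mathlib
import Cfsg.Agent.Lib.KS2.SpC1
import Cfsg.Agent.Lib.Classical.SympStd
import Cfsg.Agent.Lib.Classical.StabDecomp
import Cfsg.Agent.Lib.Classical.OrderAlt

/-!
Transport to the standard symplectic spaces; counting nondegenerate subspaces.
-/

set_option autoImplicit false
set_option linter.unusedSectionVars false
set_option linter.unusedVariables false

namespace Cfsg.Agent.Lib.KS2.SpC

open Module Polynomial Cfsg.Agent.Lib.Classical Cfsg.Agent.Lib.Classical.Abs

universe u v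

variable {F : Type u} [Field F] {V : Type v} [AddCommGroup V] [Module F V]

lemma isAlt_of {B : LinearMap.BilinForm F V} (hB : Sy B) : B.IsAlt := hB.alt

lemma sy_of {B : LinearMap.BilinForm F V} (h1 : B.Nondegenerate) (h2 : B.IsAlt) : Sy B :=
  ⟨h2, fun x hx => h1.1 x hx⟩

/-- The standard form. -/
lemma sy_std (m : ℕ) : Sy (sympBilin m F) := sy_of sympBilin_nondegenerate sympBilin_isAlt

lemma finrank_std (m : ℕ) : Module.finrank F (Fin m ⊕ Fin m → F) = 2 * m := by
  rw [Module.finrank_fintype_fun_eq_card]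
  simp [two_mul]

variable [FiniteDimensional F V]

lemma even_rank {B : LinearMap.BilinForm F V} (hB : Sy B) : ∃ m, Module.finrank F V = 2 * m := by
  classical
  obtain ⟨m', k, b, h1, h2, h3, h4⟩ := Cfsg.Agent.S0752.result B hB.alt
  have hk : k = 0 := by
    by_contra hk
    have hpos : 0 < k := Nat.pos_of_ne_zero hk
    have h0 := hB.nd (b (Sum.inr ⟨0, hpos⟩)) (h4 ⟨0, hpos⟩)
    exact b.ne_zero _ h0
  subst hk
  refine ⟨m', ?_⟩
  have := Module.finrank_eq_card_basis b
  simp at this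
  omega

/-- Two symplectic spaces of the same dimension are isometric. -/
lemma exists_isom {V' : Type*} [AddCommGroup V'] [Module F V'] [FiniteDimensional F V']
    {B : LinearMap.BilinForm F V} {B' : LinearMap.BilinForm F V'} (hB : Sy B) (hB' : Sy B')
    (h : Module.finrank F V = Module.finrank F V') :
    ∃ θ : V ≃ₗ[F] V', ∀ u v, B' (θ u) (θ v) = B u v := by
  obtain ⟨m, hm⟩ := even_rank hB
  obtain ⟨θ, hθ⟩ := exists_symp_isometry B (nondeg_of hB) hB.alt m hm
  obtain ⟨θ', hθ'⟩ := exists_symp_isometry B' (nondeg_of hB') hB'.alt m (h ▸ hm)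
  refine ⟨θ.trans θ'.symm, fun u v => ?_⟩
  rw [← hθ', ← hθ]
  simp

/-- Transport of the structures. -/
lemma card_XNil_congr {V' : Type*} [AddCommGroup V'] [Module F V'] (c₁ c₂ : F) (y : F[X])
    {B : LinearMap.BilinForm F V} {B' : LinearMap.BilinForm F V'} (θ : V ≃ₗ[F] V') (hθ : ∀ u v, B' (θ u) (θ v) = B u v) :
    Nat.card (XNil c₁ c₂ y B) = Nat.card (XNil c₁ c₂ y B') := by
  apply Nat.card_congr
  refine Equiv.subtypeEquiv (θ.conjAlgEquiv F).toEquiv ?_
  intro T
  have h1 : aeval ((θ.conjAlgEquiv F) T) y = (θ.conjAlgEquiv F) (aeval T y) :=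
    (Polynomial.aeval_algHom_apply ((θ.conjAlgEquiv F) : Module.End F V →ₐ[F] Module.End F V') T y)
  have h2 : ∀ x, ((θ.conjAlgEquiv F) T) (θ x) = θ (T x) := by
    intro x
    simp [LinearEquiv.conjAlgEquiv_apply]
  change (Cc c₁ c₂ B T ∧ IsNilpotent (aeval T y)) ↔ (Cc c₁ c₂ B' ((θ.conjAlgEquiv F) T) ∧ IsNilpotent (aeval ((θ.conjAlgEquiv F) T) y))
  rw [h1, (IsNilpotent.map_iff (θ.conjAlgEquiv F).injective)]
  refine and_congr_left fun _ => ?_
  constructor
  · intro h x y
    obtain ⟨x, rfl⟩ := θ.surjective x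
    obtain ⟨y, rfl⟩ := θ.surjective y
    rw [h2, h2, hθ, hθ, hθ, hθ]
    exact h x y
  · intro h x y
    have := h (θ x) (θ y)
    rw [h2, h2, hθ, hθ, hθ, hθ] at this
    exact this

lemma card_XUn_congr {V' : Type*} [AddCommGroup V'] [Module F V'] (c₁ c₂ : F) (y : F[X])
    {B : LinearMap.BilinForm F V} {B' : LinearMap.BilinForm F V'} (θ : V ≃ₗ[F] V') (hθ : ∀ u v, B' (θ u) (θ v) = B u v) :
    Nat.card (XUn c₁ c₂ y B) = Nat.card (XUn c₁ c₂ y B') := by
  apply Nat.card_congr
  refine Equiv.subtypeEquiv (θ.conjAlgEquiv F).toEquiv ?_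
  intro T
  have h1 : aeval ((θ.conjAlgEquiv F) T) y = (θ.conjAlgEquiv F) (aeval T y) :=
    (Polynomial.aeval_algHom_apply ((θ.conjAlgEquiv F) : Module.End F V →ₐ[F] Module.End F V') T y)
  have h2 : ∀ x, ((θ.conjAlgEquiv F) T) (θ x) = θ (T x) := by
    intro x
    simp [LinearEquiv.conjAlgEquiv_apply]
  change (Cc c₁ c₂ B T ∧ IsUnit (aeval T y)) ↔ (Cc c₁ c₂ B' ((θ.conjAlgEquiv F) T) ∧ IsUnit (aeval ((θ.conjAlgEquiv F) T) y))
  rw [h1, MulEquiv.isUnit_map (θ.conjAlgEquiv F)]
  refine and_congr_left fun _ => ?_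
  constructor
  · intro h x y
    obtain ⟨x, rfl⟩ := θ.surjective x
    obtain ⟨y, rfl⟩ := θ.surjective y
    rw [h2, h2, hθ, hθ, hθ, hθ]
    exact h x y
  · intro h x y
    have := h (θ x) (θ y)
    rw [h2, h2, hθ, hθ, hθ, hθ] at this
    exact this

/-- Existence of nondegenerate subspaces of all even dimensions. -/
lemma exists_nds [Fintype F] {B : LinearMap.BilinForm F V} (hB : Sy B) (m : ℕ) (hm : Module.finrank F V = 2 * m) (d : ℕ) (hd : d ≤ m) :
    ∃ W : Submodule F V, NDS B W ∧ Module.finrank F W = 2 * (m - d) := by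
  induction d with
  | zero =>
    refine ⟨⊤, fun w _ h => hB.nd w fun u => h u trivial, ?_⟩
    rw [finrank_top, hm]
    rfl
  | succ d ih =>
    obtain ⟨W, hW, hr⟩ := ih (by omega)
    have hSy := hB.restrict hW
    have hpos : 0 < Module.finrank F W := by omega
    have : Nontrivial W := Module.nontrivial_of_finrank_pos hpos
    obtain ⟨x, hx⟩ := exists_ne (0 : W)
    have h1 : ∃ z, (B.restrict W) x z ≠ 0 := by
      by_contra hcon
      push Not at hcon
      exact hx (hSy.nd x hcon)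
    obtain ⟨z, hz⟩ := h1
    set y := ((B.restrict W) x z)⁻¹ • z with hy
    have hxy : (B.restrict W) x y = 1 := by
      rw [hy, map_smul, smul_eq_mul, inv_mul_cancel₀ hz]
    obtain ⟨h1, h2, h3⟩ := alt_split (B.restrict W) (nondeg_of hSy) hSy.alt x y hxy
    refine ⟨(LinearMap.ker ((B.restrict W) x) ⊓ LinearMap.ker ((B.restrict W) y)).map W.subtype, ?_, ?_⟩
    · rintro w ⟨w', hw', rfl⟩ hu
      have h4 := h2.1 ⟨w', hw'⟩ (fun b => by
        have := hu b.1 ⟨b.1, b.2, rfl⟩
        exact this)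
      have h5 : w' = 0 := congrArg Subtype.val h4
      rw [h5]
      simp
    · rw [Submodule.finrank_map_subtype_eq]
      omega

/-- The order of the symplectic group. -/
def ss (q j : ℕ) : ℕ := q ^ (j ^ 2) * ∏ i ∈ Finset.range j, (q ^ (2 * (i + 1)) - 1)

lemma card_iso_sy [Fintype F] {B : LinearMap.BilinForm F V} (hB : Sy B) {j : ℕ} (hj : Module.finrank F V = 2 * j) :
    Nat.card (isoG (fun u v : V => B u v)) = ss (Fintype.card F) j :=
  card_isoG_alt _ rfl j V B (nondeg_of hB) hB.alt hj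

lemma finrank_perp {B : LinearMap.BilinForm F V} (hB : Sy B) {W : Submodule F V} (hW : NDS B W) {m k : ℕ}
    (hm : Module.finrank F V = 2 * m) (hk : Module.finrank F W = 2 * k) :
    k ≤ m ∧ Module.finrank F (B.orthogonal W) = 2 * (m - k) := by
  have h := Submodule.finrank_add_eq_of_isCompl (isCompl_perp hB hW)
  omega

/-- The number of nondegenerate subspaces. -/
theorem nn_count [Fintype F] {B : LinearMap.BilinForm F V} (hB : Sy B) {m k : ℕ}
    (hm : Module.finrank F V = 2 * m) (hk : k ≤ m) :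
    Nat.card {W : Submodule F V // NDS B W ∧ Module.finrank F W = 2 * k} *
      (ss (Fintype.card F) k * ss (Fintype.card F) (m - k)) = ss (Fintype.card F) m := by
  classical
  obtain ⟨W₀, hW₀, hr₀⟩ := exists_nds hB m hm (m - k) (by omega)
  have hr₀' : Module.finrank F W₀ = 2 * k := by
    rw [hr₀]
    congr 1
    omega
  set form : V → V → F := fun u v => B u v with hform
  have hmapnd : ∀ g : isoG form, NDS B (W₀.map (g.1 : V →ₗ[F] V)) := by
    rintro g w ⟨w₀, hw₀, rfl⟩ hu
    have h0 : w₀ = 0 := hW₀ w₀ hw₀ fun u hu' => by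
      have h1 := hu (g.1 u) ⟨u, hu', rfl⟩
      have h2 : form (g.1 w₀) (g.1 u) = form w₀ u := g.2 w₀ u
      change B (g.1 w₀) (g.1 u) = 0 at h1
      change B (g.1 w₀) (g.1 u) = B w₀ u at h2
      rw [← h2, h1]
    rw [h0]
    simp
  let f : isoG form → {W : Submodule F V // NDS B W ∧ Module.finrank F W = 2 * k} := fun g =>
    ⟨W₀.map (g.1 : V →ₗ[F] V), hmapnd g, by
      rw [← hr₀']
      exact LinearEquiv.finrank_map_eq g.1 W₀⟩
  have hc₀ := isCompl_perp hB hW₀
  have hs : Function.Surjective f := by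
    rintro ⟨W, hW, hrW⟩
    have hc := isCompl_perp hB hW
    obtain ⟨θ₁, hθ₁⟩ := exists_isom (hB.restrict hW₀) (hB.restrict hW) (hr₀'.trans hrW.symm)
    have h1 := (finrank_perp hB hW₀ hm hr₀').2
    have h2 := (finrank_perp hB hW hm hrW).2
    obtain ⟨θ₂, hθ₂⟩ := exists_isom (hB.restrict (perp_nds hB hW₀)) (hB.restrict (perp_nds hB hW)) (h1.trans h2.symm)
    let g : V ≃ₗ[F] V := ((Submodule.prodEquivOfIsCompl W₀ (B.orthogonal W₀) hc₀).symm.trans (θ₁.prodCongr θ₂)).trans
      (Submodule.prodEquivOfIsCompl W (B.orthogonal W) hc)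
    have hg : ∀ (w : W₀) (u : B.orthogonal W₀), g ((w : V) + u) = (θ₁ w : V) + (θ₂ u : V) := by
      intro w u
      have h3 : (Submodule.prodEquivOfIsCompl W₀ (B.orthogonal W₀) hc₀) (w, u) = (w : V) + u := by
        simp [Submodule.coe_prodEquivOfIsCompl']
      simp only [g, LinearEquiv.trans_apply]
      rw [← h3, LinearEquiv.symm_apply_apply]
      simp [Submodule.coe_prodEquivOfIsCompl']
    have hg1 : ∀ w : W₀, g (w : V) = (θ₁ w : V) := by
      intro w
      have := hg w 0
      simpa using this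
    have hiso : g ∈ isoG form := by
      intro a b
      obtain ⟨w, hw, u, hu, rfl⟩ := Submodule.mem_sup.mp (show a ∈ W₀ ⊔ B.orthogonal W₀ by
        rw [hc₀.sup_eq_top]; trivial)
      obtain ⟨w', hw', u', hu', rfl⟩ := Submodule.mem_sup.mp (show b ∈ W₀ ⊔ B.orthogonal W₀ by
        rw [hc₀.sup_eq_top]; trivial)
      have e1 := hg ⟨w, hw⟩ ⟨u, hu⟩
      have e2 := hg ⟨w', hw'⟩ ⟨u', hu'⟩
      simp only at e1 e2
      change B (g (w + u)) (g (w' + u')) = B (w + u) (w' + u')
      rw [e1, e2, form_add hB.alt (θ₁ _).2 (θ₁ _).2 (θ₂ _).2 (θ₂ _).2, form_add hB.alt hw hw' hu hu']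
      have h5 := hθ₁ ⟨w, hw⟩ ⟨w', hw'⟩
      have h6 := hθ₂ ⟨u, hu⟩ ⟨u', hu'⟩
      simp only [LinearMap.BilinForm.restrict_apply, LinearMap.domRestrict_apply] at h5 h6
      rw [h5, h6]
    refine ⟨⟨g, hiso⟩, ?_⟩
    apply Subtype.ext
    change W₀.map (g : V →ₗ[F] V) = W
    ext x
    constructor
    · rintro ⟨w, hw, rfl⟩
      have := hg1 ⟨w, hw⟩
      change g w ∈ W
      simp only at this
      rw [this]
      exact (θ₁ _).2
    · intro hx
      refine ⟨(θ₁.symm ⟨x, hx⟩ : W₀), (θ₁.symm ⟨x, hx⟩).2, ?_⟩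
      have := hg1 (θ₁.symm ⟨x, hx⟩)
      change g _ = x
      rw [this]
      simp
  have hstab : ∀ g g' : isoG form, f g = f g' ↔ g⁻¹ * g' ∈ setStabG form W₀ := by
    intro g g'
    have hmul : ∀ v, g.1 ((g⁻¹ * g').1 v) = g'.1 v := by
      intro v
      have : g * (g⁻¹ * g') = g' := by group
      exact congrArg (fun h : isoG form => h.1 v) this
    constructor
    · intro h
      have h1 : W₀.map (g.1 : V →ₗ[F] V) = W₀.map (g'.1 : V →ₗ[F] V) := congrArg Subtype.val h
      intro v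
      constructor
      · intro hv
        have h2 : g'.1 v ∈ W₀.map (g'.1 : V →ₗ[F] V) := ⟨v, hv, rfl⟩
        rw [← h1] at h2
        obtain ⟨w, hw, h3⟩ := h2
        have h4 : g.1 w = g.1 ((g⁻¹ * g').1 v) := by
          rw [hmul]
          exact h3
        rw [← g.1.injective h4]
        exact hw
      · intro hv
        have h2 : g'.1 v ∈ W₀.map (g.1 : V →ₗ[F] V) := ⟨_, hv, hmul v⟩
        rw [h1] at h2
        obtain ⟨w, hw, h3⟩ := h2
        rw [← g'.1.injective h3]
        exact hw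
    · intro h
      apply Subtype.ext
      change W₀.map (g.1 : V →ₗ[F] V) = W₀.map (g'.1 : V →ₗ[F] V)
      ext x
      constructor
      · rintro ⟨w, hw, rfl⟩
        have hi : (g⁻¹ * g')⁻¹ ∈ setStabG form W₀ := Subgroup.inv_mem _ h
        refine ⟨((g⁻¹ * g')⁻¹).1 w, (hi w).mp hw, ?_⟩
        have h5 := hmul (((g⁻¹ * g')⁻¹).1 w)
        change g'.1 _ = g.1 w
        rw [← h5]
        congr 1
        have : (g⁻¹ * g') * (g⁻¹ * g')⁻¹ = 1 := by group
        exact congrArg (fun h : isoG form => h.1 w) this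
      · rintro ⟨w, hw, rfl⟩
        exact ⟨_, (h w).mp hw, hmul w⟩
  have h1 := card_eq_mul_stab f hs (setStabG form W₀) hstab
  have h2 : Nat.card (setStabG form W₀) = ss (Fintype.card F) k * ss (Fintype.card F) (m - k) := by
    rw [Nat.card_congr (stabDecomp form W₀ (B.orthogonal W₀) hc₀
      (fun w hw w' hw' u hu u' hu' => form_add hB.alt hw hu hw' hu')
      (fun v => by
        rw [mem_perp]
        exact forall₂_congr fun w hw => by
          change B w v = 0 ↔ B v w = 0
          rw [anti hB.alt w v, neg_eq_zero])).toEquiv, Nat.card_prod]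
    congr 1
    · exact card_iso_sy (hB.restrict hW₀) hr₀'
    · exact card_iso_sy (hB.restrict (perp_nds hB hW₀)) (finrank_perp hB hW₀ hm hr₀').2
  rw [← h2, ← h1]
  exact card_iso_sy hB hm

/-- The counting formula on a standard space. -/
theorem card_fit2 [Fintype F] (c₁ c₂ : F) (y : F[X]) {B : LinearMap.BilinForm F V} (hB : Sy B) {m : ℕ}
    (hm : Module.finrank F V = 2 * m)
    (hperp : ∀ T : Module.End F V, Cc c₁ c₂ B T → ∀ (N : ℕ) (x z : V),
      ((aeval T y) ^ N) x = 0 → B x (((aeval T y) ^ N) z) = 0) :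
    Nat.card {T : Module.End F V // Cc c₁ c₂ B T} =
      ∑ k ∈ Finset.range (m + 1), Nat.card {W : Submodule F V // NDS B W ∧ Module.finrank F W = 2 * k} *
        (Nat.card (XNil c₁ c₂ y (sympBilin (m - k) F)) * Nat.card (XUn c₁ c₂ y (sympBilin k F))) := by
  classical
  have hfin : Finite V := Module.finite_of_finite F
  have hfin2 : Finite (Submodule F V) := Finite.of_injective (fun W : Submodule F V => (W : Set V)) SetLike.coe_injective
  letI : Fintype {W : Submodule F V // NDS B W} := Fintype.ofFinite _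
  rw [card_fit c₁ c₂ y hB hperp]
  let κ : {W : Submodule F V // NDS B W} → ℕ := fun W => Module.finrank F W.1 / 2
  have hκ : ∀ W : {W : Submodule F V // NDS B W}, Module.finrank F W.1 = 2 * κ W := by
    intro W
    obtain ⟨j, hj⟩ := even_rank (hB.restrict W.2)
    simp only [κ]
    omega
  have hmaps : ∀ W ∈ (Finset.univ : Finset {W : Submodule F V // NDS B W}), κ W ∈ Finset.range (m + 1) := by
    intro W _
    have := (finrank_perp hB W.2 hm (hκ W)).1
    simp only [Finset.mem_range]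
    omega
  rw [← Finset.sum_fiberwise_of_maps_to hmaps]
  refine Finset.sum_congr rfl fun k hk => ?_
  have hA : ∀ W ∈ Finset.univ.filter (fun W : {W : Submodule F V // NDS B W} => κ W = k),
      Nat.card (XNil c₁ c₂ y (B.restrict (B.orthogonal W.1))) * Nat.card (XUn c₁ c₂ y (B.restrict W.1)) =
      Nat.card (XNil c₁ c₂ y (sympBilin (m - k) F)) * Nat.card (XUn c₁ c₂ y (sympBilin k F)) := by
    intro W hW
    have hWk : κ W = k := (Finset.mem_filter.mp hW).2
    have h1 := hκ W
    rw [hWk] at h1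
    have h2 := (finrank_perp hB W.2 hm h1).2
    obtain ⟨θ₁, hθ₁⟩ := exists_isom (hB.restrict W.2) (sy_std k (F := F)) (h1.trans (finrank_std k).symm)
    obtain ⟨θ₂, hθ₂⟩ := exists_isom (hB.restrict (perp_nds hB W.2)) (sy_std (m - k) (F := F)) (h2.trans (finrank_std _).symm)
    rw [card_XUn_congr c₁ c₂ y θ₁ hθ₁, card_XNil_congr c₁ c₂ y θ₂ hθ₂]
  rw [Finset.sum_congr rfl hA, Finset.sum_const, smul_eq_mul]
  congr 1
  rw [← Fintype.card_subtype, ← Nat.card_eq_fintype_card]
  apply Nat.card_congr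
  exact { toFun := fun W => ⟨W.1.1, W.1.2, by
            have h1 := hκ W.1
            rw [W.2] at h1
            exact h1⟩
          invFun := fun W => ⟨⟨W.1, W.2.1⟩, by
            have h2 := W.2.2
            change Module.finrank F W.1 / 2 = k
            omega⟩
          left_inv := fun W => rfl
          right_inv := fun W => rfl }

end Cfsg.Agent.Lib.KS2.SpC
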