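import Mathlib
import Cfsg.Agent.Lib.KS2.SpC2

/-!
The two instances of the Fitting count: isometries and the solutions of `T + T^* = 1`, and the Cayley correspondence.
-/

set_option autoImplicit false
set_option linter.unusedSectionVars false
set_option linter.unusedVariables false

namespace Cfsg.Agent.Lib.KS2.SpC

open Module Polynomial Cfsg.Agent.Lib.Classical Cfsg.Agent.Lib.Classical.Abs

universe u v

variable {F : Type u} [Field F] {V : Type v} [AddCommGroup V] [Module F V]

lemma cc10_iff {B : LinearMap.BilinForm F V} {T : Module.End F V} : Cc 1 0 B T ↔ ∀ x y, B (T x) (T y) = B x y := by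
  unfold Cc
  simp

lemma cc01_iff {B : LinearMap.BilinForm F V} {T : Module.End F V} : Cc 0 1 B T ↔ ∀ x y, B (T x) y + B x (T y) = B x y := by
  unfold Cc
  simp

lemma aeval_one {T : Module.End F V} : aeval T (X - 1 : F[X]) = T - 1 := by simp

lemma aeval_two {T : Module.End F V} : aeval T (X * (1 - X) : F[X]) = T * (1 - T) := by simp

variable [FiniteDimensional F V]

lemma isUnit_of_isom {B : LinearMap.BilinForm F V} (hB : Sy B) {T : Module.End F V} (hT : ∀ x y, B (T x) (T y) = B x y) :
    IsUnit T := by
  rw [Module.End.isUnit_iff]
  have hi : Function.Injective T := by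
    rw [injective_iff_map_eq_zero]
    intro x hx
    apply hB.nd
    intro y
    rw [← hT, hx, map_zero, LinearMap.zero_apply]
  exact ⟨hi, LinearMap.injective_iff_surjective.mp hi⟩

/-- First instance. -/
lemma hperp_one {B : LinearMap.BilinForm F V} (hB : Sy B) (T : Module.End F V) (hT : Cc 1 0 B T) (N : ℕ) (x z : V)
    (h : ((aeval T (X - 1 : F[X])) ^ N) x = 0) : B x (((aeval T (X - 1 : F[X])) ^ N) z) = 0 := by
  rw [aeval_one] at h ⊢
  rw [cc10_iff] at hT
  obtain ⟨U, rfl⟩ := isUnit_of_isom hB hT
  set T : Module.End F V := (U : Module.End F V) with hTdef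
  set S : Module.End F V := ((U⁻¹ : (Module.End F V)ˣ) : Module.End F V) with hS
  have hST : S * T = 1 := U.inv_mul
  have hTS : T * S = 1 := U.mul_inv
  have hadj : ∀ a b, B a (T b) = B (S a) b := by
    intro a b
    rw [← hT (S a) b]
    have : T (S a) = a := by
      have := congrArg (fun f : Module.End F V => f a) hTS
      simpa using this
    rw [this]
  set A : Module.End F V := S - 1 with hA
  have hadj2 : ∀ a b, B a ((T - 1) b) = B (A a) b := by
    intro a b
    simp [hA, hadj]
  have hadjN : ∀ (N : ℕ) (a b : V), B a (((T - 1) ^ N) b) = B ((A ^ N) a) b := by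
    intro N
    induction N with
    | zero => intro a b; simp
    | succ n ih =>
      intro a b
      rw [pow_succ', Module.End.mul_apply, hadj2, ih, pow_succ, Module.End.mul_apply]
  rw [hadjN]
  have hcomm : Commute (-S) (T - 1) := by
    have hc : Commute S T := by
      rw [Commute, SemiconjBy, hST, hTS]
    exact ((hc.sub_right (Commute.one_right S))).neg_left
  have hAeq : A = (-S) * (T - 1) := by
    rw [hA, neg_mul, mul_sub, hST]
    simp
  rw [hAeq, hcomm.mul_pow, Module.End.mul_apply, h]
  simp

/-- Second instance. -/
lemma hperp_two {B : LinearMap.BilinForm F V} (T : Module.End F V) (hT : Cc 0 1 B T) (N : ℕ) (x z : V)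
    (h : ((aeval T (X * (1 - X) : F[X])) ^ N) x = 0) : B x (((aeval T (X * (1 - X) : F[X])) ^ N) z) = 0 := by
  rw [aeval_two] at h ⊢
  rw [cc01_iff] at hT
  have h1 : ∀ a b, B a (T b) = B ((1 - T) a) b := by
    intro a b
    have := hT a b
    simp only [LinearMap.sub_apply, Module.End.one_apply, map_sub]
    linear_combination this
  have h2 : ∀ a b, B a ((1 - T) b) = B (T a) b := by
    intro a b
    have := hT a b
    simp only [LinearMap.sub_apply, Module.End.one_apply, map_sub]
    linear_combination -this
  have h3 : ∀ a b, B a ((T * (1 - T)) b) = B ((T * (1 - T)) a) b := by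
    intro a b
    rw [Module.End.mul_apply, h1, h2, Module.End.mul_apply]
  have hN : ∀ (N : ℕ) (a b : V), B a (((T * (1 - T)) ^ N) b) = B (((T * (1 - T)) ^ N) a) b := by
    intro N
    induction N with
    | zero => intro a b; simp
    | succ n ih =>
      intro a b
      rw [pow_succ', Module.End.mul_apply, h3, ih, ← Module.End.mul_apply, ← pow_succ, pow_succ']
  rw [hN, h]
  simp

omit [FiniteDimensional F V] in
lemma inv_eq_of {R : Type*} [Ring R] {a b : R} (h1 : a * b = 1) (h2 : b * a = 1) : Ring.inverse a = b := by
  have hu : IsUnit a := ⟨⟨a, b, h1, h2⟩, rfl⟩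
  calc Ring.inverse a = Ring.inverse a * (a * b) := by rw [h1, mul_one]
    _ = b := by rw [← mul_assoc, Ring.inverse_mul_cancel _ hu, one_mul]

/-- Cayley transform. -/
noncomputable def cayley {B : LinearMap.BilinForm F V} (hB : Sy B) :
    XUn (1 : F) 0 (X - 1 : F[X]) B ≃ XUn (0 : F) 1 (X * (1 - X) : F[X]) B where
  toFun g := ⟨Ring.inverse (1 - g.1), by
    obtain ⟨g, hg1, hg2⟩ := g
    rw [aeval_one] at hg2
    rw [cc10_iff] at hg1
    have hu : IsUnit (1 - g) := by
      have : 1 - g = -(g - 1) := by abel
      rw [this]
      exact hg2.neg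
    set T := Ring.inverse (1 - g) with hT
    have h1 : T * (1 - g) = 1 := Ring.inverse_mul_cancel _ hu
    have h2 : (1 - g) * T = 1 := Ring.mul_inverse_cancel _ hu
    have h3 : ∀ x, (1 - g) (T x) = x := by
      intro x
      have := congrArg (fun f : Module.End F V => f x) h2
      simpa using this
    constructor
    · rw [cc01_iff]
      intro x y
      have hx := h3 x
      have hy := h3 y
      set a := T x with ha
      set b := T y with hb
      rw [← hx, ← hy]
      have e1 : T ((1 - g) a) = a := by
        have := congrArg (fun f : Module.End F V => f a) h1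
        simpa using this
      have e2 : T ((1 - g) b) = b := by
        have := congrArg (fun f : Module.End F V => f b) h1
        simpa using this
      simp only [LinearMap.sub_apply, Module.End.one_apply, map_sub, hg1]
      ring
    · rw [aeval_two]
      have hgu : IsUnit g := isUnit_of_isom hB hg1
      have h4 : 1 - T = - (T * g) := by
        have : T - T * g = 1 := by
          rw [← h1, mul_sub, mul_one]
        rw [← this]
        abel
      rw [h4]
      exact (IsUnit.of_mul_eq_one _ h1).mul ((IsUnit.of_mul_eq_one _ h1).mul hgu).neg⟩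
  invFun T := ⟨1 - Ring.inverse T.1, by
    obtain ⟨T, hT1, hT2⟩ := T
    rw [aeval_two] at hT2
    rw [cc01_iff] at hT1
    have hc : Commute T (1 - T) := (Commute.one_right T).sub_right (Commute.refl T)
    have hu : IsUnit T := (hc.isUnit_mul_iff.mp hT2).1
    set S := Ring.inverse T with hS
    have h1 : S * T = 1 := Ring.inverse_mul_cancel _ hu
    have h2 : T * S = 1 := Ring.mul_inverse_cancel _ hu
    have h3 : ∀ x, T (S x) = x := by
      intro x
      have := congrArg (fun f : Module.End F V => f x) h2
      simpa using this
    constructor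
    · rw [cc10_iff]
      intro x y
      have hx := h3 x
      have hy := h3 y
      set a := S x with ha
      set b := S y with hb
      rw [← hx, ← hy]
      have e1 : S (T a) = a := by
        have := congrArg (fun f : Module.End F V => f a) h1
        simpa using this
      have e2 : S (T b) = b := by
        have := congrArg (fun f : Module.End F V => f b) h1
        simpa using this
      simp only [LinearMap.sub_apply, Module.End.one_apply, map_sub, e1, e2]
      have := hT1 a b
      linear_combination -this
    · rw [aeval_one]
      have : 1 - S - 1 = -S := by abel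
      rw [this]
      exact (IsUnit.of_mul_eq_one _ h1).neg⟩
  left_inv g := by
    apply Subtype.ext
    obtain ⟨g, hg1, hg2⟩ := g
    rw [aeval_one] at hg2
    have hu : IsUnit (1 - g) := by
      have : 1 - g = -(g - 1) := by abel
      rw [this]
      exact hg2.neg
    change 1 - Ring.inverse (Ring.inverse (1 - g)) = g
    rw [inv_eq_of (Ring.inverse_mul_cancel _ hu) (Ring.mul_inverse_cancel _ hu)]
    abel
  right_inv T := by
    apply Subtype.ext
    obtain ⟨T, hT1, hT2⟩ := T
    rw [aeval_two] at hT2
    have hc : Commute T (1 - T) := (Commute.one_right T).sub_right (Commute.refl T)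
    have hu : IsUnit T := (hc.isUnit_mul_iff.mp hT2).1
    change Ring.inverse (1 - (1 - Ring.inverse T)) = T
    have : 1 - (1 - Ring.inverse T) = Ring.inverse T := by abel
    rw [this]
    exact inv_eq_of (Ring.inverse_mul_cancel _ hu) (Ring.mul_inverse_cancel _ hu)

lemma card_cayley {B : LinearMap.BilinForm F V} (hB : Sy B) :
    Nat.card (XUn (1 : F) 0 (X - 1 : F[X]) B) = Nat.card (XUn (0 : F) 1 (X * (1 - X) : F[X]) B) :=
  Nat.card_congr (cayley hB)

/-- Isometries are the isometry group. -/
lemma card_cc10 {B : LinearMap.BilinForm F V} (hB : Sy B) :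
    Nat.card {T : Module.End F V // Cc (1 : F) 0 B T} = Nat.card (isoG (fun u v : V => B u v)) := by
  classical
  apply Nat.card_congr
  exact
    { toFun := fun T => ⟨LinearEquiv.ofBijective T.1 ((Module.End.isUnit_iff _).mp (isUnit_of_isom hB (cc10_iff.mp T.2))), fun u v => cc10_iff.mp T.2 u v⟩
      invFun := fun g => ⟨(g.1 : V →ₗ[F] V), cc10_iff.mpr fun u v => g.2 u v⟩
      left_inv := fun T => by
        apply Subtype.ext
        ext x
        rfl
      right_inv := fun g => by
        apply Subtype.ext
        ext x
        rfl }

end Cfsg.Agent.Lib.KS2.SpC
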