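import Mathlib
import Cfsg.Agent.Lib.KS2.SpC3

/-!
The solutions of `T + T^* = 1` on a standard space.
-/

set_option autoImplicit false
set_option linter.unusedSectionVars false
set_option linter.unusedVariables false

namespace Cfsg.Agent.Lib.KS2.SpC

open Module Polynomial Matrix Cfsg.Agent.Lib.Classical Cfsg.Agent.Lib.Classical.Abs

universe u

variable {F : Type u} [Field F] {k : ℕ}

/-- Block matrices. -/
def TM (N : Matrix (Fin k) (Fin k) F) : Matrix (Fin k ⊕ Fin k) (Fin k ⊕ Fin k) F :=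
  fromBlocks N 0 0 (1 - Nᵀ)

lemma sympForm_eq (u v : Fin k ⊕ Fin k → F) :
    Cfsg.sympForm k F u v = (u ∘ Sum.inr) ⬝ᵥ (v ∘ Sum.inl) - (u ∘ Sum.inl) ⬝ᵥ (v ∘ Sum.inr) := by
  rw [sympForm_apply, Finset.sum_sub_distrib]
  rfl

lemma TM_inl (N : Matrix (Fin k) (Fin k) F) (v : Fin k ⊕ Fin k → F) :
    (TM N *ᵥ v) ∘ Sum.inl = N *ᵥ (v ∘ Sum.inl) := by
  ext i
  simp [TM, Matrix.mulVec, dotProduct, Fintype.sum_sum_type]

lemma TM_inr (N : Matrix (Fin k) (Fin k) F) (v : Fin k ⊕ Fin k → F) :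
    (TM N *ᵥ v) ∘ Sum.inr = (1 - Nᵀ) *ᵥ (v ∘ Sum.inr) := by
  ext i
  simp [TM, Matrix.mulVec, dotProduct, Fintype.sum_sum_type]

lemma cc_TM (N : Matrix (Fin k) (Fin k) F) : Cc (0 : F) 1 (sympBilin k F) (Matrix.toLin' (TM N)) := by
  rw [cc01_iff]
  intro x y
  simp only [Matrix.toLin'_apply, sympBilin_apply, sympForm_eq, TM_inl, TM_inr]
  rw [Matrix.sub_mulVec, Matrix.sub_mulVec, Matrix.one_mulVec, Matrix.one_mulVec]
  simp only [sub_dotProduct, dotProduct_sub]
  have h1 : (N *ᵥ (x ∘ Sum.inl)) ⬝ᵥ (y ∘ Sum.inr) = (x ∘ Sum.inl) ⬝ᵥ (Nᵀ *ᵥ (y ∘ Sum.inr)) := by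
    rw [Matrix.dotProduct_mulVec, Matrix.vecMul_transpose]
  have h2 : (Nᵀ *ᵥ (x ∘ Sum.inr)) ⬝ᵥ (y ∘ Sum.inl) = (x ∘ Sum.inr) ⬝ᵥ (N *ᵥ (y ∘ Sum.inl)) := by
    rw [Matrix.dotProduct_mulVec, Matrix.mulVec_transpose]
  rw [h1, h2]
  ring

variable [Fintype F]

/-- The size of the space of symmetric matrices. -/
theorem card_skew (m : ℕ) :
    Nat.card {S : Module.End F (Fin m ⊕ Fin m → F) // ∀ x y, sympBilin m F (S x) y + sympBilin m F x (S y) = 0} =
      Fintype.card F ^ (2 * m ^ 2 + m) := by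
  classical
  set B := sympBilin m F with hB
  have hSy : Sy B := sy_std m
  have hnd : B.Nondegenerate := sympBilin_nondegenerate
  let b := Pi.basisFun F (Fin m ⊕ Fin m)
  let e : Module.End F (Fin m ⊕ Fin m → F) ≃ₗ[F] Matrix (Fin m ⊕ Fin m) (Fin m ⊕ Fin m) F :=
    (LinearEquiv.congrRight (B.toDual hnd)).trans (LinearMap.BilinForm.toMatrix b)
  have he : ∀ S i j, e S i j = B (S (b i)) (b j) := by
    intro S i j
    simp only [e, LinearEquiv.trans_apply, LinearMap.BilinForm.toMatrix_apply]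
    rfl
  have hbil : ∀ S : Module.End F (Fin m ⊕ Fin m → F), ∀ x y, (LinearEquiv.congrRight (B.toDual hnd) S) x y = B (S x) y := by
    intro S x y
    rfl
  have h1 : {S : Module.End F (Fin m ⊕ Fin m → F) // ∀ x y, B (S x) y + B x (S y) = 0} ≃
      {M : Matrix (Fin m ⊕ Fin m) (Fin m ⊕ Fin m) F // ∀ i j, M i j = M j i} := by
    refine Equiv.subtypeEquiv e.toEquiv ?_
    intro S
    constructor
    · intro h i j
      change e S i j = e S j i
      rw [he, he]
      have := h (b i) (b j)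
      rw [anti hSy.alt (b i)] at this
      linear_combination this
    · intro h x y
      have h2 : LinearEquiv.congrRight (B.toDual hnd) S = (LinearEquiv.congrRight (B.toDual hnd) S).flip := by
        refine b.ext fun i => b.ext fun j => ?_
        rw [LinearMap.flip_apply, hbil, hbil, ← he, ← he]
        exact h i j
      have h3 := congrArg (fun f : LinearMap.BilinForm F (Fin m ⊕ Fin m → F) => f x y) h2
      simp only [LinearMap.flip_apply, hbil] at h3
      rw [anti hSy.alt x, h3]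
      ring
  rw [Nat.card_congr h1]
  have h2 : {M : Matrix (Fin m ⊕ Fin m) (Fin m ⊕ Fin m) F // ∀ i j, M i j = M j i} ≃ (Sym2 (Fin m ⊕ Fin m) → F) :=
    Sym2.lift
  rw [Nat.card_congr h2, Nat.card_eq_fintype_card, Fintype.card_fun, Sym2.card]
  congr 1
  simp only [Fintype.card_sum, Fintype.card_fin]
  rw [Nat.choose_two_right]
  have h3 : (m + m + 1) * (m + m + 1 - 1) = 2 * (2 * m ^ 2 + m) := by
    have : m + m + 1 - 1 = m + m := by omega
    rw [this]
    ring
  rw [h3]
  simp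

/-- The number of solutions of `T + T^* = 1`. -/
theorem card_cc01 (m : ℕ) :
    Nat.card {T : Module.End F (Fin m ⊕ Fin m → F) // Cc (0 : F) 1 (sympBilin m F) T} =
      Fintype.card F ^ (2 * m ^ 2 + m) := by
  rw [← card_skew m]
  apply Nat.card_congr
  refine Equiv.subtypeEquiv (Equiv.subRight (Matrix.toLin' (TM (0 : Matrix (Fin m) (Fin m) F)))) ?_
  intro T
  have h0 := cc01_iff.mp (cc_TM (0 : Matrix (Fin m) (Fin m) F))
  rw [cc01_iff]
  simp only [Equiv.subRight_apply, LinearMap.sub_apply, map_sub]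
  constructor
  · intro h x y
    have := h x y
    have h1 := h0 x y
    linear_combination this - h1
  · intro h x y
    have := h x y
    have h1 := h0 x y
    linear_combination this + h1

end Cfsg.Agent.Lib.KS2.SpC
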