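import Mathlib
import Cfsg.Agent.Lib.KS2.SpC4

/-!
Normal form of the operators `T` with `T + T^* = 1` and `T(1 - T)` nilpotent.
-/

set_option autoImplicit false
set_option linter.unusedSectionVars false
set_option linter.unusedVariables false

namespace Cfsg.Agent.Lib.KS2.SpC

open Module Polynomial Matrix Cfsg.Agent.Lib.Classical Cfsg.Agent.Lib.Classical.Abs

universe u v

variable {F : Type u} [Field F] {V : Type v} [AddCommGroup V] [Module F V] [FiniteDimensional F V]

/-- Splitting of an operator with `T + T^* = 1` and `T(1-T)` nilpotent. -/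
theorem split_T {B : LinearMap.BilinForm F V} (hB : Sy B) {T : Module.End F V} (hT : Cc (0 : F) 1 B T)
    (hnil : IsNilpotent (T * (1 - T))) :
    ∃ A C : Submodule F V, IsCompl A C ∧ (∀ x ∈ A, T x ∈ A) ∧ (∀ x ∈ C, T x ∈ C) ∧
      (∀ x ∈ A, ∀ z ∈ A, B x z = 0) ∧ (∀ x ∈ C, ∀ z ∈ C, B x z = 0) ∧
      ∃ M : ℕ, ∀ x ∈ A, (T ^ M) x = 0 := by
  rw [cc01_iff] at hT
  have hadj2 : ∀ a b, B a ((1 - T) b) = B (T a) b := by
    intro a b
    have := hT a b
    simp only [LinearMap.sub_apply, Module.End.one_apply, map_sub]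
    linear_combination -this
  have hadj3 : ∀ (n : ℕ) (a b : V), B a (((1 - T) ^ n) b) = B ((T ^ n) a) b := by
    intro n
    induction n with
    | zero => intro a b; simp
    | succ n ih =>
      intro a b
      rw [pow_succ', Module.End.mul_apply, hadj2, ih, ← Module.End.mul_apply, ← pow_succ]
  obtain ⟨L, hL⟩ := hnil
  have hc : Commute T (1 - T) := (Commute.one_right T).sub_right (Commute.refl T)
  obtain ⟨N₀, hN₀⟩ := Filter.eventually_atTop.mp (T.eventually_isCompl_ker_pow_range_pow)
  set M := max N₀ L with hM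
  have hML : L ≤ M := le_max_right _ _
  have hcA : IsCompl (LinearMap.ker (T ^ M)) (LinearMap.range (T ^ M)) := hN₀ M (le_max_left _ _)
  have hyM : (T * (1 - T)) ^ M = 0 := by
    obtain ⟨d, hd⟩ := Nat.exists_eq_add_of_le hML
    rw [hd, pow_add, hL, zero_mul]
  have hyM' : T ^ M * (1 - T) ^ M = 0 := by
    rw [← hc.mul_pow]
    exact hyM
  set A := LinearMap.ker (T ^ M) with hA
  set C := LinearMap.range (T ^ M) with hC
  have hTM : ∀ x, (T ^ M) (T x) = T ((T ^ M) x) := by
    intro x
    rw [← Module.End.mul_apply, ← Module.End.mul_apply, ← pow_succ, ← pow_succ']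
  have hTA : ∀ x ∈ A, T x ∈ A := by
    intro x hx
    rw [hA, LinearMap.mem_ker] at hx ⊢
    rw [hTM, hx, map_zero]
  have hTC : ∀ x ∈ C, T x ∈ C := by
    rintro x ⟨z, rfl⟩
    exact ⟨T z, hTM z⟩
  have hsubC : ∀ x ∈ C, (1 - T) x ∈ C := by
    intro x hx
    simp only [LinearMap.sub_apply, Module.End.one_apply]
    exact C.sub_mem hx (hTC x hx)
  have hsubCp : ∀ (n : ℕ), ∀ x ∈ C, ((1 - T) ^ n) x ∈ C := by
    intro n
    induction n with
    | zero => intro x hx; simpa using hx
    | succ n ih =>
      intro x hx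
      rw [pow_succ, Module.End.mul_apply]
      exact ih _ (hsubC x hx)
  have hCzero : ∀ x ∈ C, ((1 - T) ^ M) x = 0 := by
    intro x hx
    have h1 : ((1 - T) ^ M) x ∈ A := by
      rw [hA, LinearMap.mem_ker, ← Module.End.mul_apply, hyM']
      rfl
    have h2 : ((1 - T) ^ M) x ∈ A ⊓ C := ⟨h1, hsubCp M x hx⟩
    rw [hcA.inf_eq_bot, Submodule.mem_bot] at h2
    exact h2
  refine ⟨A, C, hcA, hTA, hTC, ?_, ?_, M, fun x hx => hx⟩
  · intro x hx z hz
    -- `1 - T` is invertible on `A`
    set TA : Module.End F A := T.restrict hTA with hTAdef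
    have h1 : IsNilpotent TA := by
      refine ⟨M, ?_⟩
      ext w
      have := aeval_restrict T A hTA (X ^ M) w
      simp only [map_pow, aeval_X] at this
      rw [this]
      simpa using w.2
    have h2 : IsUnit (1 - TA) := h1.isUnit_one_sub
    have h3 : IsUnit ((1 - TA) ^ M) := h2.pow M
    rw [Module.End.isUnit_iff] at h3
    obtain ⟨z', hz'⟩ := h3.2 ⟨z, hz⟩
    have h4 := aeval_restrict T A hTA ((1 - X) ^ M) z'
    simp only [map_pow, map_sub, map_one, aeval_X] at h4
    rw [hz'] at h4
    change z = _ at h4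
    rw [h4, hadj3]
    have hx' : (T ^ M) x = 0 := hx
    rw [hx']
    simp
  · rintro x ⟨x', rfl⟩ z hz
    rw [← hadj3, hCzero z hz, map_zero]

/-- The model of `T`. -/
theorem exists_model {B : LinearMap.BilinForm F V} (hB : Sy B) {k : ℕ} (hk : Module.finrank F V = 2 * k)
    {T : Module.End F V} (hT : Cc (0 : F) 1 B T) (hnil : IsNilpotent (T * (1 - T))) :
    ∃ (G : (Fin k ⊕ Fin k → F) →ₗ[F] V) (N : Matrix (Fin k) (Fin k) F), IsNilpotent N ∧
      (∀ u v, B (G u) (G v) = Cfsg.sympForm k F u v) ∧ ∀ v, G (TM N *ᵥ v) = T (G v) := by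
  classical
  obtain ⟨A, C, hc, hTA, hTC, hAiso, hCiso, M, hM⟩ := split_T hB hT hnil
  rw [cc01_iff] at hT
  have hadj2 : ∀ a b, B a ((1 - T) b) = B (T a) b := by
    intro a b
    have := hT a b
    simp only [LinearMap.sub_apply, Module.End.one_apply, map_sub]
    linear_combination -this
  have hsup : ∀ v : V, ∃ a ∈ A, ∃ c ∈ C, a + c = v := by
    intro v
    exact Submodule.mem_sup.mp (show v ∈ A ⊔ C by rw [hc.sup_eq_top]; trivial)
  let pC : C →ₗ[F] Module.Dual F A := ((B.domRestrict A).flip).domRestrict C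
  let pA : A →ₗ[F] Module.Dual F C := ((B.flip.domRestrict C).flip).domRestrict A
  have hpC : ∀ (c : C) (a : A), pC c a = B a c := fun _ _ => rfl
  have hpA : ∀ (a : A) (c : C), pA a c = B a c := fun _ _ => rfl
  have hpCi : Function.Injective pC := by
    rw [injective_iff_map_eq_zero]
    intro c hc0
    apply Subtype.ext
    apply hB.nd
    intro v
    obtain ⟨a, ha, c', hc', rfl⟩ := hsup v
    have h1 : B a c = 0 := by
      have := congrArg (fun f : Module.Dual F A => f ⟨a, ha⟩) hc0
      simpa [hpC] using this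
    rw [map_add, anti hB.alt, h1, hCiso c c.2 c' hc']
    simp
  have hpAi : Function.Injective pA := by
    rw [injective_iff_map_eq_zero]
    intro a ha0
    apply Subtype.ext
    apply hB.nd
    intro v
    obtain ⟨a', ha', c', hc', rfl⟩ := hsup v
    have h1 : B a c' = 0 := by
      have := congrArg (fun f : Module.Dual F C => f ⟨c', hc'⟩) ha0
      simpa [hpA] using this
    rw [map_add, h1, hAiso a a.2 a' ha']
    simp
  have h1 : Module.finrank F C ≤ Module.finrank F A := by
    have := LinearMap.finrank_le_finrank_of_injective hpCi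
    rwa [Subspace.dual_finrank_eq] at this
  have h2 : Module.finrank F A ≤ Module.finrank F C := by
    have := LinearMap.finrank_le_finrank_of_injective hpAi
    rwa [Subspace.dual_finrank_eq] at this
  have h3 := Submodule.finrank_add_eq_of_isCompl hc
  have hA : Module.finrank F A = k := by omega
  have hC : Module.finrank F C = k := by omega
  let a : Module.Basis (Fin k) F A := Module.finBasisOfFinrankEq F A hA
  have hpCs : Function.Surjective pC :=
    (LinearMap.injective_iff_surjective_of_finrank_eq_finrank (by rw [Subspace.dual_finrank_eq, hA, hC])).mp hpCi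
  have hex : ∀ i, ∃ c : C, pC c = - a.coord i := fun i => hpCs _
  choose c hc' using hex
  have hpair : ∀ j i, B (a j : V) (c i : V) = - (if i = j then 1 else 0) := by
    intro j i
    have := congrArg (fun f : Module.Dual F A => f (a j)) (hc' i)
    simp only [hpC, LinearMap.neg_apply, Module.Basis.coord_apply, Module.Basis.repr_self, Finsupp.single_apply] at this
    rw [this]
    simp [eq_comm]
  let G : (Fin k ⊕ Fin k → F) →ₗ[F] V :=
    ∑ i, (LinearMap.proj (Sum.inl i)).smulRight (a i : V) + ∑ i, (LinearMap.proj (Sum.inr i)).smulRight (c i : V)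
  have hG : ∀ v, G v = ∑ i, v (Sum.inl i) • (a i : V) + ∑ i, v (Sum.inr i) • (c i : V) := by
    intro v
    simp [G, LinearMap.sum_apply]
  have hPmem : ∀ v : Fin k → F, ∑ i, v i • (a i : V) ∈ A := fun v => A.sum_mem fun i _ => A.smul_mem _ (a i).2
  have hRmem : ∀ v : Fin k → F, ∑ i, v i • (c i : V) ∈ C := fun v => C.sum_mem fun i _ => C.smul_mem _ (c i).2
  have hcross : ∀ u v : Fin k → F, B (∑ i, u i • (a i : V)) (∑ i, v i • (c i : V)) = - ∑ i, u i * v i := by
    intro u v
    simp only [map_sum, LinearMap.sum_apply, map_smul, LinearMap.smul_apply, hpair, smul_eq_mul]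
    rw [← Finset.sum_neg_distrib]
    refine Finset.sum_congr rfl fun i _ => ?_
    simp [Finset.sum_ite_eq, Finset.mul_sum]
    ring
  let TA : Module.End F A := T.restrict hTA
  have hTAnil : TA ^ M = 0 := by
    ext w
    have := aeval_restrict T A hTA (X ^ M) w
    simp only [map_pow, aeval_X] at this
    change (((T.restrict hTA : Module.End F A) ^ M) w : V) = _
    rw [this]
    simpa using hM w.1 w.2
  let N : Matrix (Fin k) (Fin k) F := LinearMap.toMatrix a a TA
  have hNnil : IsNilpotent N := by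
    have : IsNilpotent (LinearMap.toMatrixAlgEquiv a TA) := IsNilpotent.map ⟨M, hTAnil⟩ (LinearMap.toMatrixAlgEquiv a)
    exact this
  have hN : ∀ j, T (a j : V) = ∑ i, N i j • (a i : V) := by
    intro j
    have h4 := a.sum_repr (TA (a j))
    have h5 := congrArg (Subtype.val) h4
    simp only [AddSubmonoidClass.coe_finsetSum, Submodule.coe_smul] at h5
    have h6 : ∀ i, N i j = a.repr (TA (a j)) i := fun i => LinearMap.toMatrix_apply a a TA i j
    simp only [h6]
    exact h5.symm
  have hstar : ∀ j, (1 - T) (c j : V) = ∑ i, N j i • (c i : V) := by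
    intro j
    have hmem : (1 - T) (c j : V) - ∑ i, N j i • (c i : V) ∈ C := by
      refine C.sub_mem ?_ (hRmem _)
      simp only [LinearMap.sub_apply, Module.End.one_apply]
      exact C.sub_mem (c j).2 (hTC _ (c j).2)
    have h0 : (⟨_, hmem⟩ : C) = 0 := by
      apply hpCi
      rw [map_zero]
      refine a.ext fun l => ?_
      rw [hpC, LinearMap.zero_apply]
      simp only [map_sub, hadj2, hN]
      simp only [LinearMap.sum_apply, map_sum, map_smul, LinearMap.smul_apply, hpair, smul_eq_mul]
      simp [Finset.sum_ite_eq, Finset.mul_sum]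
    exact sub_eq_zero.mp (congrArg Subtype.val h0)
  refine ⟨G, N, hNnil, ?_, ?_⟩
  · intro u v
    rw [hG, hG, sympForm_apply]
    simp only [map_add, LinearMap.add_apply]
    rw [hAiso _ (hPmem fun i => u (Sum.inl i)) _ (hPmem fun i => v (Sum.inl i)),
      hCiso _ (hRmem fun i => u (Sum.inr i)) _ (hRmem fun i => v (Sum.inr i)),
      hcross, anti hB.alt (∑ i, u (Sum.inr i) • (c i : V)), hcross, Finset.sum_sub_distrib]
    simp only [mul_comm]
    ring
  · intro v
    have e1 : ∀ i, (TM N *ᵥ v) (Sum.inl i) = (N *ᵥ (v ∘ Sum.inl)) i := fun i => congrFun (TM_inl N v) i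
    have e2 : ∀ i, (TM N *ᵥ v) (Sum.inr i) = ((1 - Nᵀ) *ᵥ (v ∘ Sum.inr)) i := fun i => congrFun (TM_inr N v) i
    rw [hG, hG]
    simp only [e1, e2, map_add, map_sum, map_smul]
    have e3 : ∑ i, (N *ᵥ (v ∘ Sum.inl)) i • (a i : V) = ∑ j, v (Sum.inl j) • T (a j : V) := by
      simp only [hN, Matrix.mulVec, dotProduct, Finset.sum_smul, Finset.smul_sum, Function.comp, smul_smul]
      rw [Finset.sum_comm]
      refine Finset.sum_congr rfl fun i _ => Finset.sum_congr rfl fun j _ => ?_
      rw [mul_comm]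
    have e4 : ∑ i, ((1 - Nᵀ) *ᵥ (v ∘ Sum.inr)) i • (c i : V) = ∑ j, v (Sum.inr j) • T (c j : V) := by
      have e5 : ∀ j, T (c j : V) = (c j : V) - ∑ i, N j i • (c i : V) := by
        intro j
        rw [← hstar]
        simp
      simp only [e5, Matrix.sub_mulVec, Matrix.one_mulVec, Pi.sub_apply, sub_smul, smul_sub, Finset.sum_sub_distrib,
        Function.comp]
      congr 1
      simp only [Matrix.mulVec, dotProduct, Matrix.transpose_apply, Finset.sum_smul, Finset.smul_sum, smul_smul, Function.comp]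
      rw [Finset.sum_comm]
      refine Finset.sum_congr rfl fun i _ => Finset.sum_congr rfl fun j _ => ?_
      rw [mul_comm]
    rw [e3, e4]

end Cfsg.Agent.Lib.KS2.SpC
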