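import Mathlib
import Cfsg.Agent.Lib.KS2.SpC5
import Cfsg.Agent.Lib.KS2.Nilp
import Cfsg.Agent.S0245

/-!
The number of solutions of `T + T^* = 1` with `T(1 - T)` nilpotent.
-/

set_option autoImplicit false
set_option linter.unusedSectionVars false
set_option linter.unusedVariables false

namespace Cfsg.Agent.Lib.KS2.SpC

open Module Polynomial Matrix Cfsg.Agent.Lib.Classical Cfsg.Agent.Lib.Classical.Abs
open Cfsg.Agent.Lib.KS2.Nilp

universe u

variable {F : Type u} [Field F] {k : ℕ}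

/-- Levi elements. -/
def HM (a a' : Matrix (Fin k) (Fin k) F) : Matrix (Fin k ⊕ Fin k) (Fin k ⊕ Fin k) F := fromBlocks a 0 0 a'ᵀ

lemma HM_mem (a a' : Matrix (Fin k) (Fin k) F) (h : a * a' = 1) (h' : a' * a = 1) :
    HM a a' ∈ symplecticGroup (Fin k) F := by
  rw [SymplecticGroup.mem_iff']
  unfold HM J
  rw [fromBlocks_transpose, fromBlocks_multiply, fromBlocks_multiply]
  have h1 : a' * a = 1 := h'
  have h2 : aᵀ * a'ᵀ = 1 := by
    rw [← Matrix.transpose_mul, h', Matrix.transpose_one]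
  simp [h1, h2]

lemma HM_TM (a a' N₀ : Matrix (Fin k) (Fin k) F) (h : a * a' = 1) (h' : a' * a = 1) :
    HM a a' * TM (a' * N₀ * a) = TM N₀ * HM a a' := by
  unfold HM TM
  rw [fromBlocks_multiply, fromBlocks_multiply]
  have h1 : a * (a' * N₀ * a) = N₀ * a := by
    rw [Matrix.mul_assoc, ← Matrix.mul_assoc a a', h, Matrix.one_mul]
  have h2 : a'ᵀ * aᵀ = 1 := by
    rw [← Matrix.transpose_mul, h, Matrix.transpose_one]
  have h3 : a'ᵀ * (1 - (a' * N₀ * a)ᵀ) = (1 - N₀ᵀ) * a'ᵀ := by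
    rw [Matrix.transpose_mul, Matrix.transpose_mul, Matrix.mul_sub, Matrix.sub_mul, Matrix.mul_one, Matrix.one_mul,
      ← Matrix.mul_assoc, ← Matrix.mul_assoc, h2, Matrix.one_mul]
  simp only [Matrix.mul_zero, Matrix.zero_mul, add_zero, zero_add, h1, h3]

lemma transpose_nil {N : Matrix (Fin k) (Fin k) F} (hN : IsNilpotent N) : IsNilpotent Nᵀ := by
  obtain ⟨m, hm⟩ := hN
  exact ⟨m, by rw [← Matrix.transpose_pow, hm, Matrix.transpose_zero]⟩

lemma levi_of [Fintype F] {y : Matrix (Fin k ⊕ Fin k) (Fin k ⊕ Fin k) F} (hy : y ∈ symplecticGroup (Fin k) F)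
    {N N₀ : Matrix (Fin k) (Fin k) F} (hN : IsNilpotent N) (hN₀ : IsNilpotent N₀) (h : y * TM N = TM N₀ * y) :
    ∃ a a' : Matrix (Fin k) (Fin k) F, a * a' = 1 ∧ a' * a = 1 ∧ y = HM a a' ∧ N = a' * N₀ * a := by
  obtain ⟨p, q, r, s, rfl⟩ : ∃ p q r s, y = fromBlocks p q r s :=
    ⟨_, _, _, _, (Matrix.fromBlocks_toBlocks y).symm⟩
  unfold TM at h
  rw [fromBlocks_multiply, fromBlocks_multiply] at h
  simp only [Matrix.mul_zero, Matrix.zero_mul, add_zero, zero_add] at h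
  rw [fromBlocks_inj] at h
  obtain ⟨h1, h2, h3, h4⟩ := h
  have hu : IsUnit (1 - Nᵀ) := (transpose_nil hN).isUnit_one_sub
  have hu₀ : IsUnit (1 - N₀ᵀ) := (transpose_nil hN₀).isUnit_one_sub
  have hq : q = 0 := intertwine_zero hN₀ hu h2.symm
  have hr : r = 0 := intertwine_zero' hN hu₀ h3.symm
  subst hq hr
  rw [SymplecticGroup.mem_iff'] at hy
  unfold J at hy
  rw [fromBlocks_transpose, fromBlocks_multiply, fromBlocks_multiply, fromBlocks_inj] at hy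
  simp only [Matrix.transpose_zero, Matrix.mul_zero, Matrix.zero_mul, add_zero, zero_add, Matrix.mul_neg, Matrix.neg_mul,
    Matrix.mul_one, Matrix.one_mul] at hy
  obtain ⟨-, hy2, hy3, -⟩ := hy
  have h5 : pᵀ * s = 1 := by
    rw [neg_inj] at hy2
    exact hy2
  have h6 : s * pᵀ = 1 := mul_eq_one_comm.mp h5
  have h7 : p * sᵀ = 1 := by
    have := congrArg Matrix.transpose h6
    rwa [Matrix.transpose_mul, Matrix.transpose_transpose, Matrix.transpose_one] at this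
  refine ⟨p, sᵀ, h7, hy3, ?_, ?_⟩
  · unfold HM
    rw [Matrix.transpose_transpose]
  · calc N = (sᵀ * p) * N := by rw [hy3, Matrix.one_mul]
      _ = sᵀ * (p * N) := Matrix.mul_assoc _ _ _
      _ = sᵀ * (N₀ * p) := by rw [h1]
      _ = _ := (Matrix.mul_assoc _ _ _).symm

/-- The parametrization. -/
noncomputable def Phi₀ (x : symplecticGroup (Fin k) F × Nil F k) : Matrix (Fin k ⊕ Fin k) (Fin k ⊕ Fin k) F :=
  (x.1 : Matrix (Fin k ⊕ Fin k) (Fin k ⊕ Fin k) F) * TM x.2.1 * ((x.1⁻¹ : symplecticGroup (Fin k) F) : Matrix (Fin k ⊕ Fin k) (Fin k ⊕ Fin k) F)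

/-- The target. -/
abbrev PM (F : Type u) [Field F] (k : ℕ) :=
  {M : Matrix (Fin k ⊕ Fin k) (Fin k ⊕ Fin k) F // Cc (0 : F) 1 (sympBilin k F) (Matrix.toLin' M) ∧ IsNilpotent (M * (1 - M))}

lemma sp_mul_inv (g : symplecticGroup (Fin k) F) :
    (g : Matrix (Fin k ⊕ Fin k) (Fin k ⊕ Fin k) F) * ((g⁻¹ : symplecticGroup (Fin k) F) : Matrix (Fin k ⊕ Fin k) (Fin k ⊕ Fin k) F) = 1 := by
  have := congrArg Subtype.val (mul_inv_cancel g)
  exact this

lemma sp_inv_mul (g : symplecticGroup (Fin k) F) :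
    ((g⁻¹ : symplecticGroup (Fin k) F) : Matrix (Fin k ⊕ Fin k) (Fin k ⊕ Fin k) F) * (g : Matrix (Fin k ⊕ Fin k) (Fin k ⊕ Fin k) F) = 1 := by
  have := congrArg Subtype.val (inv_mul_cancel g)
  exact this

lemma TM_nil {N : Matrix (Fin k) (Fin k) F} (hN : IsNilpotent N) : IsNilpotent (TM N * (1 - TM N)) := by
  obtain ⟨m, hm⟩ := hN
  have hm' : (Nᵀ) ^ m = 0 := by rw [← Matrix.transpose_pow, hm, Matrix.transpose_zero]
  have e : TM N * (1 - TM N) = fromBlocks (N * (1 - N)) 0 0 ((1 - Nᵀ) * Nᵀ) := by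
    have e1 : 1 - TM N = fromBlocks (1 - N) 0 0 Nᵀ := by
      unfold TM
      ext i j
      rcases i with i | i <;> rcases j with j | j <;> simp [Matrix.one_apply]
    rw [e1]
    unfold TM
    rw [fromBlocks_multiply]
    simp
  have hpow : ∀ (A D : Matrix (Fin k) (Fin k) F) (r : ℕ), (fromBlocks A 0 0 D) ^ r = fromBlocks (A ^ r) 0 0 (D ^ r) := by
    intro A D r
    induction r with
    | zero => simp
    | succ r ih =>
      rw [pow_succ, ih, fromBlocks_multiply, pow_succ, pow_succ]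
      simp
  refine ⟨m, ?_⟩
  rw [e, hpow]
  have hc1 : Commute N (1 - N) := (Commute.one_right N).sub_right (Commute.refl N)
  have hc2 : Commute (1 - Nᵀ) (Nᵀ) := ((Commute.one_left Nᵀ).sub_left (Commute.refl Nᵀ))
  rw [hc1.mul_pow, hc2.mul_pow, hm, hm']
  simp

lemma conj_cc (g : symplecticGroup (Fin k) F) {M : Matrix (Fin k ⊕ Fin k) (Fin k ⊕ Fin k) F}
    (hM : Cc (0 : F) 1 (sympBilin k F) (Matrix.toLin' M)) :
    Cc (0 : F) 1 (sympBilin k F) (Matrix.toLin' ((g : Matrix (Fin k ⊕ Fin k) (Fin k ⊕ Fin k) F) * M *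
      ((g⁻¹ : symplecticGroup (Fin k) F) : Matrix (Fin k ⊕ Fin k) (Fin k ⊕ Fin k) F))) := by
  rw [cc01_iff] at hM ⊢
  intro x y
  have hiso : ∀ u v, Cfsg.sympForm k F ((g : Matrix (Fin k ⊕ Fin k) (Fin k ⊕ Fin k) F) *ᵥ u) ((g : Matrix (Fin k ⊕ Fin k) (Fin k ⊕ Fin k) F) *ᵥ v) = Cfsg.sympForm k F u v :=
    mem_symplecticGroup_iff_preserves.mp g.2
  obtain ⟨a, rfl⟩ : ∃ a, x = (g : Matrix (Fin k ⊕ Fin k) (Fin k ⊕ Fin k) F) *ᵥ a :=
    ⟨((g⁻¹ : symplecticGroup (Fin k) F) : Matrix (Fin k ⊕ Fin k) (Fin k ⊕ Fin k) F) *ᵥ x, by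
      rw [Matrix.mulVec_mulVec, sp_mul_inv, Matrix.one_mulVec]⟩
  obtain ⟨b, rfl⟩ : ∃ b, y = (g : Matrix (Fin k ⊕ Fin k) (Fin k ⊕ Fin k) F) *ᵥ b :=
    ⟨((g⁻¹ : symplecticGroup (Fin k) F) : Matrix (Fin k ⊕ Fin k) (Fin k ⊕ Fin k) F) *ᵥ y, by
      rw [Matrix.mulVec_mulVec, sp_mul_inv, Matrix.one_mulVec]⟩
  have e : ∀ c, ((g : Matrix (Fin k ⊕ Fin k) (Fin k ⊕ Fin k) F) * M * ((g⁻¹ : symplecticGroup (Fin k) F) : Matrix (Fin k ⊕ Fin k) (Fin k ⊕ Fin k) F)) *ᵥ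
      ((g : Matrix (Fin k ⊕ Fin k) (Fin k ⊕ Fin k) F) *ᵥ c) = (g : Matrix (Fin k ⊕ Fin k) (Fin k ⊕ Fin k) F) *ᵥ (M *ᵥ c) := by
    intro c
    rw [Matrix.mulVec_mulVec, Matrix.mul_assoc, sp_inv_mul, Matrix.mul_one, Matrix.mulVec_mulVec]
  simp only [Matrix.toLin'_apply, sympBilin_apply, e, hiso]
  have := hM a b
  simpa only [Matrix.toLin'_apply, sympBilin_apply] using this

lemma conj_nil (g : symplecticGroup (Fin k) F) {M : Matrix (Fin k ⊕ Fin k) (Fin k ⊕ Fin k) F}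
    (hM : IsNilpotent (M * (1 - M))) :
    IsNilpotent (((g : Matrix (Fin k ⊕ Fin k) (Fin k ⊕ Fin k) F) * M *
      ((g⁻¹ : symplecticGroup (Fin k) F) : Matrix (Fin k ⊕ Fin k) (Fin k ⊕ Fin k) F)) * (1 - ((g : Matrix (Fin k ⊕ Fin k) (Fin k ⊕ Fin k) F) * M *
      ((g⁻¹ : symplecticGroup (Fin k) F) : Matrix (Fin k ⊕ Fin k) (Fin k ⊕ Fin k) F)))) := by
  set a := (g : Matrix (Fin k ⊕ Fin k) (Fin k ⊕ Fin k) F) with ha
  set b := ((g⁻¹ : symplecticGroup (Fin k) F) : Matrix (Fin k ⊕ Fin k) (Fin k ⊕ Fin k) F) with hb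
  have h1 : a * b = 1 := sp_mul_inv g
  have h2 : b * a = 1 := sp_inv_mul g
  have e : (a * M * b) * (1 - a * M * b) = a * (M * (1 - M)) * b := by
    have e2 : a * M * b * (a * M * b) = a * (M * M) * b := by
      calc a * M * b * (a * M * b) = a * M * (b * a) * M * b := by simp only [Matrix.mul_assoc]
        _ = _ := by rw [h2, Matrix.mul_one]; simp only [Matrix.mul_assoc]
    have e3 : a * (M * (1 - M)) * b = a * M * b - a * (M * M) * b := by
      rw [Matrix.mul_sub M, Matrix.mul_one, Matrix.mul_sub a, Matrix.sub_mul]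
    rw [Matrix.mul_sub, Matrix.mul_one, e2, e3]
  rw [e]
  obtain ⟨m, hm⟩ := hM
  refine ⟨m, ?_⟩
  have hpow : ∀ r : ℕ, (a * (M * (1 - M)) * b) ^ r = a * (M * (1 - M)) ^ r * b := by
    intro r
    induction r with
    | zero => simp [h1]
    | succ r ih =>
      rw [pow_succ, ih, pow_succ]
      calc a * (M * (1 - M)) ^ r * b * (a * (M * (1 - M)) * b) = a * (M * (1 - M)) ^ r * (b * a) * (M * (1 - M)) * b := by
            simp only [Matrix.mul_assoc]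
        _ = _ := by rw [h2, Matrix.mul_one]; simp only [Matrix.mul_assoc]
  rw [hpow, hm]
  simp

lemma Phi₀_mem (x : symplecticGroup (Fin k) F × Nil F k) :
    Cc (0 : F) 1 (sympBilin k F) (Matrix.toLin' (Phi₀ x)) ∧ IsNilpotent (Phi₀ x * (1 - Phi₀ x)) :=
  ⟨conj_cc x.1 (cc_TM x.2.1), conj_nil x.1 (TM_nil x.2.2)⟩

variable [Fintype F]

lemma nil_toLin (M : Matrix (Fin k ⊕ Fin k) (Fin k ⊕ Fin k) F) :
    IsNilpotent (Matrix.toLin' M * (1 - Matrix.toLin' M)) ↔ IsNilpotent (M * (1 - M)) := by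
  classical
  have e : Matrix.toLin' M * (1 - Matrix.toLin' M) = Matrix.toLinAlgEquiv' (M * (1 - M)) := by
    simp only [map_mul, map_sub, map_one]
    rfl
  rw [e]
  exact IsNilpotent.map_iff (Matrix.toLinAlgEquiv' (R := F) (n := Fin k ⊕ Fin k)).injective

/-- Surjectivity. -/
lemma Phi₀_surj (T : Matrix (Fin k ⊕ Fin k) (Fin k ⊕ Fin k) F) (h1 : Cc (0 : F) 1 (sympBilin k F) (Matrix.toLin' T))
    (h2 : IsNilpotent (T * (1 - T))) : ∃ x : symplecticGroup (Fin k) F × Nil F k, Phi₀ x = T := by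
  classical
  obtain ⟨G, N, hN, hG, hTG⟩ := exists_model (sy_std k (F := F)) (finrank_std k) h1 ((nil_toLin T).mpr h2)
  let g₀ := LinearMap.toMatrix' G
  have hg₀ : ∀ v, g₀ *ᵥ v = G v := fun v => LinearMap.toMatrix'_mulVec G v
  have hmem : g₀ ∈ symplecticGroup (Fin k) F := by
    rw [mem_symplecticGroup_iff_preserves]
    intro u v
    rw [hg₀, hg₀]
    exact hG u v
  refine ⟨(⟨g₀, hmem⟩, ⟨N, hN⟩), ?_⟩
  have h3 : g₀ * TM N = T * g₀ := by
    apply Matrix.toLin'.injective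
    apply LinearMap.ext
    intro w
    have h4 := hTG w
    simp only [Matrix.toLin'_apply] at h4 ⊢
    rw [← Matrix.mulVec_mulVec, ← Matrix.mulVec_mulVec, hg₀, hg₀, h4]
  change g₀ * TM N * ((⟨g₀, hmem⟩ : symplecticGroup (Fin k) F)⁻¹ : symplecticGroup (Fin k) F).1 = T
  rw [h3, Matrix.mul_assoc]
  have h5 := sp_mul_inv (⟨g₀, hmem⟩ : symplecticGroup (Fin k) F)
  simp only at h5
  rw [h5, Matrix.mul_one]

/-- The acting map on the parameter space. -/
noncomputable def actP (x₀ : symplecticGroup (Fin k) F × Nil F k) (h : GL (Fin k) F) :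
    symplecticGroup (Fin k) F × Nil F k :=
  (x₀.1 * ⟨HM (h : Matrix (Fin k) (Fin k) F) ((h⁻¹ : GL (Fin k) F) : Matrix (Fin k) (Fin k) F),
      HM_mem _ _ (by simp) (by simp)⟩,
    ⟨((h⁻¹ : GL (Fin k) F) : Matrix (Fin k) (Fin k) F) * x₀.2.1 * (h : Matrix (Fin k) (Fin k) F), by
      obtain ⟨m, hm⟩ := x₀.2.2
      refine ⟨m, ?_⟩
      have hpow : ∀ r : ℕ, (((h⁻¹ : GL (Fin k) F) : Matrix (Fin k) (Fin k) F) * x₀.2.1 * (h : Matrix (Fin k) (Fin k) F)) ^ r =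
          ((h⁻¹ : GL (Fin k) F) : Matrix (Fin k) (Fin k) F) * x₀.2.1 ^ r * (h : Matrix (Fin k) (Fin k) F) := by
        intro r
        induction r with
        | zero => simp
        | succ r ih =>
          rw [pow_succ, ih, pow_succ]
          have e : (h : Matrix (Fin k) (Fin k) F) * ((h⁻¹ : GL (Fin k) F) : Matrix (Fin k) (Fin k) F) = 1 := by simp
          calc _ = ((h⁻¹ : GL (Fin k) F) : Matrix (Fin k) (Fin k) F) * x₀.2.1 ^ r *
                ((h : Matrix (Fin k) (Fin k) F) * ((h⁻¹ : GL (Fin k) F) : Matrix (Fin k) (Fin k) F)) * x₀.2.1 * (h : Matrix (Fin k) (Fin k) F) := by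
                simp only [Matrix.mul_assoc]
            _ = _ := by rw [e, Matrix.mul_one]; simp only [Matrix.mul_assoc]
      rw [hpow, hm]
      simp⟩)

lemma actP_fib (x₀ : symplecticGroup (Fin k) F × Nil F k) (h : GL (Fin k) F) : Phi₀ (actP x₀ h) = Phi₀ x₀ := by
  set a := (h : Matrix (Fin k) (Fin k) F) with ha
  set a' := ((h⁻¹ : GL (Fin k) F) : Matrix (Fin k) (Fin k) F) with ha'
  have h1 : a * a' = 1 := by simp [ha, ha']
  have h2 : a' * a = 1 := by simp [ha, ha']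
  set y : symplecticGroup (Fin k) F := ⟨HM a a', HM_mem _ _ h1 h2⟩ with hy
  have e1 : (actP x₀ h).1 = x₀.1 * y := rfl
  have e2 : (actP x₀ h).2.1 = a' * x₀.2.1 * a := rfl
  unfold Phi₀
  rw [e1, e2, _root_.mul_inv_rev]
  have e3 : ∀ u v : symplecticGroup (Fin k) F, ((u * v : symplecticGroup (Fin k) F) : Matrix (Fin k ⊕ Fin k) (Fin k ⊕ Fin k) F) = u.1 * v.1 := fun _ _ => rfl
  rw [e3, e3]
  have e4 : y.1 * TM (a' * x₀.2.1 * a) = TM x₀.2.1 * y.1 := HM_TM a a' x₀.2.1 h1 h2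
  calc x₀.1.1 * y.1 * TM (a' * x₀.2.1 * a) * (y⁻¹.1 * (x₀.1)⁻¹.1)
      = x₀.1.1 * (y.1 * TM (a' * x₀.2.1 * a)) * (y⁻¹.1 * (x₀.1)⁻¹.1) := by simp only [Matrix.mul_assoc]
    _ = x₀.1.1 * TM x₀.2.1 * (y.1 * y⁻¹.1) * (x₀.1)⁻¹.1 := by rw [e4]; simp only [Matrix.mul_assoc]
    _ = _ := by rw [sp_mul_inv, Matrix.mul_one]

lemma actP_inj (x₀ : symplecticGroup (Fin k) F × Nil F k) : Function.Injective (actP x₀) := by
  intro h h' e
  have e1 : (actP x₀ h).1 = (actP x₀ h').1 := congrArg Prod.fst e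
  have e2 := mul_left_cancel e1
  have e3 := congrArg Subtype.val e2
  apply Units.ext
  have e4 := congrArg Matrix.toBlocks₁₁ e3
  simpa [HM] using e4

lemma actP_surj (x₀ x : symplecticGroup (Fin k) F × Nil F k) (hx : Phi₀ x = Phi₀ x₀) : ∃ h, actP x₀ h = x := by
  set y : symplecticGroup (Fin k) F := x₀.1⁻¹ * x.1 with hy
  have e1 : x.1 = x₀.1 * y := by rw [hy]; group
  have h1 : y.1 * TM x.2.1 = TM x₀.2.1 * y.1 := by
    unfold Phi₀ at hx
    have h2 : x.1.1 * TM x.2.1 = x₀.1.1 * TM x₀.2.1 * (x₀.1⁻¹.1 * x.1.1) := by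
      calc x.1.1 * TM x.2.1 = x.1.1 * TM x.2.1 * (x.1⁻¹.1 * x.1.1) := by rw [sp_inv_mul, Matrix.mul_one]
        _ = (x.1.1 * TM x.2.1 * x.1⁻¹.1) * x.1.1 := by simp only [Matrix.mul_assoc]
        _ = (x₀.1.1 * TM x₀.2.1 * x₀.1⁻¹.1) * x.1.1 := by rw [hx]
        _ = _ := by simp only [Matrix.mul_assoc]
    calc y.1 * TM x.2.1 = x₀.1⁻¹.1 * (x.1.1 * TM x.2.1) := by
          rw [hy]
          change (x₀.1⁻¹.1 * x.1.1) * TM x.2.1 = _
          rw [Matrix.mul_assoc]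
      _ = (x₀.1⁻¹.1 * x₀.1.1) * TM x₀.2.1 * (x₀.1⁻¹.1 * x.1.1) := by
          rw [h2]
          simp only [Matrix.mul_assoc]
      _ = TM x₀.2.1 * y.1 := by
          rw [sp_inv_mul, Matrix.one_mul]
          rfl
  obtain ⟨a, a', h2, h3, h4, h5⟩ := levi_of y.2 x.2.2 x₀.2.2 h1
  let g : GL (Fin k) F := ⟨a, a', h2, h3⟩
  refine ⟨g, ?_⟩
  apply Prod.ext
  · change x₀.1 * _ = x.1
    rw [e1]
    congr 1
    apply Subtype.ext
    exact h4.symm
  · apply Subtype.ext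
    exact h5.symm

/-- The count. -/
theorem card_P (k : ℕ) :
    Nat.card (XNil (0 : F) 1 (X * (1 - X) : F[X]) (sympBilin k F)) * gN F k = ss (Fintype.card F) k * nN F k := by
  classical
  have hfin1 : Finite (symplecticGroup (Fin k) F) := inferInstance
  have h0 : Nat.card (XNil (0 : F) 1 (X * (1 - X) : F[X]) (sympBilin k F)) = Nat.card (PM F k) := by
    apply Nat.card_congr
    symm
    refine Equiv.subtypeEquiv (Matrix.toLin' (R := F) (m := Fin k ⊕ Fin k) (n := Fin k ⊕ Fin k)).toEquiv ?_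
    intro M
    change _ ↔ (Cc (0 : F) 1 (sympBilin k F) (Matrix.toLin' M) ∧ IsNilpotent (aeval (Matrix.toLin' M) (X * (1 - X) : F[X])))
    rw [aeval_two, nil_toLin]
  have hsurj : ∀ T : PM F k, ∃ x, (⟨Phi₀ x, Phi₀_mem x⟩ : PM F k) = T := by
    rintro ⟨T, h1, h2⟩
    obtain ⟨x, hx⟩ := Phi₀_surj T h1 h2
    exact ⟨x, Subtype.ext hx⟩
  let Φ : symplecticGroup (Fin k) F × Nil F k → PM F k := fun x => ⟨Phi₀ x, Phi₀_mem x⟩
  have hfib : ∀ T : PM F k, Nat.card {x // Φ x = T} = gN F k := by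
    intro T
    obtain ⟨x₀, rfl⟩ := hsurj T
    have hb : Function.Bijective (fun h : GL (Fin k) F =>
        (⟨actP x₀ h, Subtype.ext (actP_fib x₀ h)⟩ : {x // Φ x = Φ x₀})) := by
      constructor
      · intro h h' e
        exact actP_inj x₀ (congrArg Subtype.val e)
      · rintro ⟨x, hx⟩
        obtain ⟨h, hh⟩ := actP_surj x₀ x (congrArg Subtype.val hx)
        exact ⟨h, Subtype.ext hh⟩
    exact (Nat.card_congr (Equiv.ofBijective _ hb)).symm
  have hfin2 : Finite (PM F k) := inferInstance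
  letI : Fintype (PM F k) := Fintype.ofFinite _
  have h1 := Nat.card_congr (Equiv.sigmaFiberEquiv Φ)
  rw [Nat.card_sigma] at h1
  simp only [hfib, Finset.sum_const, smul_eq_mul, Finset.card_univ] at h1
  have h2 : Nat.card (symplecticGroup (Fin k) F) = ss (Fintype.card F) k := Cfsg.Agent.S0245.result rfl k
  rw [h0, Nat.card_eq_fintype_card (α := PM F k), h1, Nat.card_prod, h2]
  rfl

end Cfsg.Agent.Lib.KS2.SpC
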