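import Mathlib
import Cfsg.Agent.Lib.KS2.SpC6

/-!
Steinberg's count for the symplectic group.
-/

set_option autoImplicit false
set_option linter.unusedSectionVars false
set_option linter.unusedVariables false

namespace Cfsg.Agent.Lib.KS2.SpC

open Module Polynomial Cfsg.Agent.Lib.Classical Cfsg.Agent.Lib.Classical.Abs
open Cfsg.Agent.Lib.KS2.Nilp

universe u

section numeric

/-- The series identity. -/
theorem series_identity (Q : ℚ) (hQ : 1 < Q) (a b c : ℕ → ℚ) (ha0 : a 0 = 1) (hb0 : b 0 = 1) (hc0 : c 0 = 1)
    (ha : ∀ j, a (j + 1) * (Q ^ (2 * (j + 1)) - 1) = Q ^ (2 * j + 1) * a j)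
    (hb : ∀ j, b (j + 1) * (Q ^ (2 * (j + 1)) - 1) = Q ^ (2 * j) * b j)
    (hc : ∀ k, c (k + 1) * (Q ^ (k + 1) - 1) = Q ^ k * c k) :
    PowerSeries.mk a * PowerSeries.mk b = PowerSeries.mk c := by
  set A := PowerSeries.mk a with hA
  set B := PowerSeries.mk b with hB
  set C := PowerSeries.mk c with hC
  have hQ2 : Q * Q ≠ 0 := by positivity
  have e1 : PowerSeries.rescale (Q * Q) A * (1 - PowerSeries.C Q * PowerSeries.X) = A := by
    ext n
    rw [mul_sub, mul_one, map_sub, ← mul_assoc, PowerSeries.coeff_rescale]
    cases n with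
    | zero =>
      simp [PowerSeries.coeff_zero_eq_constantCoeff]
    | succ n =>
      rw [PowerSeries.coeff_succ_mul_X, mul_comm _ (PowerSeries.C Q), PowerSeries.coeff_C_mul, PowerSeries.coeff_rescale]
      simp only [hA, PowerSeries.coeff_mk]
      have := ha n
      have e : (Q * Q) ^ (n + 1) = Q ^ (2 * (n + 1)) := by rw [pow_mul, sq]
      have e' : (Q * Q) ^ n = Q ^ (2 * n) := by rw [pow_mul, sq]
      rw [e, e']
      rw [pow_succ Q (2 * n)] at this
      linear_combination this
  have e2 : PowerSeries.rescale (Q * Q) B * (1 - PowerSeries.X) = B := by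
    ext n
    rw [mul_sub, mul_one, map_sub, PowerSeries.coeff_rescale]
    cases n with
    | zero =>
      simp [PowerSeries.coeff_zero_eq_constantCoeff]
    | succ n =>
      rw [PowerSeries.coeff_succ_mul_X, PowerSeries.coeff_rescale]
      simp only [hB, PowerSeries.coeff_mk]
      have := hb n
      have e : (Q * Q) ^ (n + 1) = Q ^ (2 * (n + 1)) := by rw [pow_mul, sq]
      have e' : (Q * Q) ^ n = Q ^ (2 * n) := by rw [pow_mul, sq]
      rw [e, e']
      linear_combination this
  have e3 : PowerSeries.rescale Q C * (1 - PowerSeries.X) = C := by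
    ext n
    rw [mul_sub, mul_one, map_sub, PowerSeries.coeff_rescale]
    cases n with
    | zero =>
      simp [PowerSeries.coeff_zero_eq_constantCoeff]
    | succ n =>
      rw [PowerSeries.coeff_succ_mul_X, PowerSeries.coeff_rescale]
      simp only [hC, PowerSeries.coeff_mk]
      have := hc n
      linear_combination this
  have e4 : PowerSeries.rescale (Q * Q) C * (1 - PowerSeries.C Q * PowerSeries.X) = PowerSeries.rescale Q C := by
    have h := congrArg (PowerSeries.rescale Q) e3
    rw [map_mul, PowerSeries.rescale_rescale, map_sub, map_one, PowerSeries.rescale_X] at h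
    exact h
  set G : PowerSeries ℚ := (1 - PowerSeries.C Q * PowerSeries.X) * (1 - PowerSeries.X) with hG
  have hG0 : PowerSeries.coeff 0 G = 1 := by
    simp [hG, PowerSeries.coeff_zero_eq_constantCoeff]
  set D := A * B - C with hD
  have e5 : PowerSeries.rescale (Q * Q) D * G = D := by
    have h1 : PowerSeries.rescale (Q * Q) (A * B) * G = A * B := by
      rw [map_mul]
      calc _ = (PowerSeries.rescale (Q * Q) A * (1 - PowerSeries.C Q * PowerSeries.X)) * (PowerSeries.rescale (Q * Q) B * (1 - PowerSeries.X)) := by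
            rw [hG]; ring
        _ = A * B := by rw [e1, e2]
    have h2 : PowerSeries.rescale (Q * Q) C * G = C := by
      calc _ = (PowerSeries.rescale (Q * Q) C * (1 - PowerSeries.C Q * PowerSeries.X)) * (1 - PowerSeries.X) := by
            rw [hG]; ring
        _ = C := by rw [e4, e3]
    rw [hD, map_sub, sub_mul, h1, h2]
  have hD0 : D = 0 := by
    ext n
    induction n using Nat.strong_induction_on with
    | _ n ih =>
      rw [map_zero]
      cases n with
      | zero =>
        simp [hD, hA, hB, hC, ha0, hb0, hc0, PowerSeries.coeff_zero_eq_constantCoeff, PowerSeries.coeff_mul]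
      | succ n =>
        have h1 := congrArg (PowerSeries.coeff (n + 1)) e5
        rw [PowerSeries.coeff_mul] at h1
        have h2 : ∑ p ∈ Finset.HasAntidiagonal.antidiagonal (n + 1), (PowerSeries.coeff p.1) (PowerSeries.rescale (Q * Q) D) * (PowerSeries.coeff p.2) G =
            (Q * Q) ^ (n + 1) * PowerSeries.coeff (n + 1) D := by
          rw [Finset.sum_eq_single (n + 1, 0)]
          · simp only [PowerSeries.coeff_rescale, hG0, mul_one]
          · rintro ⟨i, j⟩ hp hne
            have hij : i + j = n + 1 := Finset.HasAntidiagonal.mem_antidiagonal.mp hp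
            have hi : i < n + 1 := by
              by_contra hcon
              apply hne
              have : i = n + 1 := by omega
              have : j = 0 := by omega
              simp [*]
            have := ih i hi
            rw [map_zero] at this
            simp only [PowerSeries.coeff_rescale, this, mul_zero, zero_mul]
          · intro h
            exact (h (by simp)).elim
        rw [h2] at h1
        have h3 : ((Q * Q) ^ (n + 1) - 1) * PowerSeries.coeff (n + 1) D = 0 := by linear_combination h1
        have h4 : (Q * Q) ^ (n + 1) - 1 ≠ 0 := by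
          have h5 : 1 < Q * Q := by nlinarith
          have h6 : 1 < (Q * Q) ^ (n + 1) := one_lt_pow₀ h5 (by omega)
          linarith
        exact (mul_eq_zero.mp h3).resolve_left h4
  exact sub_eq_zero.mp hD0

/-- The final deduction. -/
theorem series_final (Q : ℚ) (hQ : 1 < Q) (u e p t ut c : ℕ → ℚ)
    (h1 : ∀ m, ∑ k ∈ Finset.range (m + 1), e k * u (m - k) = 1)
    (h2 : ∀ m, ∑ k ∈ Finset.range (m + 1), e k * p (m - k) = t m)
    (hp : p = c) (hc0 : c 0 = 1)
    (hc : ∀ k, c (k + 1) * (Q ^ (k + 1) - 1) = Q ^ k * c k)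
    (ht0 : t 0 = 1) (ht : ∀ j, t (j + 1) * (Q ^ (2 * (j + 1)) - 1) = Q ^ (2 * (j + 1)) * t j)
    (hu0 : ut 0 = 1) (hu : ∀ j, ut (j + 1) * (Q ^ (2 * (j + 1)) - 1) = Q ^ (2 * j + 1) * ut j) : u = ut := by
  subst hp
  have hQ0 : Q ≠ 0 := by positivity
  set b : ℕ → ℚ := fun j => t j / Q ^ (2 * j) with hb
  have hb0 : b 0 = 1 := by simp [hb, ht0]
  have hbr : ∀ j, b (j + 1) * (Q ^ (2 * (j + 1)) - 1) = Q ^ (2 * j) * b j := by
    intro j
    have := ht j
    simp only [hb]
    have h3 : Q ^ (2 * (j + 1)) ≠ 0 := pow_ne_zero _ hQ0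
    have h4 : Q ^ (2 * j) ≠ 0 := pow_ne_zero _ hQ0
    field_simp
    linear_combination this
  have hI := series_identity Q hQ ut b p hu0 hb0 hc0 hu hbr hc
  set U := PowerSeries.mk u with hU
  set E := PowerSeries.mk e with hE
  set P := PowerSeries.mk p with hP
  set T := PowerSeries.mk t with hT
  set UT := PowerSeries.mk ut with hUT
  set Bs := PowerSeries.mk b with hBs
  set Gm : PowerSeries ℚ := PowerSeries.mk (fun _ => (1 : ℚ)) with hGm
  have hGm1 : Gm * (1 - PowerSeries.X) = 1 := PowerSeries.mk_one_mul_one_sub_eq_one ℚ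
  have hEU : E * U = Gm := by
    ext m
    rw [PowerSeries.coeff_mul, Finset.Nat.sum_antidiagonal_eq_sum_range_succ (fun i j => PowerSeries.coeff i E * PowerSeries.coeff j U)]
    simp only [hE, hU, hGm, PowerSeries.coeff_mk]
    exact h1 m
  have hEP : E * P = T := by
    ext m
    rw [PowerSeries.coeff_mul, Finset.Nat.sum_antidiagonal_eq_sum_range_succ (fun i j => PowerSeries.coeff i E * PowerSeries.coeff j P)]
    simp only [hE, hP, hT, PowerSeries.coeff_mk]
    exact h2 m
  have hTB : T * (1 - PowerSeries.X) = Bs := by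
    ext n
    rw [mul_sub, mul_one, map_sub]
    cases n with
    | zero =>
      simp [hT, hBs, ht0, hb0, PowerSeries.coeff_zero_eq_constantCoeff]
    | succ n =>
      rw [PowerSeries.coeff_succ_mul_X]
      simp only [hT, hBs, PowerSeries.coeff_mk, hb]
      have := ht n
      have h3 : Q ^ (2 * (n + 1)) ≠ 0 := pow_ne_zero _ hQ0
      field_simp
      linear_combination this
  have hPne : P ≠ 0 := by
    intro h
    have := congrArg (PowerSeries.coeff 0) h
    simp only [hP, PowerSeries.coeff_mk, map_zero, hc0] at this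
    exact one_ne_zero this
  have h5 : (UT * E * (1 - PowerSeries.X)) * P = 1 * P := by
    calc (UT * E * (1 - PowerSeries.X)) * P = UT * ((E * P) * (1 - PowerSeries.X)) := by ring
      _ = UT * Bs := by rw [hEP, hTB]
      _ = P := hI
      _ = 1 * P := (one_mul _).symm
  have h6 : UT * E * (1 - PowerSeries.X) = 1 := mul_right_cancel₀ hPne h5
  have h7 : U * (E * (1 - PowerSeries.X)) = 1 := by
    calc U * (E * (1 - PowerSeries.X)) = (E * U) * (1 - PowerSeries.X) := by ring
      _ = 1 := by rw [hEU, hGm1]
  have h8 : U = UT := by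
    calc U = (UT * E * (1 - PowerSeries.X)) * U := by rw [h6, one_mul]
      _ = UT * (U * (E * (1 - PowerSeries.X))) := by ring
      _ = UT := by rw [h7, mul_one]
  funext n
  have := congrArg (PowerSeries.coeff n) h8
  simpa only [hU, hUT, PowerSeries.coeff_mk] using this

end numeric

end Cfsg.Agent.Lib.KS2.SpC
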