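import Mathlib
import Cfsg.Agent.Lib.KS2.SpC7

/-!
Steinberg's count for the symplectic group: assembling.
-/

set_option autoImplicit false
set_option linter.unusedSectionVars false
set_option linter.unusedVariables false

namespace Cfsg.Agent.Lib.KS2.SpC

open Module Polynomial Cfsg.Agent.Lib.Classical Cfsg.Agent.Lib.Classical.Abs
open Cfsg.Agent.Lib.KS2.Nilp

universe u

lemma ss_zero (q : ℕ) : ss q 0 = 1 := by simp [ss]

lemma ss_succ (q j : ℕ) : ss q (j + 1) = ss q j * q ^ (2 * j + 1) * (q ^ (2 * (j + 1)) - 1) := by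
  unfold ss
  rw [Finset.prod_range_succ]
  have : (j + 1) ^ 2 = j ^ 2 + (2 * j + 1) := by ring
  rw [this, pow_add]
  ring

lemma one_le_pow' (q : ℕ) (hq : 2 ≤ q) (n : ℕ) : 1 ≤ q ^ n := Nat.one_le_pow _ _ (by omega)

lemma one_lt_pow' (q : ℕ) (hq : 2 ≤ q) (n : ℕ) : 1 < q ^ (n + 1) :=
  Nat.one_lt_pow (by omega) (by omega)

lemma ss_pos (q : ℕ) (hq : 2 ≤ q) (j : ℕ) : 0 < ss q j := by
  unfold ss
  apply Nat.mul_pos (Nat.pow_pos (by omega))
  apply Finset.prod_pos
  intro i _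
  have : 1 < q ^ (2 * (i + 1)) := by
    have : 2 * (i + 1) = (2 * i + 1) + 1 := by ring
    rw [this]
    exact one_lt_pow' q hq _
  omega

variable (F : Type u) [Field F] [Fintype F]

lemma two_le_card : 2 ≤ Fintype.card F := Fintype.one_lt_card

theorem fit_ratio (c₁ c₂ : F) (y : F[X]) (m : ℕ)
    (hperp : ∀ T : Module.End F (Fin m ⊕ Fin m → F), Cc c₁ c₂ (sympBilin m F) T → ∀ (N : ℕ) (x z : Fin m ⊕ Fin m → F),
      ((aeval T y) ^ N) x = 0 → (sympBilin m F) x (((aeval T y) ^ N) z) = 0) :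
    (Nat.card {T : Module.End F (Fin m ⊕ Fin m → F) // Cc c₁ c₂ (sympBilin m F) T} : ℚ) / ss (Fintype.card F) m =
      ∑ k ∈ Finset.range (m + 1), ((Nat.card (XUn c₁ c₂ y (sympBilin k F)) : ℚ) / ss (Fintype.card F) k) *
        ((Nat.card (XNil c₁ c₂ y (sympBilin (m - k) F)) : ℚ) / ss (Fintype.card F) (m - k)) := by
  rw [card_fit2 c₁ c₂ y (sy_std m) (finrank_std m) hperp]
  push_cast
  rw [Finset.sum_div]
  apply Finset.sum_congr rfl
  intro k hk
  have hk' : k ≤ m := by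
    have := Finset.mem_range.mp hk
    omega
  have h := nn_count (F := F) (sy_std m) (finrank_std m) hk'
  have hq := two_le_card F
  have h0 : (ss (Fintype.card F) k : ℚ) ≠ 0 := by
    have := ss_pos _ hq k
    positivity
  have h1 : (ss (Fintype.card F) (m - k) : ℚ) ≠ 0 := by
    have := ss_pos _ hq (m - k)
    positivity
  have h2 : (ss (Fintype.card F) m : ℚ) ≠ 0 := by
    have := ss_pos _ hq m
    positivity
  rw [← h]
  push_cast
  have h3 : (Nat.card {W : Submodule F (Fin m ⊕ Fin m → F) // NDS (sympBilin m F) W ∧ Module.finrank F W = 2 * k} : ℚ) ≠ 0 := by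
    intro h4
    apply h2
    rw [← h]
    push_cast
    rw [h4, zero_mul]
  field_simp

lemma gN_zero : gN F 0 = 1 := by
  unfold gN
  rw [Nat.card_eq_one_iff_unique]
  exact ⟨inferInstance, ⟨1⟩⟩

theorem card_unip (m : ℕ) :
    Nat.card (XNil (1 : F) 0 (X - 1 : F[X]) (sympBilin m F)) = Fintype.card F ^ (2 * m ^ 2) := by
  classical
  set q := Fintype.card F with hq
  have hq2 : 2 ≤ q := two_le_card F
  have hq0 : (q : ℚ) ≠ 0 := by positivity
  have hq1 : (1 : ℚ) < q := by exact_mod_cast hq2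
  have hssne : ∀ j, (ss q j : ℚ) ≠ 0 := by
    intro j
    have := ss_pos _ hq2 j
    positivity
  have hgne : ∀ j, (gN F j : ℚ) ≠ 0 := by
    intro j
    have := gN_pos F j
    positivity
  have hsub : ∀ n, (((q ^ (n + 1) - 1 : ℕ)) : ℚ) = (q : ℚ) ^ (n + 1) - 1 := by
    intro n
    rw [Nat.cast_sub (one_le_pow' q hq2 _)]
    push_cast
    rfl
  have hsub0 : ∀ n, (q : ℚ) ^ (n + 1) - 1 ≠ 0 := by
    intro n
    have : (1 : ℚ) < (q : ℚ) ^ (n + 1) := one_lt_pow₀ hq1 (by omega)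
    linarith
  have hsub2 : ∀ j, (q : ℚ) ^ (2 * (j + 1)) - 1 ≠ 0 := by
    intro j
    have : 2 * (j + 1) = (2 * j + 1) + 1 := by ring
    rw [this]
    exact hsub0 _
  have hssr : ∀ j, (ss q (j + 1) : ℚ) = ss q j * (q : ℚ) ^ (2 * j + 1) * ((q : ℚ) ^ (2 * (j + 1)) - 1) := by
    intro j
    rw [ss_succ]
    have : 2 * (j + 1) = (2 * j + 1) + 1 := by ring
    rw [this]
    push_cast
    rw [hsub]
  have hfinal := series_final (q : ℚ) hq1
    (fun j => (Nat.card (XNil (1 : F) 0 (X - 1 : F[X]) (sympBilin j F)) : ℚ) / ss q j)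
    (fun j => (Nat.card (XUn (1 : F) 0 (X - 1 : F[X]) (sympBilin j F)) : ℚ) / ss q j)
    (fun j => (Nat.card (XNil (0 : F) 1 (X * (1 - X) : F[X]) (sympBilin j F)) : ℚ) / ss q j)
    (fun j => (q : ℚ) ^ (2 * j ^ 2 + j) / ss q j)
    (fun j => (q : ℚ) ^ (2 * j ^ 2) / ss q j)
    (fun k => (nN F k : ℚ) / gN F k)
    ?_ ?_ ?_ ?_ ?_ ?_ ?_ ?_ ?_
  · have := congrFun hfinal m
    have h2 := (div_left_inj' (hssne m)).mp this
    exact_mod_cast h2
  · intro m
    have h := fit_ratio F (1 : F) 0 (X - 1 : F[X]) m (hperp_one (sy_std m))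
    rw [← h, card_cc10 (sy_std m), card_iso_sy (sy_std m) (finrank_std m)]
    exact div_self (hssne m)
  · intro m
    have h := fit_ratio F (0 : F) 1 (X * (1 - X) : F[X]) m (hperp_two)
    rw [card_cc01] at h
    push_cast at h
    rw [h]
    apply Finset.sum_congr rfl
    intro k _
    rw [card_cayley (sy_std k)]
  · funext k
    have h := card_P (F := F) k
    have h' : (Nat.card (XNil (0 : F) 1 (X * (1 - X) : F[X]) (sympBilin k F)) : ℚ) * gN F k = ss q k * nN F k := by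
      exact_mod_cast h
    have := hssne k
    have := hgne k
    field_simp
    linear_combination h'
  · skip
    rw [nN_zero, gN_zero]
    simp
  · intro k
    rw [gN_succ, nN_succ, nN_eq]
    have e1 : ((gN F k * q ^ k * (q ^ (k + 1) - 1) : ℕ) : ℚ) = gN F k * (q : ℚ) ^ k * ((q : ℚ) ^ (k + 1) - 1) := by
      push_cast
      rw [hsub]
    rw [e1]
    have hgk := hgne k
    have h3 := hsub0 k
    have h4 : (q : ℚ) ^ k ≠ 0 := pow_ne_zero _ hq0
    have e2 : (k + 1) * k = k + k + k * (k - 1) := by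
      cases k with
      | zero => rfl
      | succ j =>
        simp only [Nat.add_sub_cancel]
        ring
    push_cast
    rw [e2, pow_add, pow_add]
    field_simp
    rw [hq]
  · simp [ss_zero]
  · intro j
    rw [hssr]
    have h1 := hssne j
    have h2 := hsub2 j
    have h3 : (q : ℚ) ^ (2 * j + 1) ≠ 0 := pow_ne_zero _ hq0
    have e1 : 2 * (j + 1) ^ 2 + (j + 1) = (2 * j + 1) + 2 * (j + 1) + (2 * j ^ 2 + j) := by ring
    rw [e1, pow_add, pow_add]
    field_simp
  · simp [ss_zero]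
  · intro j
    rw [hssr]
    have h1 := hssne j
    have h2 := hsub2 j
    have h3 : (q : ℚ) ^ (2 * j + 1) ≠ 0 := pow_ne_zero _ hq0
    have e1 : 2 * (j + 1) ^ 2 = (2 * j + 1) + (2 * j + 1) + (2 * j ^ 2) := by ring
    rw [e1, pow_add, pow_add]
    field_simp

end Cfsg.Agent.Lib.KS2.SpC
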