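import Mathlib
import Cfsg.Agent.Lib.KS2.SpC8

/-!
Steinberg's count for the symplectic group: the matrix form.
-/

set_option autoImplicit false
set_option linter.unusedSectionVars false
set_option linter.unusedVariables false

namespace Cfsg.Agent.Lib.KS2.SpC

open Module Polynomial Matrix Cfsg.Agent.Lib.Classical Cfsg.Agent.Lib.Classical.Abs

universe u

variable {F : Type u} [Field F]

lemma sub_one_pow_char {R : Type*} [Ring R] [Algebra F R] (p : ℕ) [Fact p.Prime] [CharP F p] (a : R) (k : ℕ) :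
    (a - 1) ^ (p ^ k) = a ^ (p ^ k) - 1 := by
  have h : ((X - 1 : F[X])) ^ (p ^ k) = X ^ (p ^ k) - 1 := by
    have := sub_pow_char_pow (R := F[X]) (p := p) (n := k) (x := X) (y := 1)
    rw [this, one_pow]
  have h2 := congrArg (aeval a) h
  simpa using h2

lemma nilp_iff {R : Type*} [Ring R] [Algebra F R] (p : ℕ) [Fact p.Prime] [CharP F p] (a : R) :
    IsNilpotent (a - 1) ↔ ∃ k : ℕ, a ^ (p ^ k) = 1 := by
  have hp : 1 < p := (Fact.out : p.Prime).one_lt
  constructor
  · rintro ⟨n, hn⟩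
    refine ⟨n, ?_⟩
    have h1 : n ≤ p ^ n := (Nat.lt_pow_self hp).le
    have h2 : (a - 1) ^ (p ^ n) = 0 := pow_eq_zero_of_le h1 hn
    rw [sub_one_pow_char (F := F) p] at h2
    exact sub_eq_zero.mp h2
  · rintro ⟨k, hk⟩
    refine ⟨p ^ k, ?_⟩
    rw [sub_one_pow_char (F := F) p, hk, sub_self]

lemma order_iff {G : Type*} [Group G] (p : ℕ) [Fact p.Prime] (g : G) :
    (∃ k : ℕ, orderOf g = p ^ k) ↔ ∃ k : ℕ, g ^ (p ^ k) = 1 := by
  constructor
  · rintro ⟨k, hk⟩
    exact ⟨k, by rw [← hk, pow_orderOf_eq_one]⟩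
  · rintro ⟨k, hk⟩
    obtain ⟨j, _, hj⟩ := (Nat.dvd_prime_pow (Fact.out : p.Prime)).mp (orderOf_dvd_of_pow_eq_one hk)
    exact ⟨j, hj⟩

lemma nil_toLin_sub {n : Type*} [Fintype n] [DecidableEq n] (M : Matrix n n F) :
    IsNilpotent (Matrix.toLin' M - 1) ↔ IsNilpotent (M - 1) := by
  have e : Matrix.toLin' M - 1 = Matrix.toLinAlgEquiv' (M - 1) := by
    rw [map_sub, map_one]
    rfl
  rw [e]
  exact IsNilpotent.map_iff (Matrix.toLinAlgEquiv' (R := F) (n := n)).injective

lemma sp_order_iff (p : ℕ) [Fact p.Prime] [CharP F p] {m : ℕ} [Fintype F] (g : symplecticGroup (Fin m) F) :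
    (∃ k : ℕ, orderOf g = p ^ k) ↔ IsNilpotent (aeval (Matrix.toLin' (g : Matrix (Fin m ⊕ Fin m) (Fin m ⊕ Fin m) F)) (X - 1 : F[X])) := by
  rw [aeval_one, nil_toLin_sub, nilp_iff (F := F) p, order_iff p]
  refine exists_congr fun k => ?_
  rw [Subtype.ext_iff]
  rfl

/-- Unipotent symplectic matrices and the unipotent isometries. -/
noncomputable def unipE (p : ℕ) [Fact p.Prime] [CharP F p] (m : ℕ) [Fintype F] :
    {g : symplecticGroup (Fin m) F // ∃ k : ℕ, orderOf g = p ^ k} ≃ XNil (1 : F) 0 (X - 1 : F[X]) (sympBilin m F) where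
  toFun g := ⟨Matrix.toLin' (g.1 : Matrix (Fin m ⊕ Fin m) (Fin m ⊕ Fin m) F), by
    rw [cc10_iff]
    intro x y
    simp only [Matrix.toLin'_apply, sympBilin_apply]
    exact mem_symplecticGroup_iff_preserves.mp g.1.2 x y, (sp_order_iff p g.1).mp g.2⟩
  invFun T :=
    have hM : LinearMap.toMatrix' T.1 ∈ symplecticGroup (Fin m) F := by
      rw [mem_symplecticGroup_iff_preserves]
      intro u v
      have := (cc10_iff.mp T.2.1) u v
      simp only [sympBilin_apply] at this
      rw [← this]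
      congr 1
      · exact LinearMap.toMatrix'_mulVec T.1 u
      · exact LinearMap.toMatrix'_mulVec T.1 v
    ⟨⟨LinearMap.toMatrix' T.1, hM⟩, by
      rw [sp_order_iff p]
      have := T.2.2
      convert this
      exact Matrix.toLin'_toMatrix' T.1⟩
  left_inv g := by
    apply Subtype.ext
    apply Subtype.ext
    exact LinearMap.toMatrix'_toLin' _
  right_inv T := by
    apply Subtype.ext
    exact Matrix.toLin'_toMatrix' T.1

theorem card_unip_matrix (p : ℕ) [Fact p.Prime] [CharP F p] (m : ℕ) [Fintype F] :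
    Nat.card {g : symplecticGroup (Fin m) F // ∃ k : ℕ, orderOf g = p ^ k} = Fintype.card F ^ (2 * m ^ 2) := by
  rw [Nat.card_congr (unipE p m), card_unip]

end Cfsg.Agent.Lib.KS2.SpC
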