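import Mathlib
import Cfsg.Agent.Lib.KS2.SpPrime
import Cfsg.Agent.Lib.KS2.AbSyl

/-!
# Sylow subgroups of `Sp_{2n}(q)` for large primes.
-/

set_option autoImplicit false
set_option linter.unusedSimpArgs false
set_option linter.unusedVariables false
set_option linter.deprecated false

universe u

namespace Cfsg.Agent.Lib.KS2.SpM

open Matrix Polynomial Cfsg.Agent.Lib.KS2.AbSyl

/-- Products of symplectic groups. -/
theorem exists_pi_emb (F : Type u) [Field F] (e : ℕ) : ∀ (a n : ℕ), n = a * e → ∃ φ : (Fin a → Sp e F) →* Sp n F, Function.Injective φ := by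
  intro a
  induction a with
  | zero =>
    intro n hn
    refine ⟨1, ?_⟩
    intro x y _
    funext i
    exact i.elim0
  | succ a ih =>
    intro n hn
    obtain ⟨φ₀, h₀⟩ := ih (a * e) rfl
    obtain ⟨φ₁, h₁⟩ := exists_emb e (a * e) F
    have hn' : n = e + a * e := by rw [hn]; ring
    subst hn'
    let ρ : (Fin (a + 1) → Sp e F) →* Sp e F × (Fin a → Sp e F) :=
      { toFun := fun z => (z 0, fun i => z i.succ)
        map_one' := rfl
        map_mul' := fun _ _ => rfl }
    have hρ : Function.Injective ρ := by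
      intro x y h
      funext i
      refine Fin.cases ?_ (fun j => ?_) i
      · exact congrArg Prod.fst h
      · exact congrFun (congrArg Prod.snd h) j
    refine ⟨φ₁.comp ((MonoidHom.prodMap (MonoidHom.id _) φ₀).comp ρ), ?_⟩
    rw [MonoidHom.coe_comp, MonoidHom.coe_comp]
    refine h₁.comp (Function.Injective.comp ?_ hρ)
    intro x y h
    have h1 : x.1 = y.1 := (Prod.ext_iff.mp h).1
    have h2 : φ₀ x.2 = φ₀ y.2 := (Prod.ext_iff.mp h).2
    exact Prod.ext h1 (h₀ h2)

theorem exists_pi_emb_le (F : Type u) [Field F] (e a n : ℕ) (h : a * e ≤ n) :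
    ∃ φ : (Fin a → Sp e F) →* Sp n F, Function.Injective φ := by
  obtain ⟨c, rfl⟩ := Nat.exists_eq_add_of_le h
  obtain ⟨φ₀, h₀⟩ := exists_pi_emb F e a (a * e) rfl
  obtain ⟨φ₁, h₁⟩ := exists_emb (a * e) c F
  refine ⟨φ₁.comp ((MonoidHom.inl _ _).comp φ₀), ?_⟩
  rw [MonoidHom.coe_comp, MonoidHom.coe_comp]
  refine h₁.comp (Function.Injective.comp ?_ h₀)
  intro x y h
  exact congrArg Prod.fst h

section Num

variable {q r : ℕ} [hr : Fact r.Prime]

lemma val_pow' (hq : 2 ≤ q) (hr2 : r ≠ 2) (hrq : ¬ r ∣ q) {t : ℕ} (ht : 1 ≤ t) (htr : ¬ r ∣ t) :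
    padicValNat r ((q ^ orderOf (q : ZMod r)) ^ t - 1) = padicValNat r (q ^ orderOf (q : ZMod r) - 1) := by
  set d := orderOf (q : ZMod r) with hd
  have hd0 : 0 < d := order_pos hrq
  rcases Nat.eq_or_lt_of_le ht with h | h
  · rw [← h, pow_one]
  have hodd : Odd r := hr.out.odd_of_ne_two hr2
  have h1 : 1 < q ^ d := Nat.one_lt_pow hd0.ne' (by omega)
  have h2 : r ∣ q ^ d - 1 := (dvd_pow_sub_one_iff (by omega) d).mpr dvd_rfl
  have h3 : ¬ r ∣ q ^ d := fun h => hrq (hr.out.dvd_of_dvd_pow h)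
  have h4 := padicValNat.pow_sub_pow (p := r) hodd (y := 1) (x := q ^ d) h1 h2 h3 (n := t) (by omega)
  rw [one_pow] at h4
  have ht0 : padicValNat r t = 0 := padicValNat.eq_zero_of_not_dvd htr
  rw [h4, ht0, add_zero]

/-- The `r`-part of the order of `Sp_{2n}`. -/
lemma val_Sp (hq : 2 ≤ q) (hr2 : r ≠ 2) (hrq : ¬ r ∣ q) (n : ℕ) (hrn : n < r) {e : ℕ}
    (he : (Odd (orderOf (q : ZMod r)) ∧ e = orderOf (q : ZMod r)) ∨ (Even (orderOf (q : ZMod r)) ∧ 2 * e = orderOf (q : ZMod r))) :
    (q ^ (n ^ 2) * ∏ i ∈ Finset.range n, (q ^ (2 * (i + 1)) - 1)).factorization r =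
      (n / e) * padicValNat r (q ^ orderOf (q : ZMod r) - 1) := by
  classical
  set d := orderOf (q : ZMod r) with hd
  have hd0 : 0 < d := order_pos hrq
  have he0 : 0 < e := by
    rcases he with ⟨_, h⟩ | ⟨_, h⟩ <;> omega
  have hpos : ∀ i ∈ Finset.range n, q ^ (2 * (i + 1)) - 1 ≠ 0 := by
    intro i _
    have : 1 < q ^ (2 * (i + 1)) := Nat.one_lt_pow (by omega) (by omega)
    omega
  have hprod : (∏ i ∈ Finset.range n, (q ^ (2 * (i + 1)) - 1)) ≠ 0 := Finset.prod_ne_zero_iff.mpr hpos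
  rw [Nat.factorization_mul (by positivity) hprod, Finsupp.add_apply, Nat.factorization_pow,
    Nat.factorization_prod hpos, Finsupp.finsetSum_apply]
  have h2 : q.factorization r = 0 := Nat.factorization_eq_zero_of_not_dvd hrq
  simp only [Finsupp.smul_apply, h2, smul_zero, zero_add, smul_eq_mul, mul_zero]
  have h3 : ∀ j ∈ Finset.range n, (q ^ (2 * (j + 1)) - 1).factorization r =
      if e ∣ j + 1 then padicValNat r (q ^ d - 1) else 0 := by
    intro j hj
    have hj' := Finset.mem_range.mp hj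
    split_ifs with hej
    · obtain ⟨u, hu⟩ := hej
      have hu0 : 1 ≤ u := by
        by_contra h0
        have : u = 0 := by omega
        rw [this] at hu
        omega
      have hur : u < r := by
        have : u ≤ e * u := Nat.le_mul_of_pos_left u he0
        omega
      rw [Nat.factorization_def _ hr.out]
      rcases he with ⟨_, h⟩ | ⟨_, h⟩
      · -- `d` odd
        have e1 : 2 * (j + 1) = d * (2 * u) := by
          rw [hu, h]
          ring
        rw [e1, pow_mul]
        apply val_pow' hq hr2 hrq (by omega)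
        intro h4
        rcases (Nat.Prime.dvd_mul hr.out).mp h4 with h5 | h5
        · exact hr2 ((Nat.prime_dvd_prime_iff_eq hr.out Nat.prime_two).mp h5)
        · have := Nat.le_of_dvd (by omega) h5
          omega
      · have e1 : 2 * (j + 1) = d * u := by
          rw [hu, ← h]
          ring
        rw [e1, pow_mul]
        apply val_pow' hq hr2 hrq hu0
        intro h5
        have := Nat.le_of_dvd (by omega) h5
        omega
    · apply Nat.factorization_eq_zero_of_not_dvd
      intro hdvd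
      apply hej
      exact eta_dvd he ((dvd_pow_sub_one_iff (by omega) _).mp hdvd)
  rw [Finset.sum_congr rfl h3, Finset.sum_ite, Finset.sum_const_zero, add_zero, Finset.sum_const, smul_eq_mul]
  congr 1
  have h4 : (Finset.range n).filter (fun j => e ∣ j + 1) = (Finset.range n).filter (fun j => e ∣ j + 1) := rfl
  have h5 : ((Finset.range n).filter (fun j => e ∣ j + 1)).card = ((Finset.Ioc 0 n).filter (fun i => e ∣ i)).card := by
    apply Finset.card_bij (fun j _ => j + 1)
    · intro j hj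
      simp only [Finset.mem_filter, Finset.mem_range, Finset.mem_Ioc] at hj ⊢
      exact ⟨⟨by omega, by omega⟩, hj.2⟩
    · intro a _ b _ h
      omega
    · intro i hi
      simp only [Finset.mem_filter, Finset.mem_Ioc] at hi
      refine ⟨i - 1, ?_, by omega⟩
      simp only [Finset.mem_filter, Finset.mem_range]
      refine ⟨by omega, ?_⟩
      rw [show i - 1 + 1 = i by omega]
      exact hi.2
  rw [h5, Nat.Ioc_filter_dvd_card_eq_div]

end Num

/-- The main theorem. -/
theorem sp_sylow {F : Type u} [Field F] [Fintype F] {q : ℕ} (hq : Fintype.card F = q) (n : ℕ)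
    (r : ℕ) [hr : Fact r.Prime] (hr2 : r ≠ 2) (hrn : n < r) (hrq : ¬ r ∣ q) (P : Sylow r ↥(Matrix.symplecticGroup (Fin n) F)) :
    Nonempty (↥(P : Subgroup ↥(Matrix.symplecticGroup (Fin n) F)) ≃*
      (Fin ((Finset.Icc 1 n).filter (fun i => orderOf (q : ZMod r) ∣ 2 * i)).card →
        Multiplicative (ZMod (r ^ padicValNat r ((Polynomial.cyclotomic (orderOf (q : ZMod r)) ℤ).eval (q : ℤ)).natAbs)))) := by
  classical
  have hq2 : 2 ≤ q := by rw [← hq]; exact Fintype.one_lt_card
  obtain ⟨p, hp⟩ := CharP.exists F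
  haveI : Fact p.Prime := ⟨CharP.char_is_prime F p⟩
  set d := orderOf (q : ZMod r) with hd
  have hd0 : 0 < d := order_pos hrq
  obtain ⟨e, he⟩ : ∃ e, (Odd d ∧ e = d) ∨ (Even d ∧ 2 * e = d) := by
    rcases Nat.even_or_odd d with h | h
    · obtain ⟨c, hc⟩ := h
      exact ⟨c, Or.inr ⟨⟨c, hc⟩, by omega⟩⟩
    · exact ⟨d, Or.inl ⟨h, rfl⟩⟩
  have he0 : 0 < e := by
    rcases he with ⟨_, h⟩ | ⟨_, h⟩ <;> omega
  have hcard : ((Finset.Icc 1 n).filter (fun i => d ∣ 2 * i)).card = n / e := by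
    rw [← Nat.Ioc_filter_dvd_card_eq_div n e]
    congr 1
    ext i
    simp only [Finset.mem_filter, Finset.mem_Icc, Finset.mem_Ioc]
    constructor
    · rintro ⟨⟨h1, h2⟩, h3⟩
      exact ⟨⟨by omega, h2⟩, eta_dvd he h3⟩
    · rintro ⟨⟨h1, h2⟩, h3⟩
      refine ⟨⟨by omega, h2⟩, ?_⟩
      rcases he with ⟨_, h⟩ | ⟨_, h⟩
      · rw [← h]
        exact h3.mul_left 2
      · rw [← h]
        exact Nat.mul_dvd_mul_left 2 h3
  rw [hcard]
  set v := padicValNat r ((Polynomial.cyclotomic d ℤ).eval (q : ℤ)).natAbs with hv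
  have hv2 : v = padicValNat r (q ^ d - 1) := val_cyclotomic hq2 hrq
  set M := r ^ v with hM
  have hMd : M ∣ q ^ d - 1 := by
    rw [hM, hv2]
    exact pow_padicValNat_dvd
  obtain ⟨c, hc⟩ : ∃ c : Sp e F, orderOf c = M := by
    rcases he with ⟨_, h⟩ | ⟨h1, h⟩
    · apply ord_minus he0
      rw [hq, h]
      exact hMd
    · apply ord_plus he0
      rw [hq]
      have e1 : q ^ d - 1 = (q ^ e + 1) * (q ^ e - 1) := by
        rw [← h, two_mul, pow_add]
        have h3 : 1 ≤ q ^ e := Nat.one_le_pow _ _ (by omega)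
        obtain ⟨u, hu⟩ : ∃ u, q ^ e = u + 1 := ⟨q ^ e - 1, by omega⟩
        rw [hu]
        have e2 : (u + 1) * (u + 1) = (u + 1 + 1) * u + 1 := by ring
        simp [e2]
      rw [e1] at hMd
      have h3 : ¬ r ∣ q ^ e - 1 := by
        intro h4
        have h5 := (dvd_pow_sub_one_iff (by omega) e).mp h4
        rw [← hd] at h5
        have h6 := Nat.le_of_dvd he0 h5
        omega
      have h4 : Nat.Coprime M (q ^ e - 1) := by
        rw [hM]
        exact Nat.Coprime.pow_left _ ((Nat.Prime.coprime_iff_not_dvd hr.out).mpr h3)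
      exact h4.dvd_of_dvd_mul_right hMd
  obtain ⟨e₀⟩ := exists_zmod_equiv c hc
  set a := n / e with ha
  have hadn : a * e ≤ n := Nat.div_mul_le_self n e
  obtain ⟨φ, hφ⟩ := exists_pi_emb_le F e a n hadn
  let ψ : (Fin a → Subgroup.zpowers c) →* Sp n F :=
    φ.comp (MonoidHom.compLeft (Subgroup.zpowers c).subtype (Fin a))
  have hψ : Function.Injective ψ := by
    apply Function.Injective.comp hφ
    intro x y hxy
    funext j
    exact Subtype.ext (congrFun hxy j)
  refine sylow_iso_of_hom e₀ ψ hψ (by rw [Nat.card_zpowers, hc]) ⟨v, rfl, ?_⟩ P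
  rw [Cfsg.Agent.S0245.result hq n, val_Sp hq2 hr2 hrq n hrn he, ← hv2]

end Cfsg.Agent.Lib.KS2.SpM
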