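import Mathlib
import Cfsg.Agent.Lib.Classical.Transvection

/-!
Steinberg's explicit generators of `SL_{n+1}(K)`: the monomial element `w` and the root group `x₁₂(t)` generate.
-/

set_option autoImplicit false
set_option linter.unusedSimpArgs false
set_option linter.unusedVariables false

namespace Cfsg.Agent.Lib.KS2.StGen

open Matrix
open scoped MatrixGroups commutatorElement

variable {K : Type*} [Field K] {n : ℕ}

/-- Elementary transvection. -/
abbrev TT {i j : Fin n} (h : i ≠ j) (t : K) : SpecialLinearGroup (Fin n) K :=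
  Matrix.SpecialLinearGroup.transvection h t

lemma TT_coe {i j : Fin n} (h : i ≠ j) (t : K) :
    ((TT h t : SpecialLinearGroup (Fin n) K) : Matrix (Fin n) (Fin n) K) = 1 + single i j t := rfl

lemma one_add_single_mul_apply (A : Matrix (Fin n) (Fin n) K) (a b : Fin n) (c : K) (k l : Fin n) :
    ((1 + single a b c) * A) k l = A k l + if k = a then c * A b l else 0 := by
  rw [add_mul, one_mul, Matrix.add_apply]
  by_cases h : k = a
  · subst h; simp [single_mul_apply_same]
  · have h' : ¬ a = k := fun e => h e.symm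
    simp [single_mul_apply_of_ne, h, h']

lemma TT_mul {i j : Fin n} (h : i ≠ j) (s t : K) : TT h s * TT h t = TT h (s + t) := by
  apply Subtype.ext
  simp only [Matrix.SpecialLinearGroup.coe_mul, TT_coe]
  ext a b
  simp only [Cfsg.Agent.Lib.Classical.mul_one_add_single_apply, Matrix.add_apply, Matrix.one_apply, Matrix.single_apply]
  grind

lemma TT_inv {i j : Fin n} (h : i ≠ j) (t : K) : (TT h t)⁻¹ = TT h (-t) := by
  apply inv_eq_of_mul_eq_one_right
  rw [TT_mul]
  apply Subtype.ext
  simp [TT_coe]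

lemma TT_zero {i j : Fin n} (h : i ≠ j) : TT h (0 : K) = 1 := by
  apply Subtype.ext
  simp [TT_coe]

/-- Conjugation of elementary transvections under an element with suitable rows and columns. -/
lemma conj_TT (w : SpecialLinearGroup (Fin n) K) {a b a' b' : Fin n} (hab : a ≠ b) (hab' : a' ≠ b') (s s' t t' : K)
    (h1 : ∀ i, (w : Matrix (Fin n) (Fin n) K) i a' = if i = a then s else 0)
    (h2 : ∀ j, (w : Matrix (Fin n) (Fin n) K) b j = if j = b' then s' else 0) (ht : s * t' = t * s') :
    w⁻¹ * TT hab t * w = TT hab' t' := by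
  have key : TT hab t * w = w * TT hab' t' := by
    apply Subtype.ext
    simp only [Matrix.SpecialLinearGroup.coe_mul, TT_coe]
    ext i j
    rw [Cfsg.Agent.Lib.Classical.mul_one_add_single_apply, one_add_single_mul_apply, h1, h2]
    by_cases hi : i = a
    · by_cases hj : j = b'
      · simp [hi, hj, ht, mul_comm]
      · simp [hi, hj]
    · simp [hi]
  rw [mul_assoc, key, inv_mul_cancel_left]

lemma mem_of_comm {G : Type*} [Group G] (H : Subgroup G) {a b : G} (ha : a ∈ H) (hb : b ∈ H) : ⁅a, b⁆ ∈ H := by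
  rw [commutatorElement_def]
  exact H.mul_mem (H.mul_mem (H.mul_mem ha hb) (H.inv_mem ha)) (H.inv_mem hb)

section Main

variable (hn : 1 ≤ n)
include hn

/-- From `w` and the root group `x₁₂` to everything. -/
theorem top_of_w (H : Subgroup (SpecialLinearGroup (Fin (n + 1)) K)) (w : SpecialLinearGroup (Fin (n + 1)) K)
    (hw : (w : Matrix (Fin (n + 1)) (Fin (n + 1)) K) =
      Matrix.of (fun i j => if j.val = i.val + 1 then 1 else if i.val = n ∧ j.val = 0 then (-1) ^ n else 0))
    (hwH : w ∈ H)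
    (hT : ∀ t : K, TT (i := ⟨0, by omega⟩) (j := ⟨1, by omega⟩) (by simp [Fin.ext_iff]) t ∈ H) : H = ⊤ := by
  have hwa : ∀ i j, (w : Matrix (Fin (n + 1)) (Fin (n + 1)) K) i j = if j.val = i.val + 1 then 1 else if i.val = n ∧ j.val = 0 then (-1) ^ n else 0 := by
    intro i j
    rw [hw]
    rfl
  -- superdiagonal
  have h1 : ∀ k : ℕ, ∀ (hk : k + 1 ≤ n) (t : K), TT (i := ⟨k, by omega⟩) (j := ⟨k + 1, by omega⟩) (by simp [Fin.ext_iff]) t ∈ H := by
    intro k
    induction k with
    | zero =>
      intro hk t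
      exact hT t
    | succ k ih =>
      intro hk t
      have := conj_TT (K := K) w (a := ⟨k, by omega⟩) (b := ⟨k + 1, by omega⟩) (a' := ⟨k + 1, by omega⟩) (b' := ⟨k + 1 + 1, by omega⟩)
        (by simp [Fin.ext_iff]) (by simp [Fin.ext_iff]) 1 1 t t ?_ ?_ (by ring)
      · rw [← this]
        exact H.mul_mem (H.mul_mem (H.inv_mem hwH) (ih (by omega) t)) hwH
      · intro i
        rw [hwa]
        have h3 : ¬ (i.val = n ∧ k + 1 = 0) := by omega
        simp only [Fin.ext_iff, h3, if_false]
        split_ifs <;> first | rfl | (exfalso; omega)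
      · intro j
        rw [hwa]
        have h3 : ¬ (k + 1 = n ∧ j.val = 0) := by omega
        simp only [Fin.ext_iff, h3, if_false]
  -- the last one
  have h2 : ∀ t : K, TT (i := ⟨n, by omega⟩) (j := ⟨0, by omega⟩) (by simp [Fin.ext_iff]; omega) t ∈ H := by
    intro t
    have hs : ((-1 : K) ^ n) * ((-1 : K) ^ n) = 1 := by
      rw [← mul_pow]; simp
    have := conj_TT (K := K) w (a := ⟨n - 1, by omega⟩) (b := ⟨n - 1 + 1, by omega⟩) (a' := ⟨n - 1 + 1, by omega⟩) (b' := ⟨0, by omega⟩)
        (by simp [Fin.ext_iff]) (by simp [Fin.ext_iff]) 1 ((-1) ^ n) (t * (-1) ^ n) t ?_ ?_ (by rw [mul_assoc, hs]; ring)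
    · have e : (⟨n - 1 + 1, by omega⟩ : Fin (n + 1)) = ⟨n, by omega⟩ := Fin.ext (by simp only; omega)
      have hm := H.mul_mem (H.mul_mem (H.inv_mem hwH) (h1 (n - 1) (by omega) (t * (-1) ^ n))) hwH
      rw [this] at hm
      convert hm using 2
      all_goals simp only [e]
    · intro i
      rw [hwa]
      have h3 : ¬ (i.val = n ∧ n - 1 + 1 = 0) := by omega
      simp only [Fin.ext_iff, h3, if_false]
      split_ifs <;> first | rfl | (exfalso; omega)
    · intro j
      rw [hwa]
      have e1 : (n - 1 + 1 : ℕ) = n := by omega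
      simp only [e1, Fin.ext_iff, true_and]
      have : ¬ j.val = n + 1 := by have := j.2; omega
      simp only [this, if_false]
  have hup : ∀ d : ℕ, ∀ (i j : Fin (n + 1)) (hij : i ≠ j), j.val = i.val + d + 1 → ∀ t : K, TT hij t ∈ H := by
    have hup1 : ∀ (i j : Fin (n + 1)) (hij : i ≠ j), j.val = i.val + 1 → ∀ t : K, TT hij t ∈ H := by
      intro i j hij hd t
      have h3 := h1 i.val (by have := j.2; omega) t
      convert h3 using 3
    intro d
    induction d with
    | zero =>
      intro i j hij hd t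
      exact hup1 i j hij (by omega) t
    | succ d ih =>
      intro i j hij hd t
      have hkj : (⟨i.val + d + 1, by have := j.2; omega⟩ : Fin (n + 1)) ≠ j := by
        intro h; have := congrArg Fin.val h; simp only at this; omega
      have hik : i ≠ (⟨i.val + d + 1, by have := j.2; omega⟩ : Fin (n + 1)) := by
        intro h; have := congrArg Fin.val h; simp only at this; omega
      rw [TT, ← Cfsg.Agent.Lib.Classical.commutatorElement_transvection hij hik hkj t]
      exact mem_of_comm H (ih i _ hik rfl t) (hup1 _ j hkj (by simp only; omega) 1)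
  have hup' : ∀ (i j : Fin (n + 1)) (hij : i ≠ j), i.val < j.val → ∀ t : K, TT hij t ∈ H := by
    intro i j hij hlt
    exact hup (j.val - i.val - 1) i j hij (by omega)
  have hil : ∀ (hne : (⟨n, by omega⟩ : Fin (n + 1)) ≠ ⟨0, by omega⟩) (t : K), TT hne t ∈ H := fun hne t => h2 t
  have hdown : ∀ (i j : Fin (n + 1)) (hij : i ≠ j), j.val < i.val → ∀ t : K, TT hij t ∈ H := by
    intro i j hij hlt t
    have hl0 : (⟨n, by omega⟩ : Fin (n + 1)) ≠ ⟨0, by omega⟩ := by simp [Fin.ext_iff]; omega
    -- first `T n j`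
    have hnj : ∀ (j : Fin (n + 1)) (hj : (⟨n, by omega⟩ : Fin (n + 1)) ≠ j) (t : K), TT hj t ∈ H := by
      intro j hj t
      by_cases h0 : j.val = 0
      · have e : j = ⟨0, by omega⟩ := Fin.ext h0
        exact (by
          obtain ⟨j, hj'⟩ := j
          simp only at h0
          subst h0
          exact h2 t)
      · have h01 : (⟨0, by omega⟩ : Fin (n + 1)) ≠ j := by
          intro h; apply h0; rw [← h]
        rw [TT, ← Cfsg.Agent.Lib.Classical.commutatorElement_transvection hj hl0 h01 t]
        exact mem_of_comm H (h2 t) (hup' _ j h01 (by simp only; omega) 1)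
    by_cases hi : i.val = n
    · obtain ⟨i, hi'⟩ := i
      simp only at hi
      subst hi
      exact hnj j hij t
    · have hin : i ≠ (⟨n, by omega⟩ : Fin (n + 1)) := by
        intro h; apply hi; rw [h]
      have hnj' : (⟨n, by omega⟩ : Fin (n + 1)) ≠ j := by
        intro h; have := congrArg Fin.val h; simp only at this; have := i.2; omega
      rw [TT, ← Cfsg.Agent.Lib.Classical.commutatorElement_transvection hij hin hnj' t]
      exact mem_of_comm H (hup' i _ hin (by simp only; have := i.2; omega) t) (hnj j hnj' 1)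
  haveI : Nontrivial (Fin (n + 1)) := Fin.nontrivial_iff_two_le.mpr (by omega)
  rw [eq_top_iff, ← Cfsg.Agent.Lib.Classical.closure_transvections, Subgroup.closure_le]
  rintro g ⟨i, j, hij, a, rfl⟩
  rcases lt_or_gt_of_ne (fun h => hij (Fin.ext h) : i.val ≠ j.val) with hlt | hlt
  · exact hup' i j hij hlt a
  · exact hdown i j hij hlt a

end Main

section Fields

/-- Over a field with at most three elements, everything is a natural number. -/
lemma exists_nat_of_card_le_three [Fintype K] (hK : Fintype.card K ≤ 3) (c : K) : ∃ m : ℕ, c = (m : K) := by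
  obtain ⟨p, _, m, hp, hm⟩ := FiniteField.card' (K := K)
  have hm1 : (m : ℕ) = 1 := by
    by_contra hne
    have h2 : 2 ≤ (m : ℕ) := by have := m.pos; omega
    have h4 : p ^ 2 ≤ p ^ (m : ℕ) := Nat.pow_le_pow_right hp.pos h2
    have h5 := hp.two_le
    nlinarith
  rw [hm1, pow_one] at hm
  let e := ZMod.ringEquivOfPrime K hp hm
  refine ⟨(e.symm c).val, ?_⟩
  haveI : NeZero p := ⟨hp.ne_zero⟩
  have h1 : e (((e.symm c).val : ℕ) : ZMod p) = ((e.symm c).val : K) := map_natCast e _
  rw [← h1, ZMod.natCast_zmod_val, RingEquiv.apply_symm_apply]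

end Fields

lemma diag_TT {i0 i1 : Fin n} (h0 : i0 ≠ i1) (a : Fin n → K) (E : SpecialLinearGroup (Fin n) K)
    (hE : (E : Matrix (Fin n) (Fin n) K) = diagonal a) (t s : K) (hts : a i0 * t = s * a i1) :
    E * TT h0 t = TT h0 s * E := by
  apply Subtype.ext
  simp only [Matrix.SpecialLinearGroup.coe_mul, TT_coe, hE]
  ext i j
  rw [Cfsg.Agent.Lib.Classical.mul_one_add_single_apply, one_add_single_mul_apply]
  by_cases hi : i = i0
  · subst hi
    by_cases hj : j = i1
    · subst hj
      simp [diagonal_apply, h0, hts]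
    · simp [diagonal_apply, hj, Ne.symm hj]
  · by_cases hj : j = i1
    · subst hj
      simp [diagonal_apply, hi]
    · simp [hi, hj]

variable (hn : 1 ≤ n)
include hn

lemma one_eq : (1 : Fin (n + 1)) = ⟨1, by omega⟩ := by
  apply Fin.ext
  rw [Fin.val_one']
  exact Nat.mod_eq_of_lt (by omega)

/-- The two-or-three-element field case. -/
theorem gen_small [Fintype K] (hK : Fintype.card K ≤ 3)
    (x w : SpecialLinearGroup (Fin (n + 1)) K)
    (hx : (x : Matrix (Fin (n + 1)) (Fin (n + 1)) K) = Matrix.transvection (0 : Fin (n + 1)) (1 : Fin (n + 1)) 1)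
    (hw : (w : Matrix (Fin (n + 1)) (Fin (n + 1)) K) =
      Matrix.of (fun i j => if j.val = i.val + 1 then 1 else if i.val = n ∧ j.val = 0 then (-1) ^ n else 0)) :
    Subgroup.closure ({x, w} : Set (SpecialLinearGroup (Fin (n + 1)) K)) = ⊤ := by
  set H := Subgroup.closure ({x, w} : Set (SpecialLinearGroup (Fin (n + 1)) K)) with hH
  have hxH : x ∈ H := Subgroup.subset_closure (by simp)
  have hwH : w ∈ H := Subgroup.subset_closure (by simp)
  refine top_of_w hn H w hw hwH ?_
  have h0 : (⟨0, by omega⟩ : Fin (n + 1)) ≠ ⟨1, by omega⟩ := by simp [Fin.ext_iff]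
  have hxT : x = TT h0 (1 : K) := by
    apply Subtype.ext
    rw [hx, TT_coe, one_eq hn]
    rfl
  have hnat : ∀ m : ℕ, TT h0 (m : K) ∈ H := by
    intro m
    induction m with
    | zero =>
      simp only [Nat.cast_zero, TT_zero]
      exact H.one_mem
    | succ m ih =>
      have := H.mul_mem ih hxH
      rw [hxT, TT_mul] at this
      simpa using this
  intro t
  obtain ⟨m, rfl⟩ := exists_nat_of_card_le_three hK t
  exact hnat m

/-- The case of more than three elements. -/
theorem gen_large [Fintype K] (hK : 3 < Fintype.card K) (k : Kˣ) (hk : ∀ u : Kˣ, u ∈ Subgroup.zpowers k)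
    (h x w : SpecialLinearGroup (Fin (n + 1)) K)
    (hh : (h : Matrix (Fin (n + 1)) (Fin (n + 1)) K) =
      Matrix.diagonal (fun i => if i.val = 0 then (k : K) else if i.val = 1 then ((k⁻¹ : Kˣ) : K) else 1))
    (hx : (x : Matrix (Fin (n + 1)) (Fin (n + 1)) K) = Matrix.transvection (0 : Fin (n + 1)) (1 : Fin (n + 1)) 1)
    (hw : (w : Matrix (Fin (n + 1)) (Fin (n + 1)) K) =
      Matrix.of (fun i j => if j.val = i.val + 1 then 1 else if i.val = n ∧ j.val = 0 then (-1) ^ n else 0)) :
    Subgroup.closure ({h, x * w} : Set (SpecialLinearGroup (Fin (n + 1)) K)) = ⊤ := by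
  classical
  set H := Subgroup.closure ({h, x * w} : Set (SpecialLinearGroup (Fin (n + 1)) K)) with hH
  have hhH : h ∈ H := Subgroup.subset_closure (by simp)
  have hxwH : x * w ∈ H := Subgroup.subset_closure (by simp)
  have h0 : (⟨0, by omega⟩ : Fin (n + 1)) ≠ ⟨1, by omega⟩ := by simp [Fin.ext_iff]
  have hxT : x = TT h0 (1 : K) := by
    apply Subtype.ext
    rw [hx, TT_coe, one_eq hn]
    rfl
  -- k has large order
  have hord : orderOf k = Fintype.card K - 1 := by
    rw [orderOf_eq_card_of_forall_mem_zpowers hk, Nat.card_eq_fintype_card, Fintype.card_units]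
  have hk2 : (k : K) ^ 2 ≠ 1 := by
    intro h2
    have h3 : k ^ 2 = 1 := by
      apply Units.ext
      simpa using h2
    have h4 := orderOf_dvd_of_pow_eq_one h3
    rw [hord] at h4
    have := Nat.le_of_dvd (by norm_num) h4
    omega
  have hk0 : (k : K) ≠ 0 := k.ne_zero
  -- the diagonal action
  have hdiag : ∀ (a : Fin (n + 1) → K) (E : SpecialLinearGroup (Fin (n + 1)) K), (E : Matrix (Fin (n + 1)) (Fin (n + 1)) K) = diagonal a →
      ∀ t s : K, a ⟨0, by omega⟩ * t = s * a ⟨1, by omega⟩ → E * TT h0 t = TT h0 s * E := fun a E hE t s hts => diag_TT h0 a E hE t s hts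
  -- `h⁻¹` and `d'`
  set a : Fin (n + 1) → K := fun i => if i.val = 0 then ((k⁻¹ : Kˣ) : K) else if i.val = 1 then (k : K) else 1 with ha
  have hinv : (((h⁻¹ : SpecialLinearGroup (Fin (n + 1)) K)) : Matrix (Fin (n + 1)) (Fin (n + 1)) K) = diagonal a := by
    have h1 : (h : Matrix (Fin (n + 1)) (Fin (n + 1)) K) * diagonal a = 1 := by
      rw [hh, diagonal_mul_diagonal, ← diagonal_one]
      congr 1
      ext i
      simp only [ha]
      by_cases h0 : i.val = 0
      · simp [h0]
      · by_cases h1 : i.val = 1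
        · simp [h1]
        · simp [h0, h1]
    have h2 : ((h⁻¹ : SpecialLinearGroup (Fin (n + 1)) K) : Matrix (Fin (n + 1)) (Fin (n + 1)) K) * (h : Matrix (Fin (n + 1)) (Fin (n + 1)) K) = 1 :=
      congrArg Subtype.val (inv_mul_cancel h)
    calc ((h⁻¹ : SpecialLinearGroup (Fin (n + 1)) K) : Matrix (Fin (n + 1)) (Fin (n + 1)) K)
        = ((h⁻¹ : SpecialLinearGroup (Fin (n + 1)) K) : Matrix (Fin (n + 1)) (Fin (n + 1)) K) * ((h : Matrix (Fin (n + 1)) (Fin (n + 1)) K) * diagonal a) := by rw [h1, mul_one]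
      _ = diagonal a := by rw [← mul_assoc, h2, one_mul]
  set b : Fin (n + 1) → K := fun i => if hi : i.val + 1 ≤ n then a ⟨i.val + 1, by omega⟩ else a ⟨0, by omega⟩ with hb
  have hwa : ∀ i j, (w : Matrix (Fin (n + 1)) (Fin (n + 1)) K) i j = if j.val = i.val + 1 then 1 else if i.val = n ∧ j.val = 0 then (-1) ^ n else 0 := by
    intro i j
    rw [hw]
    rfl
  have hbv1 : ∀ i : Fin (n + 1), ∀ hi : i.val + 1 ≤ n, b i = a ⟨i.val + 1, by omega⟩ := by
    intro i hi
    simp only [hb]
    rw [dif_pos hi]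
  have hbv2 : ∀ i : Fin (n + 1), ¬ (i.val + 1 ≤ n) → b i = a ⟨0, by omega⟩ := by
    intro i hi
    simp only [hb]
    rw [dif_neg hi]
  have hdd : (w : Matrix (Fin (n + 1)) (Fin (n + 1)) K) * diagonal a = diagonal b * w := by
    ext i j
    rw [mul_diagonal, diagonal_mul, hwa]
    by_cases h1 : j.val = i.val + 1
    · have h2 : i.val + 1 ≤ n := by have := j.2; omega
      have h3 : (⟨i.val + 1, by omega⟩ : Fin (n + 1)) = j := Fin.ext h1.symm
      rw [if_pos h1, one_mul, mul_one, hbv1 i h2, h3]
    · by_cases h2 : i.val = n ∧ j.val = 0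
      · have h3 : ¬ i.val + 1 ≤ n := by omega
        have h4 : (⟨0, by omega⟩ : Fin (n + 1)) = j := Fin.ext h2.2.symm
        rw [if_neg h1, if_pos h2, hbv2 i h3, h4, mul_comm]
      · rw [if_neg h1, if_neg h2, mul_zero, zero_mul]
  -- `d' = w h⁻¹ w⁻¹`
  set d' : SpecialLinearGroup (Fin (n + 1)) K := w * h⁻¹ * w⁻¹ with hd'
  have hd'c : (d' : Matrix (Fin (n + 1)) (Fin (n + 1)) K) = diagonal b := by
    have h2 : (w : Matrix (Fin (n + 1)) (Fin (n + 1)) K) * ((w⁻¹ : SpecialLinearGroup (Fin (n + 1)) K) : Matrix (Fin (n + 1)) (Fin (n + 1)) K) = 1 :=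
      congrArg Subtype.val (mul_inv_cancel w)
    rw [hd']
    simp only [Matrix.SpecialLinearGroup.coe_mul, hinv, hdd]
    rw [mul_assoc, h2, mul_one]
  have hb0 : b ⟨0, by omega⟩ = (k : K) := by
    rw [hbv1 _ (by simp only; omega)]
    simp only [ha]
    norm_num
  -- `δ = b₁` is either 1 or k⁻¹
  have hb1 : b ⟨1, by omega⟩ = 1 ∨ b ⟨1, by omega⟩ = ((k⁻¹ : Kˣ) : K) := by
    by_cases h1 : 1 + 1 ≤ n
    · left
      rw [hbv1 _ h1]
      simp only [ha]
      norm_num
    · right
      rw [hbv2 _ h1]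
      simp only [ha]
      norm_num
  set δ := b ⟨1, by omega⟩ with hδ
  have hδ0 : δ ≠ 0 := by
    rcases hb1 with e | e <;> rw [e]
    · exact one_ne_zero
    · exact (k⁻¹).ne_zero
  have hkinv : ((k⁻¹ : Kˣ) : K) * (k : K) = 1 := by simp
  have hbc : (k : K) / δ ≠ 1 := by
    rcases hb1 with e | e <;> rw [e]
    · intro h1
      rw [div_one] at h1
      apply hk2
      rw [h1]; simp
    · intro h1
      apply hk2
      have : (k : K) / ((k⁻¹ : Kˣ) : K) = (k : K) ^ 2 := by
        rw [Units.val_inv_eq_inv_val]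
        field_simp
      rw [← this, h1]
  -- conjugation by `h` and `d'`
  have hconj : ∀ t : K, h * TT h0 t = TT h0 (t * (k : K) ^ 2) * h := by
    intro t
    apply hdiag _ h hh
    simp
    field_simp
  have hconj' : ∀ t : K, d' * TT h0 t = TT h0 (t * ((k : K) / δ)) * d' := by
    intro t
    apply hdiag _ d' hd'c
    show b ⟨0, by omega⟩ * t = t * ((k : K) / δ) * δ
    rw [hb0]
    field_simp
  -- the commutator z
  set z : SpecialLinearGroup (Fin (n + 1)) K := h * (x * w) * h⁻¹ * (x * w)⁻¹ with hz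
  have hzH : z ∈ H := H.mul_mem (H.mul_mem (H.mul_mem hhH hxwH) (H.inv_mem hhH)) (H.inv_mem hxwH)
  set b0 : K := (k : K) ^ 2 * (1 - (k : K) / δ) with hb0'
  have hz1 : z = TT h0 b0 * (h * d') := by
    have e1 : z = h * x * d' * x⁻¹ := by
      rw [hz, hd']; group
    rw [e1]
    calc h * x * d' * x⁻¹ = h * TT h0 (1 : K) * (d' * TT h0 (-1 : K)) := by rw [hxT, TT_inv]; group
      _ = h * TT h0 (1 : K) * (TT h0 (-1 * ((k : K) / δ)) * d') := by rw [hconj']
      _ = h * (TT h0 (1 : K) * TT h0 (-1 * ((k : K) / δ))) * d' := by group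
      _ = h * TT h0 (1 + -1 * ((k : K) / δ)) * d' := by rw [TT_mul]
      _ = TT h0 ((1 + -1 * ((k : K) / δ)) * (k : K) ^ 2) * h * d' := by rw [hconj]
      _ = TT h0 b0 * (h * d') := by
        rw [mul_assoc, hb0']
        congr 2
        ring
  -- h commutes with `h d'`
  have hcom : h * d' * h⁻¹ = d' := by
    have h1 : (h * d' : SpecialLinearGroup (Fin (n + 1)) K) = d' * h := by
      apply Subtype.ext
      simp only [Matrix.SpecialLinearGroup.coe_mul, hh, hd'c, diagonal_mul_diagonal, mul_comm]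
    rw [h1]; group
  set y := h * z * h⁻¹ * z⁻¹ with hy
  have hyH : y ∈ H := H.mul_mem (H.mul_mem (H.mul_mem hhH hzH) (H.inv_mem hhH)) (H.inv_mem hzH)
  have hy1 : y = TT h0 (b0 * (k : K) ^ 2 + -b0) := by
    have e1 : h * TT h0 b0 * h⁻¹ = TT h0 (b0 * (k : K) ^ 2) := by
      rw [hconj]; group
    have e2 : y = (h * TT h0 b0 * h⁻¹) * (h * (h * d') * h⁻¹) * (h * d')⁻¹ * (TT h0 b0)⁻¹ := by
      rw [hy, hz1]; group
    have e3 : h * (h * d') * h⁻¹ = h * d' := by
      calc h * (h * d') * h⁻¹ = h * (h * d' * h⁻¹) := by group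
        _ = h * d' := by rw [hcom]
    rw [e2, e1, e3, mul_assoc (TT h0 _) (h * d'), mul_inv_cancel, mul_one, TT_inv, TT_mul]
  set c : K := b0 * (k : K) ^ 2 + -b0 with hc
  have hc0 : c ≠ 0 := by
    have e : c = (k : K) ^ 2 * (1 - (k : K) / δ) * ((k : K) ^ 2 - 1) := by
      rw [hc, hb0']; ring
    rw [e]
    apply mul_ne_zero (mul_ne_zero (pow_ne_zero 2 hk0) ?_) (sub_ne_zero.mpr hk2)
    exact sub_ne_zero.mpr (Ne.symm hbc)
  -- the additive subgroup
  have hadd : ∀ s t : K, TT h0 s ∈ H → TT h0 t ∈ H → TT h0 (s + t) ∈ H := by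
    intro s t hs ht
    rw [← TT_mul]
    exact H.mul_mem hs ht
  have hneg : ∀ s : K, TT h0 s ∈ H → TT h0 (-s) ∈ H := by
    intro s hs
    rw [← TT_inv]
    exact H.inv_mem hs
  have hpow : ∀ m : ℕ, TT h0 (c * ((k : K) ^ 2) ^ m) ∈ H := by
    intro m
    induction m with
    | zero =>
      simp only [pow_zero, mul_one]
      rw [← hy1]
      exact hyH
    | succ m ih =>
      have h1 := H.mul_mem (H.mul_mem hhH ih) (H.inv_mem hhH)
      rw [hconj, mul_inv_cancel_right] at h1
      convert h1 using 2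
      ring
  have hsq : ∀ a : K, TT h0 (c * a ^ 2) ∈ H := by
    intro a
    by_cases ha0 : a = 0
    · subst ha0
      simp only [ne_eq, OfNat.ofNat_ne_zero, not_false_eq_true, zero_pow, mul_zero, TT_zero]
      exact H.one_mem
    · have hm := hk (Units.mk0 a ha0)
      rw [← mem_powers_iff_mem_zpowers] at hm
      obtain ⟨m, hm⟩ := hm
      have h1 : (k : K) ^ m = a := by
        have := congrArg Units.val hm
        simpa using this
      have := hpow m
      rw [← pow_mul, mul_comm 2 m, pow_mul, h1] at this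
      exact this
  have hall : ∀ t : K, TT h0 t ∈ H := by
    intro t
    set s := t / c with hs
    have ht : t = c * s := by rw [hs]; field_simp
    rw [ht]
    by_cases hch : ringChar K = 2
    · obtain ⟨r, hr⟩ := FiniteField.isSquare_of_char_two hch s
      rw [hr, ← pow_two]
      exact hsq r
    · have h2 : (2 : K) ≠ 0 := by
        intro h2
        apply hch
        have : CharP K (ringChar K) := ringChar.charP K
        have h3 : ringChar K ∣ 2 := by
          rw [← CharP.cast_eq_zero_iff K (ringChar K)]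
          exact_mod_cast h2
        have hp := CharP.char_is_prime_or_zero K (ringChar K)
        rcases hp with hp | hp
        · exact (Nat.prime_dvd_prime_iff_eq hp Nat.prime_two).mp h3
        · rw [hp] at h3
          simp at h3
      have e : c * s = c * ((s + 1) / 2) ^ 2 + -(c * ((s - 1) / 2) ^ 2) := by
        field_simp
        ring
      rw [e]
      exact hadd _ _ (hsq _) (hneg _ (hsq _))
  have hxH : x ∈ H := by rw [hxT]; exact hall 1
  have hwH : w ∈ H := by
    have := H.mul_mem (H.inv_mem hxH) hxwH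
    rwa [inv_mul_cancel_left] at this
  exact top_of_w hn H w hw hwH hall

end Cfsg.Agent.Lib.KS2.StGen
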