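import Mathlib
import Cfsg.Prelude.Def_SteinbergCover
import Cfsg.Prelude.Def_ChevG2
import Cfsg.Prelude.Def_ChevB2
import Cfsg.Prelude.Def_ChevD4
import Cfsg.Prelude.Def_ChevF4
import Cfsg.Prelude.Def_ChevE6
import Cfsg.Prelude.Def_ChevE7
import Cfsg.Prelude.Def_ChevE8

/-!
# Perfectness of the Steinberg cover
-/

set_option autoImplicit false
set_option linter.unusedSimpArgs false
set_option linter.unusedVariables false
set_option linter.deprecated false

namespace Cfsg.Agent.Lib.KS2.StPerf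

open Cfsg.Lie Cfsg.Lie.ChevalleyDatum

variable (D : ChevalleyDatum) (K : Type*) [Field K]

/-- generators in the abelianization -/
noncomputable def ph (r : ℕ) (t : K) : Abelianization (D.SteinbergCover K) := Abelianization.of (D.scGen K r t)

/-- free group to abelianization -/
noncomputable def hh : FreeGroup (Fin D.nroots × K) →* Abelianization (D.SteinbergCover K) :=
  (Abelianization.of).comp (PresentedGroup.mk (D.steinbergRelsAB K))

lemma hh_stX (r : ℕ) (t : K) : hh D K (D.stX r t) = ph D K r t := rfl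

lemma hh_rel {g : FreeGroup (Fin D.nroots × K)} (hg : g ∈ D.steinbergRelsAB K) : hh D K g = 1 := by
  show Abelianization.of (PresentedGroup.mk (D.steinbergRelsAB K) g) = 1
  rw [(PresentedGroup.mk_eq_one_iff).mpr (Subgroup.subset_normalClosure hg), map_one]

lemma ph_add {r : ℕ} (hr : r < D.nroots) (t₁ t₂ : K) : ph D K r (t₁ + t₂) = ph D K r t₁ * ph D K r t₂ := by
  have h1 := hh_rel D K (g := D.stX r t₁ * D.stX r t₂ * (D.stX r (t₁ + t₂))⁻¹) (Or.inl ⟨r, t₁, t₂, hr, rfl⟩)
  rw [map_mul, map_mul, map_inv, hh_stX, hh_stX, hh_stX] at h1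
  exact (mul_inv_eq_one.mp h1).symm

lemma ph_word (w : List (ℕ × K)) : hh D K (D.stWord w) = (w.map fun p => ph D K p.1 p.2).prod := by
  unfold stWord
  rw [map_list_prod, List.map_map]
  rfl

lemma ph_rel {r s : ℕ} (hr : r < D.nroots) (hs : s < D.nroots) (h1 : s ≠ r) (h2 : s ≠ D.neg r) (t u : K) :
    ((D.commWord K r s t u).map fun p => ph D K p.1 p.2).prod = 1 := by
  have h3 := hh_rel D K (g := (D.stX s u)⁻¹ * (D.stX r t)⁻¹ * D.stX s u * D.stX r t * (D.stWord (D.commWord K r s t u))⁻¹)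
    (Or.inr ⟨r, s, t, u, hr, hs, h1, h2, rfl⟩)
  simp only [map_mul, map_inv, hh_stX, ph_word] at h3
  rw [mul_comm (ph D K s u)⁻¹, inv_mul_cancel_right, inv_mul_cancel, one_mul, inv_eq_one] at h3
  exact h3

/-- single-term pairs. -/
lemma ph_single {r s k : ℕ} {ε : ℤ} (hr : r < D.nroots) (hs : s < D.nroots) (h1 : s ≠ r) (h2 : s ≠ D.neg r)
    (h : D.commTerms r s = [(k, ε, 1, 1)]) (hε : ε = 1 ∨ ε = -1) (v : K) : ph D K k v = 1 := by
  have h3 := ph_rel D K hr hs h1 h2 (-((ε : K) * v)) 1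
  unfold commWord at h3
  rw [h] at h3
  simp only [List.map_cons, List.map_nil, List.prod_cons, List.prod_nil, mul_one, pow_one, neg_neg, one_pow] at h3
  rcases hε with rfl | rfl
  · simpa using h3
  · simpa using h3

/-- two-term pairs. -/
lemma ph_two {r s k₁ k₂ : ℕ} {c₁ c₂ : ℤ} {rest : List (ℕ × ℤ × ℕ × ℕ)} (hr : r < D.nroots) (hs : s < D.nroots) (h1 : s ≠ r) (h2 : s ≠ D.neg r)
    (hk₂ : k₂ < D.nroots)
    (h : D.commTerms r s = (k₁, c₁, 1, 1) :: (k₂, c₂, 2, 1) :: rest) (hc₁ : c₁ = 1 ∨ c₁ = -1) (hc₂ : c₂ = 1 ∨ c₂ = -1)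
    (hrest : ∀ x ∈ rest, ∀ v : K, ph D K x.1 v = 1) (x : K) (hx0 : x ≠ 0) (hx1 : x ≠ 1) (v : K) :
    ph D K k₁ v = 1 ∧ ph D K k₂ v = 1 := by
  have hc₁' : (c₁ : K) * c₁ = 1 := by
    rcases hc₁ with rfl | rfl <;> simp
  have hc₂' : (c₂ : K) * c₂ = 1 := by
    rcases hc₂ with rfl | rfl <;> simp
  have hprod : ∀ (t u : K), ph D K k₁ ((c₁ : K) * (-t) ^ 1 * u ^ 1) * ph D K k₂ ((c₂ : K) * (-t) ^ 2 * u ^ 1) = 1 := by
    intro t u
    have h3 := ph_rel D K hr hs h1 h2 t u
    unfold commWord at h3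
    rw [h] at h3
    simp only [List.map_cons, List.prod_cons] at h3
    have h4 : ((rest.map fun c => (c.1, (c.2.1 : K) * (-t) ^ c.2.2.1 * u ^ c.2.2.2)).map fun p => ph D K p.1 p.2).prod = 1 := by
      apply List.prod_eq_one
      intro y hy
      simp only [List.mem_map] at hy
      obtain ⟨_, ⟨c, hc, rfl⟩, rfl⟩ := hy
      exact hrest c hc _
    rw [h4, mul_one] at h3
    exact h3
  have hg : ∀ w : K, ph D K k₂ w = 1 := by
    intro w
    have hx2 : x - 1 ≠ 0 := sub_ne_zero.mpr hx1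
    -- u with c₂ x (x-1) u = w
    set u : K := (c₂ : K) * w / (x * (x - 1)) with hu
    have h5 := hprod x u
    have h6 := hprod 1 (x * u)
    have h7 : (c₂ : K) * x * u * (x - 1) = w := by
      rw [hu]
      field_simp
      calc _ = ((c₂ : K) * c₂) * w := by ring
        _ = w := by rw [hc₂', one_mul]
    have h8 : (c₂ : K) * (-x) ^ 2 * u ^ 1 = (c₂ : K) * (-1) ^ 2 * (x * u) ^ 1 + w := by
      rw [← h7]; ring
    have h9 : (c₁ : K) * (-x) ^ 1 * u ^ 1 = (c₁ : K) * (-1) ^ 1 * (x * u) ^ 1 := by ring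
    rw [h8, ph_add D K hk₂, h9] at h5
    rw [← mul_assoc, h6, one_mul] at h5
    exact h5
  refine ⟨?_, hg v⟩
  have h10 := hprod 1 (-((c₁ : K) * v))
  rw [hg, mul_one] at h10
  have h11 : (c₁ : K) * (-1) ^ 1 * (-((c₁ : K) * v)) ^ 1 = v * ((c₁ : K) * c₁) := by ring
  rw [h11, hc₁', mul_one] at h10
  exact h10

/-- Conclusion from all generators being trivial. -/
theorem perfect_of_trivial (h : ∀ r, r < D.nroots → ∀ v : K, ph D K r v = 1) : commutator (D.SteinbergCover K) = ⊤ := by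
  rw [eq_top_iff, ← PresentedGroup.closure_range_of, Subgroup.closure_le]
  rintro _ ⟨⟨r, t⟩, rfl⟩
  have h1 := h r.1 r.2 t
  have h2 : Abelianization.of (D.scGen K r.1 t) = 1 := h1
  rw [← MonoidHom.mem_ker, Abelianization.ker_of] at h2
  have h3 : D.scGen K r.1 t = PresentedGroup.of (r, t) := by
    unfold scGen stX
    rw [dif_pos r.2]
    rfl
  rw [← h3]
  exact h2

/-- Check for a single-term witness. -/
def okS (D : ChevalleyDatum) (k : ℕ) (p : ℕ × ℕ) : Bool :=
  decide (p.1 < D.nroots) && decide (p.2 < D.nroots) && decide (p.2 ≠ p.1) && decide (p.2 ≠ D.neg p.1) &&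
    match D.commTerms p.1 p.2 with
    | [(k', ε, 1, 1)] => decide (k' = k) && decide (ε = 1 ∨ ε = -1)
    | _ => false

lemma ph_of_okS {k : ℕ} {p : ℕ × ℕ} (h : okS D k p = true) (v : K) : ph D K k v = 1 := by
  unfold okS at h
  simp only [Bool.and_eq_true, decide_eq_true_eq] at h
  obtain ⟨⟨⟨⟨h1, h2⟩, h3⟩, h4⟩, h5⟩ := h
  split at h5
  · rename_i k' ε heq
    simp only [Bool.and_eq_true, decide_eq_true_eq] at h5
    obtain ⟨rfl, h6⟩ := h5
    exact ph_single D K h1 h2 h3 h4 heq h6 v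
  · simp at h5

/-- All roots have single-term witnesses. -/
def allS (D : ChevalleyDatum) (w : Array (ℕ × ℕ)) : Bool :=
  (List.range D.nroots).all fun k => okS D k (w.getD k (0, 0))

theorem perfect_of_allS (w : Array (ℕ × ℕ)) (h : allS D w = true) : commutator (D.SteinbergCover K) = ⊤ := by
  apply perfect_of_trivial
  intro r hr v
  have h1 := List.all_eq_true.mp h r (List.mem_range.mpr hr)
  exact ph_of_okS D K h1 v

/-- witnesses -/
def witD4 : Array (ℕ × ℕ) := #[(1, 9), (0, 14), (0, 15), (0, 16), (0, 17), (1, 17), (0, 19), (0, 20), (0, 21), (0, 22), (1, 20), (1, 21), (2, 22), (3, 22), (1, 23), (2, 23), (3, 23), (4, 23), (6, 22), (6, 23), (7, 23), (8, 23), (9, 23), (14, 22)]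

set_option maxRecDepth 100000 in
theorem perfectD4 : commutator (chevD4.SteinbergCover K) = ⊤ :=
  perfect_of_allS chevD4 K witD4 (by decide +kernel)

/-- witnesses -/
def witF4 : Array (ℕ × ℕ) := #[(1, 23), (0, 24), (0, 26), (7, 14), (0, 31), (0, 32), (1, 32), (3, 33), (3, 34), (3, 35), (3, 36), (3, 37), (3, 38), (3, 39), (3, 40), (0, 42), (0, 43), (1, 43), (7, 37), (7, 38), (7, 39), (0, 45), (1, 45), (0, 46), (1, 47), (2, 46), (2, 47), (8, 40), (9, 40), (10, 40), (4, 46), (4, 47), (5, 47), (7, 44), (8, 44), (9, 44), (10, 44), (11, 44), (12, 44), (13, 44), (14, 44), (15, 46), (15, 47), (16, 47), (33, 40), (21, 47), (23, 47), (24, 46)]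

set_option maxRecDepth 100000 in
theorem perfectF4 : commutator (chevF4.SteinbergCover K) = ⊤ :=
  perfect_of_allS chevF4 K witF4 (by decide +kernel)

/-- witnesses -/
def witE6 : Array (ℕ × ℕ) := #[(1, 25), (0, 46), (0, 47), (0, 48), (0, 49), (0, 50), (0, 51), (0, 52), (0, 53), (0, 54), (0, 55), (1, 53), (1, 54), (1, 55), (2, 55), (5, 55), (0, 61), (0, 62), (0, 63), (0, 64), (0, 65), (0, 66), (0, 67), (0, 68), (0, 69), (0, 70), (1, 64), (1, 65), (1, 66), (2, 66), (1, 67), (1, 68), (1, 69), (2, 67), (2, 68), (3, 67), (4, 68), (3, 69), (4, 69), (2, 70), (3, 70), (4, 70), (5, 69), (5, 70), (6, 70), (7, 70), (1, 71), (2, 71), (3, 71), (4, 71), (5, 71), (6, 71), (7, 71), (8, 71), (9, 71), (10, 71), (16, 66), (16, 69), (16, 70), (17, 70), (18, 70), (16, 71), (17, 71), (18, 71), (19, 71), (20, 71), (21, 71), (22, 71), (23, 71), (24, 71), (25, 71), (46, 70)]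

set_option maxRecDepth 100000 in
theorem perfectE6 : commutator (chevE6.SteinbergCover K) = ⊤ :=
  perfect_of_allS chevE6 K witE6 (by decide +kernel)

/-- witnesses -/
def witE7 : Array (ℕ × ℕ) := #[(1, 32), (0, 93), (0, 94), (0, 95), (0, 96), (0, 97), (0, 98), (0, 99), (0, 100), (0, 101), (0, 102), (0, 103), (0, 104), (0, 105), (0, 106), (0, 107), (0, 108), (0, 109), (0, 110), (0, 111), (0, 112), (0, 113), (0, 114), (0, 115), (0, 116), (0, 117), (0, 118), (0, 119), (0, 120), (0, 121), (0, 122), (0, 123), (0, 124), (1, 109), (1, 110), (1, 111), (1, 112), (1, 113), (1, 114), (1, 115), (1, 116), (1, 117), (1, 118), (2, 115), (2, 116), (2, 117), (2, 118), (3, 118), (1, 119), (1, 120), (1, 121), (1, 122), (1, 123), (2, 119), (2, 120), (2, 121), (2, 122), (3, 119), (3, 120), (3, 121), (4, 119), (4, 120), (5, 119), (6, 120), (5, 121), (6, 121), (4, 122), (5, 122), (6, 122), (3, 123), (4, 123), (5, 123), (6, 123), (2, 124), (3, 124), (4, 124), (5, 124), (6, 124), (7,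 122), (7, 123), (8, 123), (9, 123), (10, 123), (7, 124), (8, 124), (9, 124), (10, 124), (11, 124), (12, 124), (13, 124), (14, 124), (15, 124), (16, 124), (1, 125), (2, 125), (3, 125), (4, 125), (5, 125), (6, 125), (7, 125), (8, 125), (9, 125), (10, 125), (11, 125), (12, 125), (13, 125), (14, 125), (15, 125), (16, 125), (17, 125), (18, 125), (19, 125), (20, 125), (21, 125), (22, 125), (23, 125), (24, 125), (25, 125), (26, 125), (27, 125), (28, 125), (29, 125), (30, 125), (31, 125), (32, 125), (93, 124)]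

set_option maxRecDepth 100000 in
theorem perfectE7 : commutator (chevE7.SteinbergCover K) = ⊤ :=
  perfect_of_allS chevE7 K witE7 (by decide +kernel)

/-- witnesses -/
def witE8 : Array (ℕ × ℕ) := #[(1, 119), (0, 120), (0, 122), (0, 125), (0, 129), (0, 134), (0, 140), (0, 146), (0, 151), (0, 155), (0, 158), (0, 160), (0, 161), (1, 161), (0, 168), (0, 173), (0, 177), (0, 180), (0, 182), (0, 183), (1, 183), (0, 187), (0, 190), (0, 192), (0, 193), (1, 193), (0, 196), (0, 198), (0, 199), (1, 199), (0, 201), (0, 202), (1, 202), (0, 203), (1, 203), (2, 203), (0, 206), (0, 208), (0, 209), (1, 209), (0, 211), (0, 212), (1, 212), (0, 213), (1, 213), (2, 213), (0, 215), (0, 216), (1, 216), (0, 217), (1, 217), (2, 217), (0, 218), (1, 218), (2, 218), (3, 218), (0, 220), (0, 221), (1, 221), (0, 222), (1, 222), (2, 222), (0, 223), (1, 223), (2, 223), (3, 223), (0, 224), (1, 224), (2, 224), (3, 224), (4, 224), (0, 225), (1, 225), (2, 225), (3, 225), (4, 225), (5, 225), (6,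 225), (0, 227), (0, 228), (1, 228), (0, 229), (1, 229), (2, 229), (0, 230), (1, 230), (2, 230), (3, 230), (0, 231), (1, 231), (2, 231), (3, 231), (4, 231), (0, 232), (1, 232), (2, 232), (3, 232), (4, 232), (5, 232), (0, 233), (1, 233), (2, 233), (3, 233), (4, 233), (5, 233), (0, 234), (1, 234), (2, 234), (3, 234), (4, 234), (0, 235), (1, 235), (2, 235), (3, 235), (0, 236), (1, 236), (2, 236), (0, 237), (1, 237), (0, 238), (1, 239), (2, 238), (2, 239), (3, 237), (3, 238), (3, 239), (4, 236), (4, 237), (4, 238), (4, 239), (5, 235), (5, 236), (5, 237), (5, 238), (5, 239), (6, 234), (6, 235), (6, 236), (6, 237), (6, 238), (6, 239), (7, 234), (7, 235), (7, 236), (7, 237), (7, 238), (7, 239), (8, 235), (8, 236), (8, 237), (8, 238), (8, 239), (9, 236), (9, 237), (9, 238), (9, 239), (10, 237), (10, 238), (10, 239), (11, 238), (11, 239), (12, 239), (14, 233), (14, 234), (14, 235), (14, 236), (14, 237), (14, 238), (14, 239), (15, 235), (15, 236), (15, 237), (15, 238), (15,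 239), (16, 236), (16, 237), (16, 238), (16, 239), (17, 237), (17, 238), (17, 239), (18, 238), (18, 239), (19, 239), (21, 236), (21, 237), (21, 238), (21, 239), (22, 237), (22, 238), (22, 239), (23, 238), (23, 239), (24, 239), (26, 237), (26, 238), (26, 239), (27, 238), (27, 239), (28, 239), (30, 238), (30, 239), (31, 239), (33, 239), (36, 237), (36, 238), (36, 239), (37, 238), (37, 239), (38, 239), (40, 238), (40, 239), (41, 239), (43, 239), (46, 238), (46, 239), (47, 239), (49, 239), (52, 239), (56, 238), (56, 239), (57, 239), (59, 239), (62, 239), (66, 239), (71, 239), (78, 238), (78, 239), (79, 239), (81, 239), (84, 239), (88, 239), (93, 239), (99, 239), (105, 239), (110, 239), (114, 239), (117, 239), (119, 239), (120, 238)]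

set_option maxRecDepth 100000 in
theorem perfectE8 : commutator (chevE8.SteinbergCover K) = ⊤ :=
  perfect_of_allS chevE8 K witE8 (by decide +kernel)

/-- B₂: two-term pairs. -/
theorem perfectB2 (hK : ∃ x : K, x ≠ 0 ∧ x ≠ 1) : commutator (chevB2.SteinbergCover K) = ⊤ := by
  obtain ⟨x, hx0, hx1⟩ := hK
  apply perfect_of_trivial
  have hn : chevB2.nroots = 8 := rfl
  have key : ∀ (r s k₁ k₂ : ℕ) (c₁ c₂ : ℤ), r < 8 → s < 8 → s ≠ r → s ≠ chevB2.neg r → k₂ < 8 →
      chevB2.commTerms r s = [(k₁, c₁, 1, 1), (k₂, c₂, 2, 1)] → (c₁ = 1 ∨ c₁ = -1) → (c₂ = 1 ∨ c₂ = -1) →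
      ∀ v : K, ph chevB2 K k₁ v = 1 ∧ ph chevB2 K k₂ v = 1 := by
    intro r s k₁ k₂ c₁ c₂ h1 h2 h3 h4 h5 h6 h7 h8 v
    exact ph_two chevB2 K h1 h2 h3 h4 h5 h6 h7 h8 (by simp) x hx0 hx1 v
  have A := key 1 4 2 0 1 1 (by decide) (by decide) (by decide) (by decide +kernel) (by decide) (by decide +kernel) (by decide) (by decide)
  have B := key 1 7 5 3 (-1) 1 (by decide) (by decide) (by decide) (by decide +kernel) (by decide) (by decide +kernel) (by decide) (by decide)
  have C := key 2 7 6 4 1 (-1) (by decide) (by decide) (by decide) (by decide +kernel) (by decide) (by decide +kernel) (by decide) (by decide)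
  have E := key 5 4 6 7 (-1) (-1) (by decide) (by decide) (by decide) (by decide +kernel) (by decide) (by decide +kernel) (by decide) (by decide)
  have F := key 2 3 1 0 1 (-1) (by decide) (by decide) (by decide) (by decide +kernel) (by decide) (by decide +kernel) (by decide) (by decide)
  intro r hr v
  rw [hn] at hr
  interval_cases r
  · exact (A v).2
  · exact (F v).1
  · exact (A v).1
  · exact (B v).2
  · exact (C v).2
  · exact (B v).1
  · exact (C v).1
  · exact (E v).2

/-- G₂: long roots single, short two-term. -/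
theorem perfectG2 (hK : ∃ x : K, x ≠ 0 ∧ x ≠ 1) : commutator (chevG2.SteinbergCover K) = ⊤ := by
  obtain ⟨x, hx0, hx1⟩ := hK
  apply perfect_of_trivial
  have hn : chevG2.nroots = 12 := rfl
  have S0 : ∀ v : K, ph chevG2 K 0 v = 1 := fun v => ph_of_okS chevG2 K (p := (1, 5)) (by decide +kernel) v
  have S1 : ∀ v : K, ph chevG2 K 1 v = 1 := fun v => ph_of_okS chevG2 K (p := (0, 6)) (by decide +kernel) v
  have S5 : ∀ v : K, ph chevG2 K 5 v = 1 := fun v => ph_of_okS chevG2 K (p := (0, 10)) (by decide +kernel) v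
  have S6 : ∀ v : K, ph chevG2 K 6 v = 1 := fun v => ph_of_okS chevG2 K (p := (1, 11)) (by decide +kernel) v
  have S10 : ∀ v : K, ph chevG2 K 10 v = 1 := fun v => ph_of_okS chevG2 K (p := (5, 11)) (by decide +kernel) v
  have S11 : ∀ v : K, ph chevG2 K 11 v = 1 := fun v => ph_of_okS chevG2 K (p := (6, 10)) (by decide +kernel) v
  have key : ∀ (r s k₁ k₂ a b : ℕ) (c₁ c₂ : ℤ) (i j : ℕ) (e f : ℤ) (i' j' : ℕ), r < 12 → s < 12 → s ≠ r → s ≠ chevG2.neg r → k₂ < 12 →
      chevG2.commTerms r s = [(k₁, c₁, 1, 1), (k₂, c₂, 2, 1), (a, e, i, j), (b, f, i', j')] → (c₁ = 1 ∨ c₁ = -1) → (c₂ = 1 ∨ c₂ = -1) →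
      (∀ v : K, ph chevG2 K a v = 1) → (∀ v : K, ph chevG2 K b v = 1) →
      ∀ v : K, ph chevG2 K k₁ v = 1 ∧ ph chevG2 K k₂ v = 1 := by
    intro r s k₁ k₂ a b c₁ c₂ i j e f i' j' h1 h2 h3 h4 h5 h6 h7 h8 h9 h10 v
    refine ph_two chevG2 K h1 h2 h3 h4 h5 h6 h7 h8 ?_ x hx0 hx1 v
    intro y hy w
    simp only [List.mem_cons, List.not_mem_nil, or_false] at hy
    rcases hy with rfl | rfl
    · exact h9 w
    · exact h10 w
  have A := key 2 10 7 3 0 5 (-1) 1 3 1 1 1 3 2 (by decide) (by decide) (by decide) (by decide +kernel) (by decide) (by decide +kernel) (by decide) (by decide) S0 S5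
  have B := key 2 11 8 4 1 6 (-1) (-1) 3 1 (-1) (-1) 3 2 (by decide) (by decide) (by decide) (by decide +kernel) (by decide) (by decide +kernel) (by decide) (by decide) S1 S6
  have C := key 3 6 4 2 0 1 1 (-1) 3 1 1 (-1) 3 2 (by decide) (by decide) (by decide) (by decide +kernel) (by decide) (by decide +kernel) (by decide) (by decide) S0 S1
  have E := key 3 11 9 7 5 10 1 1 3 1 (-1) 1 3 2 (by decide) (by decide) (by decide) (by decide +kernel) (by decide) (by decide +kernel) (by decide) (by decide) S5 S10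
  intro r hr v
  rw [hn] at hr
  interval_cases r
  · exact S0 v
  · exact S1 v
  · exact (C v).2
  · exact (A v).2
  · exact (C v).1
  · exact S5 v
  · exact S6 v
  · exact (A v).1
  · exact (B v).1
  · exact (E v).1
  · exact S10 v
  · exact S11 v

end Cfsg.Agent.Lib.KS2.StPerf
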