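import Mathlib

/-!
Weights of an elementary abelian subgroup in a cross characteristic representation.
-/

set_option autoImplicit false
set_option linter.unusedSimpArgs false
set_option linter.unusedVariables false
set_option linter.deprecated false

namespace Cfsg.Agent.Lib.KS2.Weights

open Matrix

variable {Γ : Type*} [Group Γ] {L : Type*} [Field L] {d : ℕ} (ρ : Γ →* GL (Fin d) L)
variable {A : Type*} [AddCommGroup A] (φ : A → Γ)

/-- The characters occurring in the restriction to the family `φ`. -/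
def Wt : Set (AddChar A L) :=
  {χ | ∃ x : Fin d → L, x ≠ 0 ∧ ∀ a, (ρ (φ a)).1 *ᵥ x = χ a • x}

omit [AddCommGroup A] in
lemma mulVec_ne_zero (g : Γ) {x : Fin d → L} (hx : x ≠ 0) : (ρ g).1 *ᵥ x ≠ 0 := by
  intro h
  apply hx
  have h2 : (ρ g⁻¹).1 *ᵥ ((ρ g).1 *ᵥ x) = x := by
    rw [Matrix.mulVec_mulVec]
    have : (ρ g⁻¹).1 * (ρ g).1 = 1 := by
      rw [← Units.val_mul, ← map_mul]; simp
    rw [this, Matrix.one_mulVec]
  rw [h, Matrix.mulVec_zero] at h2
  exact h2.symm

lemma wt_conj (g : Γ) (α : A →+ A) (h : ∀ a, φ a * g = g * φ (α a)) {χ : AddChar A L}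
    (hχ : χ ∈ Wt ρ φ) : χ.compAddMonoidHom α ∈ Wt ρ φ := by
  obtain ⟨x, hx, hχ⟩ := hχ
  refine ⟨(ρ g).1 *ᵥ x, mulVec_ne_zero ρ g hx, fun a => ?_⟩
  rw [Matrix.mulVec_mulVec, ← Units.val_mul, ← map_mul, h, map_mul, Units.val_mul, ← Matrix.mulVec_mulVec, hχ,
    Matrix.mulVec_smul]
  rfl

/-- A set of weights is at most as large as the dimension. -/
lemma wt_card [Finite A] (S : Finset (AddChar A L)) (hS : ∀ χ ∈ S, χ ∈ Wt ρ φ) : S.card ≤ d := by
  classical
  have h0 : ∀ χ : S, ∃ x : Fin d → L, x ≠ 0 ∧ ∀ a, (ρ (φ a)).1 *ᵥ x = χ.1 a • x := fun χ => hS χ.1 χ.2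
  choose x hx hxa using h0
  have hind : LinearIndependent L x := by
    rw [Fintype.linearIndependent_iff]
    intro c hc χ₀
    obtain ⟨i, hi⟩ := Function.ne_iff.mp (hx χ₀)
    have key : ∀ a : A, ∑ χ : S, (c χ * x χ i) * χ.1 a = 0 := by
      intro a
      have h1 := congrArg (fun y => (ρ (φ a)).1 *ᵥ y) hc
      simp only [Matrix.mulVec_zero] at h1
      have h2 : (ρ (φ a)).1 *ᵥ (∑ χ : S, c χ • x χ) = ∑ χ : S, (c χ * χ.1 a) • x χ := by
        rw [Matrix.mulVec_sum]
        refine Finset.sum_congr rfl fun χ _ => ?_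
        rw [Matrix.mulVec_smul, hxa, smul_smul]
      rw [h2] at h1
      have h3 := congrFun h1 i
      simp only [Finset.sum_apply, Pi.smul_apply, smul_eq_mul, Pi.zero_apply] at h3
      rw [← h3]
      refine Finset.sum_congr rfl fun χ _ => ?_
      ring
    -- independence of characters
    have hli := (linearIndependent_monoidHom (Multiplicative A) L)
    have hinj : Function.Injective (fun χ : S => (AddChar.toMonoidHom χ.1 : Multiplicative A →* L)) := by
      intro χ₁ χ₂ h
      apply Subtype.ext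
      ext a
      have := DFunLike.congr_fun h (Multiplicative.ofAdd a)
      simpa using this
    have hli2 := hli.comp _ hinj
    rw [Fintype.linearIndependent_iff] at hli2
    have h4 := hli2 (fun χ => c χ * x χ i) (by
      funext a
      simpa [Function.comp] using key (Multiplicative.toAdd a)) χ₀
    have h5 := mul_eq_zero.mp h4
    rcases h5 with h5 | h5
    · exact h5
    · exact absurd h5 hi
  have := hind.fintype_card_le_finrank
  simpa using this

section Exists

variable [IsAlgClosed L]

lemma wt_exists [Finite A] (p : ℕ) (hp0 : p ≠ 0) (hp : (p : L) ≠ 0) (hadd : ∀ a b, φ (a + b) = φ a * φ b)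
    (hpa : ∀ a : A, p • a = 0) (a₀ : A) (ha₀ : ρ (φ a₀) ≠ 1) : ∃ χ ∈ Wt ρ φ, χ a₀ ≠ 1 := by
  classical
  let T : A → Module.End L (Fin d → L) := fun a => Matrix.mulVecLin (ρ (φ a)).1
  have hT : ∀ a y, T a y = (ρ (φ a)).1 *ᵥ y := fun a y => rfl
  have hTadd : ∀ a b, T (a + b) = T a * T b := by
    intro a b
    refine LinearMap.ext fun y => ?_
    show T (a + b) y = T a (T b y)
    rw [hT, hT, hT, Matrix.mulVec_mulVec, ← Units.val_mul, ← map_mul, hadd]
  have hφ0 : φ 0 = 1 := by
    have := hadd 0 0
    simpa using this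
  have hT0 : T 0 = 1 := by
    refine LinearMap.ext fun y => ?_
    simp only [hT, hφ0, map_one]
    simp
  have hcomm : Pairwise fun a b => Commute (T a) (T b) := by
    intro a b _
    show T a * T b = T b * T a
    rw [← hTadd, ← hTadd, add_comm]
  have hpow : ∀ (a : A) (k : ℕ), T a ^ k = T (k • a) := by
    intro a k
    induction k with
    | zero => simp [hT0]
    | succ k ih => rw [pow_succ, ih, succ_nsmul, hTadd]
  have hTp : ∀ a, T a ^ p = 1 := by
    intro a
    rw [hpow, hpa, hT0]
  -- semisimple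
  have hsq : Squarefree (Polynomial.X ^ p - 1 : Polynomial L) := by
    have hsep : (Polynomial.X ^ p - 1 : Polynomial L).Separable := by
      have := Polynomial.separable_X_pow_sub_C (1 : L) hp one_ne_zero
      simpa using this
    exact hsep.squarefree
  have hss : ∀ a, (T a).IsFinitelySemisimple := by
    intro a
    have : (T a).IsSemisimple := by
      apply Module.End.isSemisimple_of_squarefree_aeval_eq_zero hsq
      simp [hTp]
    exact this.isFinitelySemisimple
  have htop : ⨆ χ : A → L, ⨅ a, (T a).maxGenEigenspace (χ a) = ⊤ := by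
    apply Module.End.iSup_iInf_maxGenEigenspace_eq_top_of_iSup_maxGenEigenspace_eq_top_of_commute T hcomm
    intro a
    exact Module.End.iSup_maxGenEigenspace_eq_top _
  by_contra hno
  push Not at hno
  -- every joint piece lies in the eigenspace of `T a₀` for the value `1`
  have hle : ∀ χ : A → L, ⨅ a, (T a).maxGenEigenspace (χ a) ≤ (T a₀).eigenspace 1 := by
    intro χ y hy
    by_cases hy0 : y = 0
    · rw [hy0]; exact zero_mem _
    have hy1 : ∀ a, T a y = χ a • y := by
      intro a
      have h1 : y ∈ (T a).maxGenEigenspace (χ a) := (Submodule.mem_iInf _).mp hy a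
      rw [(hss a).maxGenEigenspace_eq_eigenspace] at h1
      exact Module.End.mem_eigenspace_iff.mp h1
    have hmul : ∀ a b, χ (a + b) = χ a * χ b := by
      intro a b
      have h1 := hy1 (a + b)
      rw [hTadd, Module.End.mul_apply, hy1, map_smul, hy1, smul_smul] at h1
      have h2 : (χ (a + b) - χ b * χ a) • y = 0 := by
        rw [sub_smul, ← h1, sub_self]
      rcases smul_eq_zero.mp h2 with h3 | h3
      · rw [sub_eq_zero.mp h3, mul_comm]
      · exact absurd h3 hy0
    have hzero : χ 0 = 1 := by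
      have h1 := hy1 0
      rw [hT0, Module.End.one_apply] at h1
      have h2 : (χ 0 - 1) • y = 0 := by
        rw [sub_smul, one_smul, ← h1, sub_self]
      rcases smul_eq_zero.mp h2 with h3 | h3
      · exact sub_eq_zero.mp h3
      · exact absurd h3 hy0
    let χ' : AddChar A L := ⟨χ, hzero, hmul⟩
    have hmem : χ' ∈ Wt ρ φ := ⟨y, hy0, fun a => hy1 a⟩
    have h1 : χ a₀ = 1 := hno χ' hmem
    rw [Module.End.mem_eigenspace_iff, hy1, h1]
  have hall : (⊤ : Submodule L (Fin d → L)) ≤ (T a₀).eigenspace 1 := by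
    rw [← htop]
    exact iSup_le hle
  apply ha₀
  apply Units.ext
  apply Matrix.toLin'.injective
  refine LinearMap.ext fun y => ?_
  have h1 : y ∈ (T a₀).eigenspace 1 := hall trivial
  rw [Module.End.mem_eigenspace_iff, one_smul, hT] at h1
  simp only [Units.val_one, Matrix.toLin'_apply, Matrix.one_mulVec]
  exact h1

end Exists

end Cfsg.Agent.Lib.KS2.Weights
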