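import Mathlib
import Cfsg.Agent.Lib.KS2.Weights

/-!
The lower bound for special linear groups in cross characteristic.
-/

set_option autoImplicit false
set_option linter.unusedSimpArgs false
set_option linter.unusedVariables false
set_option linter.deprecated false

namespace Cfsg.Agent.Lib.KS2.WtSL

open Matrix Cfsg.Agent.Lib.KS2.Weights

variable {F : Type*} [Field F] {m : ℕ}

/-- The moves on coordinate vectors. -/
lemma reach_e0 (hm : 2 ≤ m) (W : Set (Fin m → F))
    (hW : ∀ w ∈ W, ∀ i j (t : F), i ≠ j → w + (t * w j) • Pi.single i 1 ∈ W)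
    (w : Fin m → F) (hw : w ∈ W) (hw0 : w ≠ 0) (k : Fin m) : (Pi.single k 1 : Fin m → F) ∈ W := by
  classical
  -- a vector with coordinate `k` equal to one
  have h1 : ∃ v ∈ W, v k = 1 := by
    by_cases hk : w k = 0
    · obtain ⟨j, hj⟩ : ∃ j, w j ≠ 0 := by
        by_contra hcon
        push Not at hcon
        exact hw0 (funext hcon)
      have hjk : k ≠ j := by
        rintro rfl
        exact hj hk
      refine ⟨_, hW w hw k j (1 / w j) hjk, ?_⟩
      simp [hk, hj]
    · obtain ⟨l, hl⟩ : ∃ l : Fin m, l ≠ k := by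
        by_cases h : k.val = 0
        · exact ⟨⟨1, by omega⟩, fun h' => by simpa [Fin.ext_iff, h] using congrArg Fin.val h'⟩
        · exact ⟨⟨0, by omega⟩, fun h' => h (by simpa [Fin.ext_iff] using (congrArg Fin.val h').symm)⟩
      have h2 := hW w hw l k ((1 - w k - w l) / w k) hl
      set w' := w + ((1 - w k - w l) / w k * w k) • (Pi.single l 1 : Fin m → F) with hw'
      have hk' : w' k = w k := by
        simp [hw', Pi.single_apply, hl.symm]
      have hl' : w' l = 1 - w k := by
        simp [hw', hk]
      have h3 := hW w' h2 k l 1 hl.symm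
      refine ⟨_, h3, ?_⟩
      simp [hk', hl']
  obtain ⟨v, hv, hvk⟩ := h1
  -- clearing
  have h2 : ∀ T : Finset (Fin m), ∃ u ∈ W, u k = 1 ∧ ∀ l ∈ T, l ≠ k → u l = 0 := by
    intro T
    induction T using Finset.induction_on with
    | empty => exact ⟨v, hv, hvk, by simp⟩
    | insert a T _ ih =>
      obtain ⟨u, hu, huk, hu0⟩ := ih
      by_cases ha : a = k
      · refine ⟨u, hu, huk, ?_⟩
        intro l hl hlk
        rcases Finset.mem_insert.mp hl with h | h
        · exact absurd (h.trans ha) hlk
        · exact hu0 l h hlk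
      · refine ⟨_, hW u hu a k (- u a) ha, ?_, ?_⟩
        · simp [huk, Pi.single_apply, Ne.symm ha]
        · intro l hl hlk
          rcases Finset.mem_insert.mp hl with h | h
          · subst h
            simp [huk]
          · by_cases hla : l = a
            · subst hla
              simp [huk]
            · simp [huk, Pi.single_apply, hu0 l h hlk, hla]
  obtain ⟨u, hu, huk, hu0⟩ := h2 Finset.univ
  have : u = Pi.single k 1 := by
    funext l
    by_cases hl : l = k
    · subst hl; simp [huk]
    · simp [hu0 l (Finset.mem_univ _) hl, Pi.single_apply, hl]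
  rwa [← this]

lemma all_nonzero (hm : 2 ≤ m) (W : Set (Fin m → F))
    (hW : ∀ w ∈ W, ∀ i j (t : F), i ≠ j → w + (t * w j) • Pi.single i 1 ∈ W)
    (w : Fin m → F) (hw : w ∈ W) (hw0 : w ≠ 0) (u : Fin m → F) (hu : u ≠ 0) : u ∈ W := by
  by_contra huW
  have hk : (Pi.single (⟨0, by omega⟩ : Fin m) 1 : Fin m → F) ∈ W := reach_e0 hm W hW w hw hw0 _
  have hk2 := reach_e0 hm Wᶜ (by
    intro x hx i j t hij hmem
    apply hx
    have := hW _ hmem i j (-t) hij
    have h2 : (x + (t * x j) • Pi.single i 1 : Fin m → F) j = x j := by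
      simp [Pi.single_apply, hij.symm]
    rw [h2] at this
    simpa [add_smul] using this) u huW hu ⟨0, by omega⟩
  exact hk2 hk

variable [Fintype F]

/-- Vectors with vanishing first coordinate. -/
def sT (s : Fin m → F) : Fin (m + 1) → F := Fin.cons 0 s

lemma sT_add (s s' : Fin m → F) : sT (s + s') = sT s + sT s' := by
  funext i
  refine Fin.cases ?_ (fun j => ?_) i <;> simp [sT]

/-- The first basis vector. -/
def e0 : Fin (m + 1) → F := Pi.single 0 1

lemma dot_e0 (s : Fin m → F) : sT s ⬝ᵥ e0 = 0 := by
  simp [e0, sT]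

/-- The first row unipotent element. -/
def XX (s : Fin m → F) : Matrix.SpecialLinearGroup (Fin (m + 1)) F :=
  ⟨1 + vecMulVec e0 (sT s), by
    have := Matrix.det_one_add_replicateCol_mul_replicateRow (ι := Unit) (e0 : Fin (m + 1) → F) (sT s)
    rw [← vecMulVec_eq] at this
    rw [this, dot_e0]; simp⟩

lemma XX_add (s s' : Fin m → F) : XX (s + s') = XX s * XX s' := by
  apply Subtype.ext
  show 1 + vecMulVec e0 (sT (s + s')) = (1 + vecMulVec e0 (sT s)) * (1 + vecMulVec e0 (sT s'))
  rw [add_mul, mul_add, mul_add, one_mul, one_mul, _root_.mul_one, vecMulVec_mul_vecMulVec, dot_e0, sT_add]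
  simp only [zero_smul, vecMulVec_zero, add_zero, vecMulVec_add]
  abel

/-- The elementary element. -/
def EE (i j : Fin m) (t : F) (hij : i ≠ j) : Matrix.SpecialLinearGroup (Fin (m + 1)) F :=
  ⟨Matrix.transvection i.succ j.succ t, Matrix.det_transvection_of_ne _ _ (by simpa using hij) _⟩

/-- The move on first rows. -/
def alphaM (i j : Fin m) (t : F) : (Fin m → F) →+ (Fin m → F) where
  toFun s := s + (t * s i) • Pi.single j 1
  map_zero' := by simp
  map_add' s s' := by
    simp only [Pi.add_apply, mul_add, add_smul]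
    abel

lemma XX_EE (i j : Fin m) (t : F) (hij : i ≠ j) (s : Fin m → F) :
    XX s * EE i j t hij = EE i j t hij * XX (alphaM i j t s) := by
  apply Subtype.ext
  show (1 + vecMulVec e0 (sT s)) * (1 + Matrix.single i.succ j.succ t) =
    (1 + Matrix.single i.succ j.succ t) * (1 + vecMulVec e0 (sT (alphaM i j t s)))
  have hs : sT (alphaM i j t s) = sT s + (t * s i) • Pi.single j.succ 1 := by
    funext k
    refine Fin.cases ?_ (fun l => ?_) k
    · simp [sT, alphaM]
    · simp [sT, alphaM, Pi.single_apply]
  have h1 : vecMulVec (e0 : Fin (m + 1) → F) (sT s) * Matrix.single i.succ j.succ t =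
      (t * s i) • vecMulVec e0 (Pi.single j.succ 1) := by
    ext a b
    simp [vecMulVec_apply, Matrix.mul_apply, Matrix.single_apply, sT, e0, Pi.single_apply]
    by_cases hb : b = j.succ
    · subst hb
      by_cases ha : a = 0
      · simp [ha, sT, mul_comm]
      · simp [ha]
    · have hb' : ¬ j.succ = b := fun h => hb h.symm
      simp [hb, hb']
  have h2 : Matrix.single i.succ j.succ t * vecMulVec (e0 : Fin (m + 1) → F) (sT (alphaM i j t s)) = 0 := by
    ext a b
    simp [vecMulVec_apply, Matrix.mul_apply, Matrix.single_apply, e0, Pi.single_apply]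
  simp only [add_mul, mul_add, one_mul, _root_.mul_one]
  rw [h1, h2, hs, vecMulVec_add, vecMulVec_smul]
  abel

section Main

variable {K : Type*} [Field K] {d : ℕ}
  (ρ : Matrix.SpecialLinearGroup (Fin (m + 1)) F →* GL (Fin d) K)

/-- The extension of scalars to the algebraic closure. -/
noncomputable def rhoBar : Matrix.SpecialLinearGroup (Fin (m + 1)) F →* GL (Fin d) (AlgebraicClosure K) :=
  (Matrix.GeneralLinearGroup.map (algebraMap K (AlgebraicClosure K))).comp ρ

lemma rhoBar_ne_one {x : Matrix.SpecialLinearGroup (Fin (m + 1)) F} (hx : ρ x ≠ 1) : rhoBar ρ x ≠ 1 := by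
  intro h
  apply hx
  apply Units.ext
  have h1 := congrArg Units.val h
  ext i j
  have h2 := congrFun (congrFun h1 i) j
  simp only [rhoBar, MonoidHom.comp_apply, Units.val_one, Matrix.GeneralLinearGroup.map_apply] at h2
  simp only [Units.val_one]
  by_cases hij : i = j
  · subst hij
    simpa using h2
  · simpa [Matrix.one_apply, hij] using h2

lemma XX_not_central (j : Fin m) : XX (Pi.single j (1 : F)) ∉ Subgroup.center (Matrix.SpecialLinearGroup (Fin (m + 1)) F) := by
  intro h
  obtain ⟨r, -, hr⟩ := Matrix.SpecialLinearGroup.mem_center_iff.mp h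
  have h1 : (Matrix.scalar (Fin (m + 1)) r) 0 j.succ = (XX (Pi.single j (1 : F))).1 0 j.succ := by
    rw [hr]
  have h2 : (XX (Pi.single j (1 : F))).1 0 j.succ = 1 := by
    show (1 + vecMulVec e0 (sT (Pi.single j (1 : F)))) 0 j.succ = 1
    simp [Matrix.add_apply, vecMulVec_apply, e0, sT, Matrix.one_apply, (Fin.succ_ne_zero j).symm]
  have h3 : (Matrix.scalar (Fin (m + 1)) r) 0 j.succ = 0 := by
    simp [Matrix.scalar_apply, Matrix.diagonal_apply, (Fin.succ_ne_zero j).symm]
  rw [h2, h3] at h1
  exact zero_ne_one h1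

lemma ac_sum {A M ι : Type*} [AddCommMonoid A] [CommMonoid M] (θ : AddChar A M) (s : Finset ι) (f : ι → A) :
    θ (∑ i ∈ s, f i) = ∏ i ∈ s, θ (f i) := by
  classical
  induction s using Finset.induction_on with
  | empty => simp
  | insert a s ha ih => rw [Finset.sum_insert ha, Finset.prod_insert ha, AddChar.map_add_eq_mul, ih]

/-- Characters of a finite field are the multiples of a nontrivial one. -/
lemma char_field {L : Type*} [Field L] (ψ : AddChar F L) (hψ : ψ ≠ 1) (θ : AddChar F L) :
    ∃ a : F, θ = AddChar.mulShift ψ a := by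
  classical
  have hprim : ψ.IsPrimitive := AddChar.IsPrimitive.of_ne_one hψ
  have hinj : Function.Injective (fun a : F => AddChar.mulShift ψ a) :=
    AddChar.to_mulShift_inj_of_isPrimitive hprim
  have hli := linearIndependent_monoidHom (Multiplicative F) L
  have hinj2 : Function.Injective (fun χ : AddChar F L => (AddChar.toMonoidHom χ : Multiplicative F →* L)) := by
    intro χ₁ χ₂ h
    ext a
    have := DFunLike.congr_fun h (Multiplicative.ofAdd a)
    simpa using this
  have hli2 := hli.comp _ hinj2
  haveI : Finite (AddChar F L) := hli2.finite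
  haveI : Fintype (AddChar F L) := Fintype.ofFinite _
  have hcard : Fintype.card (AddChar F L) ≤ Fintype.card F := by
    have := hli2.fintype_card_le_finrank
    simpa using this
  have hbij := (Fintype.bijective_iff_injective_and_card _).mpr ⟨hinj, le_antisymm (Fintype.card_le_of_injective _ hinj) hcard⟩
  obtain ⟨a, ha⟩ := hbij.2 θ
  exact ⟨a, ha.symm⟩

theorem main (hm : 2 ≤ m) (hK : ringChar K ≠ ringChar F)
    (hker : ρ.ker ≤ Subgroup.center (Matrix.SpecialLinearGroup (Fin (m + 1)) F)) :
    (Fintype.card F) ^ m - 1 ≤ d := by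
  classical
  set q := Fintype.card F with hq
  set p := ringChar F with hp
  haveI : CharP F p := ringChar.charP F
  have hpp : p.Prime := by
    rcases CharP.char_is_prime_or_zero F p with h | h
    · exact h
    · exfalso
      rw [h] at this
      exact CharP.char_ne_zero_of_finite F 0 rfl
  have hpK : (p : K) ≠ 0 := by
    rw [Ne, ringChar.spec K p]
    intro h
    rcases (Nat.dvd_prime hpp).mp h with h | h
    · have := CharP.ringChar_ne_one (R := K)
      exact this h
    · exact hK h
  have hpL : (p : AlgebraicClosure K) ≠ 0 := by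
    intro h
    apply hpK
    have : (algebraMap K (AlgebraicClosure K)) (p : K) = 0 := by
      rw [map_natCast]; exact h
    exact (map_eq_zero_iff _ (algebraMap K (AlgebraicClosure K)).injective).mp this
  have hpa : ∀ a : Fin m → F, p • a = 0 := by
    intro a
    funext i
    simp [CharP.cast_eq_zero F p]
  let j₀ : Fin m := ⟨0, by omega⟩
  have hX1 : rhoBar ρ (XX (Pi.single j₀ (1 : F))) ≠ 1 := by
    apply rhoBar_ne_one
    intro h
    exact XX_not_central j₀ (hker (MonoidHom.mem_ker.mpr h))
  obtain ⟨χ, hχ, hχ1⟩ := wt_exists (rhoBar ρ) (XX : (Fin m → F) → _) p hpp.ne_zero hpL XX_add hpa _ hX1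
  -- the reference character
  let ι : ∀ j : Fin m, F →+ (Fin m → F) := fun j =>
    { toFun := fun r => (Pi.single j r : Fin m → F)
      map_zero' := by simp
      map_add' := fun a b => by
        funext k
        by_cases hk : k = j
        · subst hk; simp
        · simp [Pi.single_apply, hk] }
  let ψ : AddChar F (AlgebraicClosure K) := χ.compAddMonoidHom (ι j₀)
  have hψ1 : ψ ≠ 1 := by
    intro h
    apply hχ1
    have := DFunLike.congr_fun h 1
    simpa [ψ, ι] using this
  have hprim : ψ.IsPrimitive := AddChar.IsPrimitive.of_ne_one hψ1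
  have hψinj : ∀ a b : F, (∀ r, ψ (a * r) = ψ (b * r)) → a = b := by
    intro a b h
    apply AddChar.to_mulShift_inj_of_isPrimitive hprim
    ext r
    simpa [AddChar.mulShift_apply] using h r
  -- the dot product characters
  let dotH : (Fin m → F) → ((Fin m → F) →+ F) := fun w =>
    { toFun := fun s => w ⬝ᵥ s
      map_zero' := by simp
      map_add' := fun a b => dotProduct_add _ _ _ }
  let ψw : (Fin m → F) → AddChar (Fin m → F) (AlgebraicClosure K) := fun w => ψ.compAddMonoidHom (dotH w)
  have hψw : ∀ w s, ψw w s = ψ (w ⬝ᵥ s) := fun w s => rfl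
  -- every character is a dot product character
  have hclass : ∀ θ : AddChar (Fin m → F) (AlgebraicClosure K), ∃ w, θ = ψw w := by
    intro θ
    have h1 : ∀ j, ∃ a : F, θ.compAddMonoidHom (ι j) = AddChar.mulShift ψ a := fun j => char_field ψ hψ1 _
    choose w hw using h1
    refine ⟨w, ?_⟩
    ext s
    rw [hψw]
    have hs : s = ∑ j, ι j (s j) := by
      funext k
      simp [ι, Pi.single_apply, Finset.sum_apply]
    conv_lhs => rw [hs]
    rw [ac_sum]
    simp only [dotProduct]
    rw [ac_sum]
    refine Finset.prod_congr rfl fun j _ => ?_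
    have := DFunLike.congr_fun (hw j) (s j)
    simpa [AddChar.mulShift_apply] using this
  -- the set of weights as vectors
  let W : Set (Fin m → F) := {w | ψw w ∈ Wt (rhoBar ρ) XX}
  have hW : ∀ w ∈ W, ∀ i j (t : F), i ≠ j → w + (t * w j) • Pi.single i 1 ∈ W := by
    intro w hw i j t hij
    have h1 := wt_conj (rhoBar ρ) XX (EE i j t hij) (alphaM i j t) (fun a => XX_EE i j t hij a) hw
    have h2 : (ψw w).compAddMonoidHom (alphaM i j t) = ψw (w + (t * w j) • Pi.single i 1) := by
      ext s
      have e1 : ∀ s', (ψw w).compAddMonoidHom (alphaM i j t) s' = ψ (w ⬝ᵥ (s' + (t * s' i) • Pi.single j 1)) := fun s' => rfl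
      rw [e1, hψw]
      congr 1
      rw [dotProduct_add, dotProduct_smul, add_dotProduct, smul_dotProduct]
      simp [smul_eq_mul]
      ring
    show ψw _ ∈ Wt (rhoBar ρ) XX
    rw [← h2]
    exact h1
  obtain ⟨w₀, hw₀⟩ := hclass χ
  have hw₀W : w₀ ∈ W := by
    show ψw w₀ ∈ Wt (rhoBar ρ) XX
    rw [← hw₀]
    exact hχ
  have hw₀0 : w₀ ≠ 0 := by
    rintro rfl
    apply hχ1
    rw [hw₀, hψw]
    simp
  have hall : ∀ u : Fin m → F, u ≠ 0 → u ∈ W := fun u hu => all_nonzero hm W hW w₀ hw₀W hw₀0 u hu
  have hinj : Function.Injective ψw := by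
    intro w w' h
    funext j
    apply hψinj
    intro r
    have h1 := DFunLike.congr_fun h (Pi.single j r)
    rw [hψw, hψw] at h1
    simpa using h1
  have hcard := wt_card (rhoBar ρ) XX ((Finset.univ.filter (fun w : Fin m → F => w ≠ 0)).image ψw) (by
    intro χ' h
    obtain ⟨x, hx, rfl⟩ := Finset.mem_image.mp h
    exact hall x (Finset.mem_filter.mp hx).2)
  rw [Finset.card_image_of_injective _ hinj, Finset.filter_ne', Finset.card_erase_of_mem (Finset.mem_univ _),
    Finset.card_univ, Fintype.card_fun, Fintype.card_fin] at hcard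
  exact hcard

end Main

end Cfsg.Agent.Lib.KS2.WtSL
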