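import Mathlib
import Cfsg.Agent.Lib.KS2.Weights

/-!
The lower bound for symplectic groups in cross characteristic.
-/

set_option autoImplicit false
set_option linter.unusedSimpArgs false
set_option linter.unusedVariables false
set_option linter.deprecated false

namespace Cfsg.Agent.Lib.KS2.WtSp

open Matrix Cfsg.Agent.Lib.KS2.Weights

variable {F : Type*} [Field F] [Fintype F] {m : ℕ}

/-- The symmetric matrix with first row `s`. -/
def SS (s : Fin (m + 1) → F) : Matrix (Fin (m + 1)) (Fin (m + 1)) F :=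
  Matrix.of fun i j => if i = 0 then s j else if j = 0 then s i else 0

lemma SS_apply (s : Fin (m + 1) → F) (i j) : SS s i j = if i = 0 then s j else if j = 0 then s i else 0 := rfl

lemma SS_add (s s' : Fin (m + 1) → F) : SS (s + s') = SS s + SS s' := by
  ext i j
  simp only [SS_apply, Pi.add_apply, Matrix.add_apply]
  split_ifs <;> simp

lemma SS_smul (t : F) (s : Fin (m + 1) → F) : SS (t • s) = t • SS s := by
  ext i j
  simp only [SS_apply, Pi.smul_apply, Matrix.smul_apply, smul_eq_mul]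
  split_ifs <;> simp

lemma SS_transpose (s : Fin (m + 1) → F) : (SS s)ᵀ = SS s := by
  ext i j
  simp only [SS_apply, Matrix.transpose_apply]
  by_cases hi : i = 0 <;> by_cases hj : j = 0 <;> simp [hi, hj]

/-- The unipotent element. -/
def XX (s : Fin (m + 1) → F) : symplecticGroup (Fin (m + 1)) F :=
  ⟨fromBlocks 1 (SS s) 0 1, by
    rw [SymplecticGroup.mem_iff, J, fromBlocks_multiply, fromBlocks_transpose, fromBlocks_multiply]
    simp [SS_transpose]⟩

lemma XX_add (s s' : Fin (m + 1) → F) : XX (s + s') = XX s * XX s' := by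
  apply Subtype.ext
  show fromBlocks 1 (SS (s + s')) 0 1 = fromBlocks 1 (SS s) 0 1 * fromBlocks 1 (SS s') 0 1
  rw [fromBlocks_multiply, SS_add]
  simp [add_comm]

/-- The Levi elements. -/
def MM (g h : Matrix (Fin (m + 1)) (Fin (m + 1)) F) (hgh : g * hᵀ = 1) : symplecticGroup (Fin (m + 1)) F :=
  ⟨fromBlocks g 0 0 h, by
    have h2 : h * gᵀ = 1 := by
      have := congrArg Matrix.transpose hgh
      simpa using this
    rw [SymplecticGroup.mem_iff, J, fromBlocks_multiply, fromBlocks_transpose, fromBlocks_multiply]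
    simp [hgh, h2]⟩

lemma XX_MM (g h : Matrix (Fin (m + 1)) (Fin (m + 1)) F) (hgh : g * hᵀ = 1) (s s' : Fin (m + 1) → F)
    (h1 : SS s * h = g * SS s') : XX s * MM g h hgh = MM g h hgh * XX s' := by
  apply Subtype.ext
  show fromBlocks 1 (SS s) 0 1 * fromBlocks g 0 0 h = fromBlocks g 0 0 h * fromBlocks 1 (SS s') 0 1
  rw [fromBlocks_multiply, fromBlocks_multiply]
  simp [h1]

/-- The first basis vector. -/
def e0 : Fin (m + 1) → F := Pi.single 0 1

lemma SS_mulVec (s c : Fin (m + 1) → F) (hc : c 0 = 0) : SS s *ᵥ c = (s ⬝ᵥ c) • e0 := by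
  ext i
  by_cases hi : i = 0
  · subst hi
    simp [Matrix.mulVec, SS_apply, e0, dotProduct]
  · simp [Matrix.mulVec, SS_apply, e0, dotProduct, hi, Pi.single_apply, hc]

lemma vecMul_SS (s c : Fin (m + 1) → F) (hc : c 0 = 0) : c ᵥ* SS s = (c ⬝ᵥ s) • e0 := by
  ext j
  by_cases hj : j = 0
  · subst hj
    simp only [Matrix.vecMul, SS_apply, e0, dotProduct, Pi.smul_apply, Pi.single_eq_same, smul_eq_mul, mul_one]
    refine Finset.sum_congr rfl fun i _ => ?_
    by_cases hi : i = 0
    · subst hi; simp [hc]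
    · simp [hi]
  · simp only [Matrix.vecMul, SS_apply, e0, dotProduct, Pi.smul_apply, smul_eq_mul, hj, if_false, Pi.single_apply, mul_zero]
    apply Finset.sum_eq_zero
    intro i _
    by_cases hi : i = 0
    · subst hi; simp [hc]
    · simp [hi]

lemma SS_e0 : SS (e0 : Fin (m + 1) → F) = vecMulVec e0 e0 := by
  ext i j
  by_cases hi : i = 0 <;> by_cases hj : j = 0 <;> simp [SS_apply, vecMulVec_apply, e0, hi, hj, Pi.single_apply]

/-- The additive map attached to a vector `c`. -/
def alphaC (c : Fin (m + 1) → F) : (Fin (m + 1) → F) →+ (Fin (m + 1) → F) where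
  toFun s := s + (2 * (c ⬝ᵥ s)) • e0
  map_zero' := by simp
  map_add' s s' := by
    rw [dotProduct_add, mul_add, add_smul]
    abel

/-- Scaling. -/
def betaT (t : F) : (Fin (m + 1) → F) →+ (Fin (m + 1) → F) where
  toFun s := (t ^ 2) • s
  map_zero' := by simp
  map_add' s s' := by simp

lemma dot_e0 (c : Fin (m + 1) → F) : c ⬝ᵥ (e0 : Fin (m + 1) → F) = c 0 := by
  simp [e0]

lemma e0_dot (c : Fin (m + 1) → F) : (e0 : Fin (m + 1) → F) ⬝ᵥ c = c 0 := by
  simp [e0]

lemma gh_C (c : Fin (m + 1) → F) (hc : c 0 = 0) :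
    (1 - vecMulVec (e0 : Fin (m + 1) → F) c) * (1 + vecMulVec c e0)ᵀ = 1 := by
  rw [transpose_add, transpose_one, transpose_vecMulVec, sub_mul, one_mul, mul_add, _root_.mul_one,
    vecMulVec_mul_vecMulVec, dot_e0, hc]
  simp

lemma rel_C (c : Fin (m + 1) → F) (hc : c 0 = 0) (s : Fin (m + 1) → F) :
    SS s * (1 + vecMulVec c e0) = (1 - vecMulVec (e0 : Fin (m + 1) → F) c) * SS (alphaC c s) := by
  have hs : alphaC c s = s + (2 * (c ⬝ᵥ s)) • e0 := rfl
  have hdot : c ⬝ᵥ alphaC c s = c ⬝ᵥ s := by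
    rw [hs, dotProduct_add, dotProduct_smul, dot_e0, hc]
    simp
  rw [mul_add, mul_one, mul_vecMulVec, SS_mulVec s c hc, sub_mul, one_mul, vecMulVec_mul, vecMul_SS _ c hc, hdot,
    hs, SS_add, SS_smul, SS_e0, smul_vecMulVec, vecMulVec_smul, dotProduct_comm s c]
  rw [two_mul, add_smul]
  abel

lemma gh_T (t : F) (ht : t ≠ 0) : ((t⁻¹ • 1 : Matrix (Fin (m + 1)) (Fin (m + 1)) F)) * (t • 1 : Matrix (Fin (m + 1)) (Fin (m + 1)) F)ᵀ = 1 := by
  rw [transpose_smul, transpose_one, smul_mul_assoc, mul_smul_comm, one_mul, smul_smul, inv_mul_cancel₀ ht, one_smul]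

lemma rel_T (t : F) (ht : t ≠ 0) (s : Fin (m + 1) → F) :
    SS s * (t • 1) = (t⁻¹ • 1 : Matrix (Fin (m + 1)) (Fin (m + 1)) F) * SS (betaT t s) := by
  have hs : betaT t s = (t ^ 2) • s := rfl
  rw [hs, SS_smul, mul_smul_comm, mul_one, smul_mul_assoc, one_mul, smul_smul]
  congr 1
  field_simp

section Main

variable {K : Type*} [Field K] {d : ℕ}
  (ρ : symplecticGroup (Fin (m + 1)) F →* GL (Fin d) K)

/-- The extension of scalars to the algebraic closure. -/
noncomputable def rhoBar : symplecticGroup (Fin (m + 1)) F →* GL (Fin d) (AlgebraicClosure K) :=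
  (Matrix.GeneralLinearGroup.map (algebraMap K (AlgebraicClosure K))).comp ρ

lemma rhoBar_ne_one {x : symplecticGroup (Fin (m + 1)) F} (hx : ρ x ≠ 1) : rhoBar ρ x ≠ 1 := by
  intro h
  apply hx
  apply Units.ext
  have h1 := congrArg Units.val h
  ext i j
  have h2 := congrFun (congrFun h1 i) j
  simp only [rhoBar, MonoidHom.comp_apply, Units.val_one, Matrix.GeneralLinearGroup.map_apply] at h2
  simp only [Units.val_one]
  by_cases hij : i = j
  · subst hij
    simpa using h2
  · simpa [Matrix.one_apply, hij] using h2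

lemma XX_e0_not_central : (XX (e0 : Fin (m + 1) → F)) ∉ Subgroup.center (symplecticGroup (Fin (m + 1)) F) := by
  intro h
  have h1 := (Subgroup.mem_center_iff.mp h) ⟨J (Fin (m + 1)) F, SymplecticGroup.J_mem _ _⟩
  have h2 := congrArg Subtype.val h1
  change J (Fin (m + 1)) F * fromBlocks 1 (SS e0) 0 1 = fromBlocks 1 (SS e0) 0 1 * J (Fin (m + 1)) F at h2
  rw [J, fromBlocks_multiply, fromBlocks_multiply] at h2
  simp only [Matrix.zero_mul, Matrix.mul_zero, zero_add, add_zero, Matrix.one_mul, Matrix.mul_one, Matrix.neg_mul] at h2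
  have h3 := (fromBlocks_inj.mp h2).1
  have h4 := congrFun (congrFun h3 0) 0
  simp [SS_apply, e0] at h4

theorem main (hodd : Odd (Fintype.card F)) (hK : ringChar K ≠ ringChar F)
    (hker : ρ.ker ≤ Subgroup.center (symplecticGroup (Fin (m + 1)) F)) :
    (Fintype.card F) ^ m * (Fintype.card F - 1) / 2 ≤ d := by
  classical
  set q := Fintype.card F with hq
  set p := ringChar F with hp
  haveI : CharP F p := ringChar.charP F
  have hpp : p.Prime := by
    rcases CharP.char_is_prime_or_zero F p with h | h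
    · exact h
    · exfalso
      rw [h] at this
      exact CharP.char_ne_zero_of_finite F 0 rfl
  have hpK : (p : K) ≠ 0 := by
    rw [Ne, ringChar.spec K p]
    intro h
    rcases (Nat.dvd_prime hpp).mp h with h | h
    · have := CharP.ringChar_ne_one (R := K)
      exact this h
    · exact hK h
  have hpL : (p : AlgebraicClosure K) ≠ 0 := by
    intro h
    apply hpK
    have : (algebraMap K (AlgebraicClosure K)) (p : K) = 0 := by
      rw [map_natCast]; exact h
    exact (map_eq_zero_iff _ (algebraMap K (AlgebraicClosure K)).injective).mp this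
  have hpa : ∀ a : Fin (m + 1) → F, p • a = 0 := by
    intro a
    funext i
    simp [CharP.cast_eq_zero F p]
  have hX1 : rhoBar ρ (XX (e0 : Fin (m + 1) → F)) ≠ 1 := by
    apply rhoBar_ne_one
    intro h
    exact XX_e0_not_central (hker (MonoidHom.mem_ker.mpr h))
  obtain ⟨χ, hχ, hχ1⟩ := wt_exists (rhoBar ρ) (XX : (Fin (m + 1) → F) → _) p hpp.ne_zero hpL XX_add hpa e0 hX1
  -- the character on the centre
  let ι : F →+ (Fin (m + 1) → F) :=
    { toFun := fun r => r • e0
      map_zero' := by simp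
      map_add' := fun a b => add_smul a b e0 }
  let ψ : AddChar F (AlgebraicClosure K) := χ.compAddMonoidHom ι
  have hψ1 : ψ ≠ 1 := by
    intro h
    apply hχ1
    have := DFunLike.congr_fun h 1
    simpa [ψ, ι] using this
  have hprim : ψ.IsPrimitive := AddChar.IsPrimitive.of_ne_one hψ1
  have hψinj : ∀ a b : F, (∀ r, ψ (a * r) = ψ (b * r)) → a = b := by
    intro a b h
    apply AddChar.to_mulShift_inj_of_isPrimitive hprim
    ext r
    simpa [AddChar.mulShift_apply] using h r
  -- the family of weights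
  let cv : (Fin m → F) → (Fin (m + 1) → F) := fun v => Fin.cons 0 v
  have hcv : ∀ v, cv v 0 = 0 := fun v => rfl
  let Ψ : Fˣ → (Fin m → F) → AddChar (Fin (m + 1) → F) (AlgebraicClosure K) := fun t v =>
    (χ.compAddMonoidHom (alphaC (cv v))).compAddMonoidHom (betaT (t : F))
  have hΨ : ∀ t v, Ψ t v ∈ Wt (rhoBar ρ) XX := by
    intro t v
    apply wt_conj (rhoBar ρ) XX (MM ((t : F)⁻¹ • 1) ((t : F) • 1) (gh_T (t : F) t.ne_zero)) (betaT (t : F))
    · intro a
      exact XX_MM _ _ _ _ _ (rel_T (t : F) t.ne_zero a)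
    · apply wt_conj (rhoBar ρ) XX (MM _ _ (gh_C (cv v) (hcv v))) (alphaC (cv v))
      · intro a
        exact XX_MM _ _ _ _ _ (rel_C (cv v) (hcv v) a)
      · exact hχ
  have hΨa : ∀ t v a, Ψ t v a = χ ((t : F) ^ 2 • a + (2 * (cv v ⬝ᵥ ((t : F) ^ 2 • a))) • e0) := fun t v a => rfl
  have h2 : (2 : F) ≠ 0 := by
    intro h
    have hd : p ∣ 2 := by
      have := (CharP.cast_eq_zero_iff F p 2).mp (by exact_mod_cast h)
      exact this
    have hp2 : p = 2 := (Nat.prime_dvd_prime_iff_eq hpp Nat.prime_two).mp hd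
    obtain ⟨k, hk⟩ := FiniteField.card F p
    have hqeq : q = p ^ (k : ℕ) := hk.2
    rw [hqeq, hp2] at hodd
    exact (Nat.not_even_iff_odd.mpr hodd) (Nat.even_pow.mpr ⟨even_two, k.ne_zero⟩)
  have hinj1 : ∀ t t' v v', Ψ t v = Ψ t' v' → (t : F) ^ 2 = (t' : F) ^ 2 := by
    intro t t' v v' h
    apply hψinj
    intro r
    have h3 := DFunLike.congr_fun h (r • e0)
    rw [hΨa, hΨa] at h3
    have e1 : ∀ (w : Fin m → F) (u : F), cv w ⬝ᵥ (u • (r • (e0 : Fin (m + 1) → F))) = 0 := by
      intro w u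
      rw [dotProduct_smul, dotProduct_smul, dot_e0, hcv]; simp
    rw [e1, e1] at h3
    simp only [mul_zero, zero_smul, add_zero, smul_smul] at h3
    exact h3
  have hinj2 : ∀ t t' v v', Ψ t v = Ψ t' v' → v = v' := by
    intro t t' v v' h
    have hsq := hinj1 t t' v v' h
    funext j
    set τ : F := (t : F) ^ 2 with hτ
    have hτ0 : τ ≠ 0 := pow_ne_zero 2 t.ne_zero
    have hsq' : (t' : F) ^ 2 = τ := hsq.symm
    have : (2 * τ) * v j = (2 * τ) * v' j := by
      apply hψinj
      intro r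
      have h3 := DFunLike.congr_fun h (r • Pi.single j.succ 1)
      rw [hΨa, hΨa, hsq', ← hτ] at h3
      have e1 : ∀ (w : Fin m → F), cv w ⬝ᵥ (τ • (r • (Pi.single j.succ 1 : Fin (m + 1) → F))) = τ * (r * w j) := by
        intro w
        rw [dotProduct_smul, dotProduct_smul]
        simp [cv, smul_eq_mul]
      rw [e1, e1] at h3
      simp only [AddChar.map_add_eq_mul] at h3
      have hne : χ (τ • r • Pi.single j.succ (1 : F)) ≠ 0 := by
        intro h0
        have := AddChar.map_neg_eq_inv χ (τ • r • Pi.single j.succ (1 : F))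
        have h5 : χ (τ • r • Pi.single j.succ (1 : F)) * χ (-(τ • r • Pi.single j.succ (1 : F))) = 1 := by
          rw [← AddChar.map_add_eq_mul]; simp
        rw [h0, zero_mul] at h5
        exact zero_ne_one h5
      have h6 := mul_left_cancel₀ hne h3
      have e2 : ∀ x : F, ψ x = χ (x • e0) := fun x => rfl
      rw [e2, e2]
      have e3 : ∀ x : F, (2 * τ * x) * r = 2 * (τ * (r * x)) := by
        intro x; ring
      rw [e3, e3]
      exact h6
    have h20 : (2 * τ) ≠ 0 := mul_ne_zero h2 hτ0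
    exact mul_left_cancel₀ h20 this
  -- counting
  let Sq : Subgroup Fˣ := (powMonoidHom 2 : Fˣ →* Fˣ).range
  have hsqrt : ∀ τ : Sq, ∃ t : Fˣ, t ^ 2 = τ.1 := fun τ => τ.2
  choose sq hsq using hsqrt
  let D := Sq × (Fin m → F)
  let f : D → AddChar (Fin (m + 1) → F) (AlgebraicClosure K) := fun x => Ψ (sq x.1) x.2
  have hf : Function.Injective f := by
    rintro ⟨τ, v⟩ ⟨τ', v'⟩ h
    have h1 := hinj1 _ _ _ _ h
    have h2 := hinj2 _ _ _ _ h
    have h3 : τ = τ' := by
      apply Subtype.ext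
      apply Units.ext
      rw [← hsq, ← hsq]
      simpa using h1
    have h4 : v = v' := h2
    rw [h4, h3]
  haveI : Fintype Sq := Fintype.ofFinite _
  have hcard := wt_card (rhoBar ρ) XX (Finset.univ.image f) (by
    intro χ' h
    obtain ⟨x, -, rfl⟩ := Finset.mem_image.mp h
    exact hΨ _ _)
  rw [Finset.card_image_of_injective _ hf, Finset.card_univ] at hcard
  have hcardD : Fintype.card D = Fintype.card Sq * q ^ m := by
    show Fintype.card (Sq × (Fin m → F)) = _
    rw [Fintype.card_prod, Fintype.card_fun, Fintype.card_fin]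
  rw [hcardD] at hcard
  have hSq : Fintype.card Sq = (q - 1) / 2 := by
    rw [Fintype.card_eq_nat_card, IsCyclic.card_powMonoidHom_range, Nat.card_eq_fintype_card, Fintype.card_units]
    have : (q - 1).gcd 2 = 2 := by
      apply Nat.gcd_eq_right
      obtain ⟨k, hk⟩ := hodd
      omega
    rw [this]
  rw [hSq] at hcard
  have h2dvd : 2 ∣ q - 1 := by
    obtain ⟨k, hk⟩ := hodd
    omega
  rw [Nat.mul_div_assoc _ h2dvd, mul_comm]
  exact hcard

end Main

end Cfsg.Agent.Lib.KS2.WtSp
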